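import Cfsg.Agent.Lib.UMS.Defs

set_option autoImplicit false
set_option linter.unusedSectionVars false

namespace UMS
namespace Api

open Subgroup H69 Cfsg Matrix U4S
open LMS (XX GX iL kk MM au tw Sg)
open scoped MatrixGroups commutatorElement

variable {n : ℕ} {F : Type*} [Field F] [CharP F 2] [Hs F]

theorem σσ (a : F) : σ (σ a) = a := Hs.sg.2 a

theorem bt_add_l (x y z : VV n F) : bt (x + y) z = bt x z + bt y z := by
  simp [bt, add_mul, Finset.sum_add_distrib]
theorem bt_add_r (x y z : VV n F) : bt x (y + z) = bt x y + bt x z := by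
  simp [bt, mul_add, Finset.sum_add_distrib]
theorem bt_smul_l (a : F) (x y : VV n F) : bt (a • x) y = a * bt x y := by
  simp [bt, Finset.mul_sum, mul_assoc]
theorem bt_smul_r (a : F) (x y : VV n F) : bt x (a • y) = σ a * bt x y := by
  simp [bt, Finset.mul_sum, mul_left_comm]
theorem bt_zero_l (x : VV n F) : bt 0 x = 0 := by simp [bt]
theorem bt_zero_r (x : VV n F) : bt x 0 = 0 := by simp [bt]
theorem bt_conj (x y : VV n F) : σ (bt x y) = bt y x := by
  simp only [bt, map_sum, map_mul, σσ]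
  exact Fintype.sum_equiv Fin.revPerm _ _ fun j => by simp [mul_comm]
theorem bt_ee_r (x : VV n F) (i : Fin (n + 3)) : bt x (ee i) = x i.rev := by
  unfold bt ee
  rw [Finset.sum_eq_single i.rev]
  · simp
  · intro b _ hb
    have : b.rev ≠ i := fun h => hb (by rw [← h, Fin.rev_rev])
    simp [this]
  · simp
theorem bt_ee_l (x : VV n F) (i : Fin (n + 3)) : bt (ee i) x = σ (x i.rev) := by
  rw [← bt_conj, bt_ee_r]
theorem bt_ee (i j : Fin (n + 3)) : bt (ee i : VV n F) (ee j) = if j.rev = i then 1 else 0 := by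
  rw [bt_ee_r]; simp [ee, Pi.single_apply]
theorem hm_mulVec (u v x : VV n F) : hm u v *ᵥ x = bt x v • u := by
  ext i
  simp [hm, bt, mulVec, dotProduct, vecMulVec_apply, Finset.mul_sum, mul_comm, mul_left_comm]
theorem mat_ext {A B : Matrix (Fin (n + 3)) (Fin (n + 3)) F} (h : ∀ x, A *ᵥ x = B *ᵥ x) : A = B := by
  ext i j
  have := congrFun (h (Pi.single j 1)) i
  simpa using this
theorem hm_mul (u v a b : VV n F) : hm u v * hm a b = bt a v • hm u b := by
  refine mat_ext fun x => ?_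
  rw [← mulVec_mulVec, hm_mulVec, hm_mulVec, smul_mulVec, hm_mulVec, bt_smul_l, smul_smul, mul_comm]
theorem det_hm (u v : VV n F) : (1 + hm u v).det = 1 + bt u v := by
  unfold hm
  rw [vecMulVec_eq Unit, det_one_add_replicateCol_mul_replicateRow]
  simp [bt, dotProduct, mul_comm]
theorem bt_nondeg {x : VV n F} (h : ∀ y, bt x y = 0) : x = 0 := by
  ext i
  have := h (ee i.rev)
  rwa [bt_ee_r, Fin.rev_rev] at this

theorem τ_val (x : XX n F) : (τ x).1 = (pmL Fin.revPerm : XX n F).1 * ((x⁻¹).1.map σ)ᵀ * (pmL Fin.revPerm : XX n F).1 := by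
  have e : (pmL Fin.revPerm : XX n F)⁻¹ = pmL Fin.revPerm := by
    rw [← map_inv]; rfl
  change ((pmL Fin.revPerm : XX n F) * LMS.it (fr σ x) * (pmL Fin.revPerm)⁻¹).1 = _
  rw [e, Matrix.SpecialLinearGroup.coe_mul, Matrix.SpecialLinearGroup.coe_mul, LMS.it_val, ← map_inv, fr_val]

theorem τ_apply (x : XX n F) (i j : Fin (n + 3)) : (τ x).1 i j = σ ((x⁻¹).1 j.rev i.rev) := by
  rw [τ_val, pmL_val]
  simp [Equiv.Perm.permMatrix, PEquiv.toMatrix_toPEquiv_mul, PEquiv.mul_toMatrix_toPEquiv]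
  rfl

theorem bt_τ (x : XX n F) (u v : VV n F) : bt ((τ x).1 *ᵥ u) v = bt u ((x⁻¹).1 *ᵥ v) := by
  simp only [bt, mulVec, dotProduct, τ_apply, map_sum, map_mul, Finset.sum_mul, Finset.mul_sum]
  rw [Finset.sum_comm]
  refine Finset.sum_congr rfl fun j _ => ?_
  exact Fintype.sum_equiv Fin.revPerm _ _ fun k => by simp; ring

theorem mem_XU {x : XX n F} : x ∈ XU n F ↔ ∀ u v, bt (x.1 *ᵥ u) (x.1 *ᵥ v) = bt u v := by
  constructor
  · intro h u v
    have h : τ x = x := h
    conv_lhs => rw [← h]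
    rw [bt_τ, h, mulVec_mulVec, ← Matrix.SpecialLinearGroup.coe_mul, inv_mul_cancel]
    simp
  · intro h
    change τ x = x
    refine Subtype.ext (mat_ext fun u => ?_)
    have : (τ x).1 *ᵥ u + x.1 *ᵥ u = 0 := bt_nondeg fun y => by
      rw [bt_add_l, bt_τ, ← h, mulVec_mulVec, ← Matrix.SpecialLinearGroup.coe_mul, mul_inv_cancel]
      simp [CharTwo.add_self_eq_zero]
    ext i
    have := congrFun this i
    simpa [CharTwo.add_eq_zero] using this

theorem bt_ac (x : XU n F) (u v : VV n F) : bt (ac x u) (ac x v) = bt u v := mem_XU.1 x.2 u v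

theorem mk_val {M : Matrix (Fin (n + 3)) (Fin (n + 3)) F} (d : M.det = 1)
    (h : ∀ u v, bt (M *ᵥ u) (M *ᵥ v) = bt u v) : (mk M : XU n F).1.1 = M := by
  have e : (mx M : XX n F) = ⟨M, d⟩ := dif_pos d
  have k : mx M ∈ XU n F := by rw [e]; exact mem_XU.2 h
  unfold mk
  rw [dif_pos k]
  change (mx M : XX n F).1 = M
  rw [e]

theorem tc_val {v : VV n F} (h : bt v v = 0) (c : K0 F) : (tc v c).1.1 = 1 + (c : F) • hm v v := by
  have hc : σ (c : F) = c := c.2
  apply mk_val
  · have : (c : F) • hm v v = hm ((c : F) • v) v := by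
      refine mat_ext fun x => ?_
      rw [smul_mulVec, hm_mulVec, hm_mulVec, smul_comm]
    rw [this, det_hm, bt_smul_l, h]; simp
  · intro a b
    simp only [add_mulVec, one_mulVec, smul_mulVec, hm_mulVec, bt_add_l, bt_add_r, bt_smul_l, bt_smul_r, h, hc,
      bt_conj]
    have : (2 : F) = 0 := CharTwo.two_eq_zero
    linear_combination ((c : F) * bt a v * bt v b) * this

theorem sh_val {u v : VV n F} (hu : bt u u = 0) (hv : bt v v = 0) (h : bt u v = 0) :
    (sh u v).1.1 = 1 + hm u v + hm v u := by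
  have h' : bt v u = 0 := by rw [← bt_conj, h, map_zero]
  apply mk_val
  · have : 1 + hm u v + hm v u = (1 + hm u v) * (1 + hm v u) := by
      rw [add_mul, mul_add, mul_add, hm_mul, hv]; simp; abel
    rw [this, det_mul, det_hm, det_hm, h, h']; simp
  · intro a b
    simp only [add_mulVec, one_mulVec, hm_mulVec, bt_add_l, bt_add_r, bt_smul_l, bt_smul_r, h, hu, hv, h',
      bt_conj]
    have : (2 : F) = 0 := CharTwo.two_eq_zero
    linear_combination (bt a v * bt u b + bt a u * bt v b) * this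

theorem ac_tc {v : VV n F} (h : bt v v = 0) (c : K0 F) (x : VV n F) :
    ac (tc v c) x = x + ((c : F) * bt x v) • v := by
  unfold ac; rw [tc_val h, add_mulVec, one_mulVec, smul_mulVec, hm_mulVec, smul_smul]

theorem ac_sh {u v : VV n F} (hu : bt u u = 0) (hv : bt v v = 0) (h : bt u v = 0) (x : VV n F) :
    ac (sh u v) x = x + bt x v • u + bt x u • v := by
  unfold ac; rw [sh_val hu hv h, add_mulVec, add_mulVec, one_mulVec, hm_mulVec, hm_mulVec]

theorem ac_mul (x y : XU n F) (v : VV n F) : ac (x * y) v = ac x (ac y v) := by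
  unfold ac; rw [mulVec_mulVec]; rfl
theorem ac_one (v : VV n F) : ac (1 : XU n F) v = v := one_mulVec v
theorem ac_add (x : XU n F) (u v : VV n F) : ac x (u + v) = ac x u + ac x v := mulVec_add _ _ _
theorem ac_smul (x : XU n F) (a : F) (v : VV n F) : ac x (a • v) = a • ac x v := mulVec_smul _ _ _
theorem ac_inv_ac (x : XU n F) (v : VV n F) : ac x⁻¹ (ac x v) = v := by rw [← ac_mul, inv_mul_cancel, ac_one]
theorem ac_ac_inv (x : XU n F) (v : VV n F) : ac x (ac x⁻¹ v) = v := by rw [← ac_mul, mul_inv_cancel, ac_one]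
theorem xu_ext {x y : XU n F} (h : ∀ v, ac x v = ac y v) : x = y := Subtype.ext (Subtype.ext (mat_ext h))
theorem bt_ac_inv (x : XU n F) (u v : VV n F) : bt (ac x⁻¹ u) v = bt u (ac x v) := by
  rw [← bt_ac x, ac_ac_inv]

theorem cj_tc (x : XU n F) {v : VV n F} (h : bt v v = 0) (c : K0 F) : x * tc v c * x⁻¹ = tc (ac x v) c := by
  refine xu_ext fun y => ?_
  rw [ac_mul, ac_mul, ac_tc h, ac_tc (by rw [bt_ac, h]), ac_add, ac_smul, ac_ac_inv, bt_ac_inv]

theorem cj_sh (x : XU n F) {u v : VV n F} (hu : bt u u = 0) (hv : bt v v = 0) (h : bt u v = 0) :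
    x * sh u v * x⁻¹ = sh (ac x u) (ac x v) := by
  refine xu_ext fun y => ?_
  rw [ac_mul, ac_mul, ac_sh hu hv h, ac_sh (by rw [bt_ac, hu]) (by rw [bt_ac, hv]) (by rw [bt_ac, h]), ac_add,
    ac_add, ac_smul, ac_smul, ac_ac_inv, bt_ac_inv, bt_ac_inv]

theorem tc_add {v : VV n F} (h : bt v v = 0) (c d : K0 F) : tc v c * tc v d = tc v (c + d) := by
  refine xu_ext fun y => ?_
  rw [ac_mul, ac_tc h, ac_tc h, ac_tc h, bt_add_l, bt_smul_l, h]
  push_cast
  module

end Api
end UMS
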