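import Cfsg.Agent.Lib.UMS.HY
import Cfsg.Agent.Lib.LMS.B5
import Cfsg.Agent.Lib.LMS.NFa

/-! Semilinear automorphisms of `XU`. -/

set_option autoImplicit false
set_option linter.unusedSectionVars false

namespace UMS.H77

open Subgroup H69 Cfsg Matrix U4S UMS.H12
open LMS (XX GX iL kk MM au tw Sg)
open scoped MatrixGroups commutatorElement

universe u
variable {F : Type u} [Field F] [CharP F 2] [Fintype F] [Hs F] {n : ℕ} [Ok n F]

local notation "X" => XU n F
local notation "I" => Fin (n + 3)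
local notation "Mx" => Matrix (Fin (n + 3)) (Fin (n + 3)) F

theorem i0 : (0 : I) ≠ (0 : I).rev := fun h => by simpa using congrArg Fin.val h

theorem iso_sum (P : VV n F → Prop) (h1 : ∀ v, Is v → P v) (h2 : ∀ u v, P u → P v → P (u + v)) (i : I) :
    P (ee i) := by
  by_cases hi : i = i.rev
  · obtain ⟨c, hc⟩ := ex_tr (F := F)
    have c0 : c ≠ 0 := by rintro rfl; simp at hc
    have a0 : i ≠ 0 := fun h => i0 (n := n) (by rw [h] at hi; exact hi)
    have aL : i ≠ (0 : I).rev := fun h => a0 (by rw [hi, h, Fin.rev_rev])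
    have b0 : (0 : I) ≠ i.rev := by rw [← hi]; exact a0.symm
    have bL : (0 : I).rev ≠ i.rev := by rw [← hi]; exact aL.symm
    have e : (ee i : VV n F) = (ee i + c • ee 0 + ee (0 : I).rev) + c • ee 0 + ee (0 : I).rev := by
      ext j
      simp only [Pi.add_apply]
      linear_combination (-(c • (ee 0 : VV n F)) j - (ee (0 : I).rev : VV n F) j) * CharTwo.two_eq_zero (R := F)
    rw [e]
    refine h2 _ _ (h2 _ _ (h1 _ ⟨?_, fun h => ?_⟩) (h1 _ ⟨?_, smul_ne_zero c0 (H76.ee_ne _)⟩))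
      (h1 _ (H76.is_ee (by rw [Fin.rev_rev]; exact i0.symm)))
    · simp only [bt_add_l, bt_add_r, bt_smul_l, bt_smul_r, H76.bt_ee, Fin.rev_rev, if_pos hi, if_neg a0, if_neg aL,
        if_neg b0, if_neg bL, if_neg (i0 (n := n)), if_neg (i0 (n := n)).symm, if_true]
      linear_combination hc + CharTwo.two_eq_zero (R := F)
    · have := congrFun h i
      simp only [ee, Pi.add_apply, Pi.smul_apply, Pi.single_eq_same, Pi.single_eq_of_ne a0, Pi.single_eq_of_ne aL,
        smul_zero, add_zero, Pi.zero_apply] at this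
      exact one_ne_zero this
    · rw [bt_smul_l, bt_smul_r, H76.bt_ee, if_neg i0, mul_zero, mul_zero]
  · exact h1 _ (H76.is_ee hi)

/-- `XU` generates the matrix ring -/
theorem span_all (S : Subring Mx) (h : ∀ x : X, x.1.1 ∈ S) (M : Mx) : M ∈ S := by
  have h3 := Ok.h3 (n := n) (F := F)
  have i1 : (1 : I) ≠ (1 : I).rev := fun h => by
    have := congrArg Fin.val h
    simp at this; omega
  have i2 : (1 : I) ≠ (0 : I).rev := fun h => by
    have := congrArg Fin.val h
    simp at this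
  have i3 : (0 : I).rev ≠ (1 : I).rev := fun h => by
    have := congrArg Fin.val h
    simp at this
  have k0 : ∀ a : F, a • hm (ee 0 : VV n F) (ee 1) ∈ S := fun a => by
    have e0 : bt (ee 0 : VV n F) (ee 0) = 0 := by rw [H76.bt_ee, if_neg i0]
    have e1 : bt (ee 1 : VV n F) (ee 1) = 0 := by rw [H76.bt_ee, if_neg i1]
    have e2 : bt (a • ee (0 : I).rev : VV n F) (a • ee (0 : I).rev) = 0 := by
      rw [bt_smul_l, bt_smul_r, H76.bt_ee, Fin.rev_rev, if_neg i0.symm, mul_zero, mul_zero]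
    have e3 : bt (a • ee (0 : I).rev : VV n F) (ee 1) = 0 := by
      rw [bt_smul_l, H76.bt_ee, if_neg i3, mul_zero]
    have m1 := S.sub_mem (h (tc (ee 0) 1)) S.one_mem
    have m2 := S.sub_mem (h (sh (a • ee (0 : I).rev) (ee 1))) S.one_mem
    rw [tc_val e0, add_sub_cancel_left, OneMemClass.coe_one, one_smul] at m1
    rw [sh_val e2 e1 e3, add_assoc, add_sub_cancel_left] at m2
    have m := S.mul_mem m1 m2
    rwa [Matrix.mul_add, hm_mul, hm_mul, bt_smul_l, H76.bt_ee, H76.bt_ee, if_pos rfl, if_neg i2, zero_smul, add_zero,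
      mul_one] at m
  have k1 : ∀ u v : VV n F, Is u → Is v → ∀ a : F, a • hm u v ∈ S := fun u v hu hv a => by
    obtain ⟨x, hx⟩ := H76.tr_Is (H76.is_ee (F := F) i0) hu
    obtain ⟨y, hy⟩ := H76.tr_Is (H76.is_ee (F := F) i1) hv
    have m := S.mul_mem (S.mul_mem (h x) (k0 a)) (h y⁻¹)
    rwa [Matrix.mul_smul, mul_hm, Matrix.smul_mul, H12.inv_val, hm_mul_ad, show x.1.1 *ᵥ _ = u from hx,
      show y.1.1 *ᵥ _ = v from hy] at m
  have k2 : ∀ i j : I, ∀ a : F, a • hm (ee i : VV n F) (ee j) ∈ S := fun i j =>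
    iso_sum (fun u => ∀ a : F, a • hm u (ee j) ∈ S) (fun u hu =>
      iso_sum (fun v => ∀ a : F, a • hm u v ∈ S) (fun v hv => k1 u v hu hv)
        (fun v w p q a => by rw [hm_add_r, smul_add]; exact S.add_mem (p a) (q a)) j)
      (fun v w p q a => by rw [hm_add_l, smul_add]; exact S.add_mem (p a) (q a)) i
  rw [matrix_eq_sum_single M]
  refine S.sum_mem fun i _ => S.sum_mem fun j _ => ?_
  have := k2 i j.rev (M i j)
  rwa [hm_ee, Fin.rev_rev, smul_single, smul_eq_mul, mul_one] at this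

/-- a matrix commuting with `XU` is scalar -/
theorem scal {A : Mx} (h : ∀ x : X, A * x.1.1 = x.1.1 * A) : ∃ c : F, A = c • (1 : Mx) := by
  have k : ∀ M : Mx, A * M = M * A := fun M =>
    (Subring.mem_centralizer_iff.1 (span_all (Subring.centralizer {A}) (fun x =>
      Subring.mem_centralizer_iff.2 (by rintro _ rfl; exact h x)) M)) A rfl
  obtain ⟨c, hc⟩ := mem_range_scalar_iff_commute_single'.2 fun i j => (k (single i j 1)).symm
  exact ⟨c, by rw [← hc, scalar_apply, smul_one_eq_diagonal]⟩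

/-- the semilinear map on matrices -/
def rh (g : GX n F) (φ : RingAut F) : Mx →+* Mx where
  toFun M := g.1 * M.map φ * (g⁻¹).1
  map_one' := by rw [Matrix.map_one _ (map_zero φ) (map_one φ), mul_one, Units.mul_inv]
  map_mul' M N := by
    rw [show (M * N).map φ = M.map φ * N.map φ from Matrix.map_mul (f := (φ : F →+* F))]
    simp only [mul_assoc, Units.inv_mul_cancel_left]
  map_zero' := by rw [Matrix.map_zero _ (map_zero φ), mul_zero, zero_mul]
  map_add' M N := by rw [Matrix.map_add _ (map_add φ), mul_add, add_mul]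

theorem ext_au {g g' : GX n F} {φ φ' : RingAut F} (h : ∀ x : X, au g φ false x.1 = au g' φ' false x.1) :
    au g φ false = au g' φ' false := MonoidHom.ext fun y => Subtype.ext
  (span_all ((rh g φ).eqLocus (rh g' φ')) (fun x => congrArg Subtype.val (h x)) y.1)

theorem au_uniq {α : X →* X} {φ φ' : RingAut F} (h : Au α φ) (k : Au α φ') : φ = φ' := by
  obtain ⟨g, h⟩ := h
  obtain ⟨g', k⟩ := k
  exact (LMS.au_uniq (ext_au fun x => (h x).symm.trans (k x))).1

theorem au_comp {α β : X →* X} {φ φ' : RingAut F} (h : Au α φ) (k : Au β φ') : Au (α.comp β) (φ * φ') := by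
  obtain ⟨g, h⟩ := h
  obtain ⟨g', k⟩ := k
  obtain ⟨g'', e⟩ := LMS.au_comp g g' φ φ' false false
  exact ⟨g'', fun x => by rw [MonoidHom.comp_apply, h, k]; exact DFunLike.congr_fun e x.1⟩

theorem au_bij {α : X →* X} {φ : RingAut F} (h : Au α φ) : Function.Bijective α := by
  obtain ⟨g, h⟩ := h
  exact Finite.injective_iff_bijective.1 fun x y e =>
    Subtype.ext ((LMS.au_bij g φ false).1 (by rw [← h, ← h, e]))

theorem au1 (g : GX n F) (x : XX n F) : au g 1 false x = gc g x := by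
  have : fr (1 : RingAut F) x = x := Subtype.ext (by ext i j; rfl)
  rw [LMS.au_false, this]

theorem cn_au (u : X) : Au (cn u) 1 := ⟨Matrix.SpecialLinearGroup.toGL u.1, fun x => by
  rw [au1]
  refine Subtype.ext ?_
  rw [gc_val, ← map_inv]; rfl⟩

theorem id_au : Au (MonoidHom.id X) 1 := ⟨1, fun x => by
  rw [au1]
  refine Subtype.ext ?_
  rw [gc_val, inv_one, Units.val_one, one_mul, mul_one]; rfl⟩

theorem ad_map (φ : RingAut F) (M : Mx) : ad (M.map φ) = (ad M).map φ := Matrix.ext fun _ _ =>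
  DFunLike.congr_fun (LMS.aut_comm' σ φ) _

theorem fr_mem (φ : RingAut F) (x : X) : fr φ x.1 ∈ XU n F := by
  rw [mem_XU, fr_val, ad_map, ← show (ad x.1.1 * x.1.1).map φ = (ad x.1.1).map φ * x.1.1.map φ from
     Matrix.map_mul (f := (φ : F →+* F)),
    mem_XU.1 x.2, Matrix.map_one _ (map_zero φ) (map_one φ)]

/-- field automorphisms -/
def frU (φ : RingAut F) : X →* X := ((fr φ).comp (XU n F).subtype).codRestrict _ (fr_mem φ)

theorem frU_val (φ : RingAut F) (x : X) : (frU φ x).1 = fr φ x.1 := rfl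

theorem frU_au (φ : RingAut F) : Au (frU φ : X →* X) φ := ⟨1, fun x => by
  rw [LMS.au_false]
  refine Subtype.ext ?_
  rw [gc_val, inv_one, Units.val_one, one_mul, mul_one]; rfl⟩

theorem ad_inv {g : GX n F} (h : ad g.1 * g.1 = 1) : (g⁻¹).1 = ad g.1 := by
  rw [← one_mul (g⁻¹).1, ← h, mul_assoc, Units.mul_inv, mul_one]

/-- the matrix may be taken unitary -/
theorem au_unit {α : X →* X} {φ : RingAut F} (h : Au α φ) :
    ∃ g : GX n F, ad g.1 * g.1 = 1 ∧ ∀ x, (α x).1 = au g φ false x.1 := by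
  obtain ⟨g, h⟩ := h
  obtain ⟨c, hc⟩ := scal (A := ad g.1 * g.1) fun y => by
    obtain ⟨x, rfl⟩ := (au_bij (frU_au φ)).2 y
    have e := mem_XU.1 (α x).2
    rw [h, LMS.au_false, ← frU_val, gc_val, ad_mul, ad_mul] at e
    have e1 := mem_XU.1 (frU φ x).2
    have e2 : ad g.1 * ad (g⁻¹).1 = 1 := by rw [← ad_mul, Units.inv_mul, ad_one]
    generalize (frU φ x).1.1 = Y at e e1
    calc ad g.1 * g.1 * Y = Y * ad Y * ad g.1 * g.1 * Y * ((g⁻¹).1 * g.1) := by
          rw [mul_eq_one_comm.1 e1, Units.inv_mul, one_mul, mul_one]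
      _ = Y * (ad g.1 * ad (g⁻¹).1) * (ad Y * ad g.1 * g.1 * Y * (g⁻¹).1) * g.1 := by
          rw [e2]; simp only [mul_assoc, mul_one]
      _ = Y * ad g.1 * (ad (g⁻¹).1 * (ad Y * ad g.1) * (g.1 * Y * (g⁻¹).1)) * g.1 := by simp only [mul_assoc]
      _ = _ := by rw [e, mul_one, mul_assoc]
  have c1 : σ c = c := by
    have e : ad (ad g.1 * g.1) = ad g.1 * g.1 := by rw [ad_mul, ad_ad]
    rw [hc, ad_smul, ad_one] at e
    simpa using congrFun (congrFun e 0) 0
  obtain ⟨b, hb⟩ := LMS.norm_surj (F := F) Hs.sg c1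
  have b0 : b ≠ 0 := by
    rintro rfl
    have := congrArg det hc
    rw [← hb, zero_mul, zero_smul, det_zero, det_mul, ad_det] at this
    have d0 : g.1.det ≠ 0 := (Matrix.isUnits_det_units g).ne_zero
    exact mul_ne_zero ((map_ne_zero _).2 d0) d0 this
  refine ⟨⟨b⁻¹ • g.1, b • (g⁻¹).1, ?_, ?_⟩, ?_, fun x => ?_⟩
  · rw [Matrix.smul_mul, Matrix.mul_smul, smul_smul, inv_mul_cancel₀ b0, one_smul, Units.mul_inv]
  · rw [Matrix.smul_mul, Matrix.mul_smul, smul_smul, mul_inv_cancel₀ b0, one_smul, Units.inv_mul]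
  · change ad (b⁻¹ • g.1) * (b⁻¹ • g.1) = 1
    rw [ad_smul, Matrix.smul_mul, Matrix.mul_smul, hc, smul_smul, smul_smul, ← hb, map_inv₀]
    have : σ b ≠ 0 := (map_ne_zero _).2 b0
    rw [show (σ b)⁻¹ * b⁻¹ * (b * σ b) = 1 by field_simp, one_smul]
  · rw [h]
    refine Subtype.ext ?_
    change g.1 * (fr φ x.1).1 * (g⁻¹).1 = (b⁻¹ • g.1) * (fr φ x.1).1 * (b • (g⁻¹).1)
    rw [Matrix.smul_mul, Matrix.smul_mul, Matrix.mul_smul, smul_smul, inv_mul_cancel₀ b0, one_smul]

theorem un_mul {g g' : GX n F} (h : ad g.1 * g.1 = 1) (k : ad g'.1 * g'.1 = 1) :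
    ad (g * g').1 * (g * g').1 = 1 := by
  rw [Units.val_mul, ad_mul, mul_assoc, ← mul_assoc (ad g.1), h, one_mul, k]

theorem un_inv {g : GX n F} (h : ad g.1 * g.1 = 1) : ad (g⁻¹).1 * (g⁻¹).1 = 1 := by
  rw [ad_inv h, ad_ad]; exact mul_eq_one_comm.1 h

/-- a unitary matrix of determinant one -/
theorem ex_u {g : GX n F} (h : ad g.1 * g.1 = 1) (d : g.1.det = 1) :
    ∃ u : X, u.1.1 = g.1 ∧ ∀ x : X, (u * x * u⁻¹).1 = gc g x.1 :=
  ⟨⟨⟨g.1, d⟩, mem_XU.2 h⟩, rfl, fun x => Subtype.ext (by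
    rw [gc_val, ad_inv h, mul_val, mul_val, H12.inv_val])⟩

theorem au_comm {α β : X →* X} (h : Au α 1) (k : Au β 1) : ∃ u : X, ∀ x, α (β x) = u * β (α x) * u⁻¹ := by
  obtain ⟨g, g1, h⟩ := au_unit h
  obtain ⟨g', g2, k⟩ := au_unit k
  obtain ⟨u, -, hu⟩ := ex_u (un_mul (un_mul (un_mul g1 g2) (un_inv g1)) (un_inv g2)) (by
    have : Matrix.GeneralLinearGroup.det (g * g' * g⁻¹ * g'⁻¹) = 1 := by
      simp only [map_mul, map_inv]
      rw [mul_comm (Matrix.GeneralLinearGroup.det g)]; group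
    exact congrArg Units.val this)
  refine ⟨u, fun x => Subtype.ext ?_⟩
  rw [hu, h, k, k, h, au1, au1, au1, au1, ← gc_mul, ← gc_mul, ← gc_mul]
  congr 2; group

theorem au_two {α : X →* X} (h : Au α 1) {k : ℕ} (e : ∀ x, α^[2 ^ k] x = x) : ∃ u, α = cn u := by
  obtain ⟨g, g1, h⟩ := au_unit h
  have it : ∀ m (x : X), (α^[m] x).1 = gc (g ^ m) x.1 := fun m => by
    induction m with
    | zero => intro x; rw [pow_zero, gc_one]; rfl
    | succ m ih => intro x; rw [Function.iterate_succ_apply, ih, h, au1, pow_succ, gc_mul]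
  obtain ⟨c, hc⟩ := scal (A := (g ^ 2 ^ k).1) fun x => by
    have := congrArg Subtype.val (it (2 ^ k) x)
    rw [e, gc_val] at this
    conv_rhs => rw [this]
    rw [mul_assoc, Units.inv_mul, mul_one]
  have up : ∀ m, ad (g ^ m).1 * (g ^ m).1 = 1 := fun m => by
    induction m with
    | zero => rw [pow_zero, Units.val_one, ad_one, mul_one]
    | succ m ih => rw [pow_succ]; exact un_mul ih g1
  have c1 : σ c * c = 1 := by
    have := up (2 ^ k)
    rw [hc, ad_smul, ad_one, Matrix.smul_mul, Matrix.mul_smul, mul_one, smul_smul] at this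
    simpa using congrFun (congrFun this 0) 0
  have c0 : c ≠ 0 := right_ne_zero_of_mul_eq_one c1
  have dd : g.1.det ^ 2 ^ k = c ^ (n + 3) := by
    rw [← det_pow, ← Units.val_pow_eq_pow_val, hc, det_smul, det_one, mul_one, Fintype.card_fin]
  have od : Odd (orderOf g.1.det) := by
    have d0 : g.1.det ≠ 0 := (Matrix.isUnits_det_units g).ne_zero
    obtain ⟨a, -, hF⟩ := FiniteField.card F 2
    refine Odd.of_dvd_nat ?_ (orderOf_dvd_of_pow_eq_one (FiniteField.pow_card_sub_one_eq_one _ d0))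
    rw [hF]
    exact Nat.Even.sub_odd Nat.one_le_two_pow ((Nat.even_pow' a.2.ne').2 even_two) odd_one
  obtain ⟨r, hr⟩ := exists_pow_eq_self_of_coprime (x := g.1.det) (n := 2 ^ k)
    (Nat.Coprime.pow_left k (Nat.coprime_two_left.2 od))
  have b0 : c ^ r ≠ 0 := pow_ne_zero _ c0
  have b1 : σ (c ^ r) * c ^ r = 1 := by rw [map_pow, ← mul_pow, c1, one_pow]
  have b2 : g.1.det = (c ^ r) ^ (n + 3) := by rw [← pow_mul, mul_comm r, pow_mul, ← dd, hr]
  generalize c ^ r = b at b0 b1 b2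
  obtain ⟨u, -, hu⟩ := ex_u (g := ⟨b⁻¹ • g.1, b • (g⁻¹).1,
    by rw [Matrix.smul_mul, Matrix.mul_smul, smul_smul, inv_mul_cancel₀ b0, one_smul, Units.mul_inv],
    by rw [Matrix.smul_mul, Matrix.mul_smul, smul_smul, mul_inv_cancel₀ b0, one_smul, Units.inv_mul]⟩) (by
      change ad (b⁻¹ • g.1) * (b⁻¹ • g.1) = 1
      rw [ad_smul, Matrix.smul_mul, Matrix.mul_smul, g1, smul_smul, map_inv₀, ← mul_inv, b1, inv_one, one_smul]) (by
      change (b⁻¹ • g.1).det = 1
      rw [det_smul, Fintype.card_fin, b2, ← mul_pow, inv_mul_cancel₀ b0, one_pow])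
  refine ⟨u, MonoidHom.ext fun x => Subtype.ext ?_⟩
  rw [cn_apply, hu, h, au1]
  refine Subtype.ext ?_
  change g.1 * x.1.1 * (g⁻¹).1 = (b⁻¹ • g.1) * x.1.1 * (b • (g⁻¹).1)
  rw [Matrix.smul_mul, Matrix.smul_mul, Matrix.mul_smul, smul_smul, inv_mul_cancel₀ b0, one_smul]

/-- the centre is scalar -/
theorem cen_sc {x : X} (h : x ∈ center X) : x.1 ∈ center (XX n F) := by
  obtain ⟨c, hc⟩ := scal (A := x.1.1) fun y => by rw [← mul_val, ← mul_val, mem_center_iff.1 h y]
  refine mem_center_iff.2 fun y => Subtype.ext ?_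
  rw [Matrix.SpecialLinearGroup.coe_mul, Matrix.SpecialLinearGroup.coe_mul, hc, Matrix.smul_mul, Matrix.mul_smul,
    mul_one, one_mul]

theorem cen_two {x : X} (h : x ∈ center X) (p : P2 x) : x = 1 := by
  obtain ⟨j, hj⟩ := p
  exact Subtype.ext (LMS.cen_two (cen_sc h) ⟨j, congrArg Subtype.val hj⟩)

theorem cen_odd : Odd (Nat.card (center X)) := by
  refine Nat.not_even_iff_odd.1 fun h => ?_
  obtain ⟨x, hx⟩ := exists_prime_orderOf_dvd_card' (G := center X) 2 h.two_dvd
  have h1 : x = 1 := Subtype.ext (cen_two x.2 ⟨1, by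
    rw [pow_one, ← hx, ← Subgroup.coe_pow, pow_orderOf_eq_one, Subgroup.coe_one]⟩)
  rw [h1, orderOf_one] at hx
  omega

end UMS.H77
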