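import Cfsg.Agent.Lib.UMS.Defs
import Cfsg.Agent.Lib.LMS.NFa
import Cfsg.Agent.Lib.LMS.B5b
import Cfsg.Agent.S2692
import Cfsg.Agent.Lib.Unitary.Simple

/-! The isomorphism with the standard unitary group, simplicity and automorphisms. -/

set_option autoImplicit false
set_option linter.unusedSectionVars false

namespace UMS

open Subgroup H69 Cfsg Matrix U4S
open LMS (XX GX iL kk MM au tw Sg)
open scoped MatrixGroups commutatorElement

universe u
variable {F : Type u} [Field F] [CharP F 2] [Fintype F] [Hs F] {n : ℕ} [Ok n F]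

local notation "X" => XU n F

namespace AutP

theorem gc_gc (g h : GX n F) (x : XX n F) : gc g (gc h x) = gc (g * h) x := Subtype.ext (by
  simp only [gc_val, _root_.mul_inv_rev, Units.val_mul, mul_assoc])

theorem gc_one (x : XX n F) : gc (1 : GX n F) x = x := Subtype.ext (by simp [gc_val])

theorem fr_gc (φ : RingAut F) (g : GX n F) (x : XX n F) :
    fr φ (gc g x) = gc (Matrix.GeneralLinearGroup.map (φ : F →+* F) g) (fr φ x) := Subtype.ext (by
  rw [fr_val, gc_val, gc_val, ← map_inv, fr_val]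
  exact (Matrix.map_mul (f := (φ : F →+* F))).trans (congrArg₂ _ (Matrix.map_mul (f := (φ : F →+* F))) rfl))

/-- the order of the field is an even power of two -/
theorem sq : ∃ e : ℕ, 1 ≤ e ∧ ∃ _ : H11.U.IsSq F (2 ^ e), ∀ a : F, σ a = H11.U.cj (2 ^ e) a := by
  obtain ⟨f, -, hf⟩ := FiniteField.card F 2
  obtain ⟨h, s2⟩ : Sg (σ : RingAut F) := Hs.sg
  obtain ⟨c, hc⟩ := H89.G2S.exists_free σ s2 h
  have hq := H89.G2S.card_fix σ s2 hc
  rw [← Nat.card_eq_fintype_card] at hf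
  generalize Nat.card {a : F | σ a = a} = q at hq
  obtain ⟨e, -, rfl⟩ : ∃ e ≤ (f : ℕ), q = 2 ^ e :=
    (Nat.dvd_prime_pow Nat.prime_two).1 (by rw [← hf, ← hq]; exact dvd_pow_self q two_ne_zero)
  have fe : (f : ℕ) = 2 * e := by
    rw [hf, ← pow_mul] at hq
    have := Nat.pow_right_injective le_rfl hq
    omega
  have hF : Fintype.card F = (2 ^ e) ^ 2 := by rw [hq, Nat.card_eq_fintype_card]
  haveI : H11.U.IsSq F (2 ^ e) := ⟨hF⟩
  let ρ : RingAut F := RingEquiv.ofBijective (H11.U.cj (2 ^ e))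
    (Finite.injective_iff_bijective.1 (H11.U.cj (2 ^ e) : F →+* F).injective)
  have hσ : σ = ρ := LMS.aut_inv ⟨h, s2⟩ ⟨fun e1 => H11.U.cj_ne_id (F := F) (q := 2 ^ e)
    (RingHom.ext fun a => DFunLike.congr_fun e1 a), fun a => H11.U.cj_cj a⟩
  have f0 : 0 < (f : ℕ) := f.2
  exact ⟨e, by omega, inferInstance, fun a => by rw [hσ]; rfl⟩

theorem mem_su {q : ℕ} [H11.U.IsSq F q] {M : XX n F} : M ∈ SU (n + 3) F q ↔ tI q M = M := by
  have k : ∀ A : Matrix (Fin (n + 3)) (Fin (n + 3)) F, (A.map (H11.U.cj q)).map (H11.U.cj q) = A := fun A => by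
    ext i j; simp [H11.U.cj_cj]
  rw [H11.U.mem_SU, H11.U.isIso_iff]
  constructor
  · intro h
    have h' := congrArg (fun A => A.map (H11.U.cj q)) h
    simp only [Matrix.map_mul, k, Matrix.map_one _ (map_zero _) (map_one _)] at h'
    have : (M⁻¹).1 = M.1ᵀ.map (H11.U.cj q) := by
      rw [← one_mul (M⁻¹).1, ← h', mul_assoc, ← Matrix.SpecialLinearGroup.coe_mul, mul_inv_cancel,
        Matrix.SpecialLinearGroup.coe_one, mul_one]
    refine Subtype.ext (Matrix.ext fun i j => ?_)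
    rw [tI_val, this]; simp [H11.U.cj_cj]
  · intro h
    have e : M.1.map (H11.U.cj q) = (M⁻¹).1ᵀ := by rw [← k (M⁻¹).1ᵀ, ← tI_val, h]
    rw [e, ← transpose_mul, ← Matrix.SpecialLinearGroup.coe_mul, inv_mul_cancel,
      Matrix.SpecialLinearGroup.coe_one, transpose_one]

theorem gc_tI {q : ℕ} [H11.U.IsSq F q] {g : GX n F} (hg : g ∈ GU (n + 3) F q) (M : XX n F) :
    tI q (gc g M) = gc g (tI q M) := by
  have h := H11.U.isIso_iff.1 (H11.U.mem_GU.1 hg)
  have h1 : (g.1ᵀ).map (H11.U.cj q) * g.1 = 1 := by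
    have := congrArg (fun A : Matrix (Fin (n + 3)) (Fin (n + 3)) F => A.map (H11.U.cj q)) h
    simp only [Matrix.map_mul, Matrix.map_map, Matrix.map_one _ (map_zero _) (map_one _)] at this
    rwa [show (H11.U.cj q : F → F) ∘ H11.U.cj q = id from funext H11.U.cj_cj, Matrix.map_id] at this
  have h2 : (g.1ᵀ).map (H11.U.cj q) = (g⁻¹).1 := by
    rw [← mul_one ((g.1ᵀ).map (H11.U.cj q)), ← Units.mul_inv g, ← mul_assoc, h1, one_mul]
  have h3 : ((g⁻¹).1ᵀ).map (H11.U.cj q) = g.1 := by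
    rw [← mul_one (((g⁻¹).1ᵀ).map (H11.U.cj q)), ← h1, ← mul_assoc, ← Matrix.map_mul, ← transpose_mul,
      Units.mul_inv, transpose_one, Matrix.map_one _ (map_zero _) (map_one _), one_mul]
  refine Subtype.ext ?_
  rw [tI_val, ← map_inv, gc_val, gc_val, transpose_mul, transpose_mul, Matrix.map_mul, Matrix.map_mul, h2, h3,
    tI_val, mul_assoc]

theorem tw_fr (φ : RingAut F) (x : XX n F) : fr φ (tw x) = tw (fr φ x) := by
  change fr φ (pmL Fin.revPerm * LMS.it x * (pmL Fin.revPerm)⁻¹) = pmL Fin.revPerm * LMS.it (fr φ x) * _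
  rw [map_mul, map_mul, map_inv, fr_pmL, LMS.B5.it_fr]

/-- a change of basis to the standard form -/
theorem iso {q : ℕ} [H11.U.IsSq F q] (h : ∀ a : F, σ a = H11.U.cj q a) :
    ∃ C : GX n F, ∀ M : XX n F, gc C M ∈ XU n F ↔ M ∈ SU (n + 3) F q := by
  obtain ⟨h1, s2⟩ : Sg (σ : RingAut F) := Hs.sg
  obtain ⟨g, hg⟩ := LMS.tw_au (n := n) (σ : RingAut F)
  have o : LMS.Ou g (σ : RingAut F) true := ⟨fun x => by
    rw [← hg]
    change tw (fr σ (tw (fr σ x))) = x
    rw [tw_fr, LMS.tw_tw]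
    exact Subtype.ext (Matrix.ext fun i j => s2 _), s2, .inr rfl⟩
  obtain ⟨C, hC⟩ := LMS.nfB0 o h1
  refine ⟨C, fun M => ?_⟩
  change τ (gc C M) = gc C M ↔ _
  rw [τ, hg, hC, (gc C).injective.eq_iff, mem_su]
  refine iff_of_eq (congrArg (· = M) (Subtype.ext ?_))
  exact Matrix.ext fun i j => h _

theorem eqv : ∃ e : ℕ, 1 ≤ e ∧ ∃ _ : H11.U.IsSq F (2 ^ e), (∀ a : F, σ a = H11.U.cj (2 ^ e) a) ∧
    ∃ (C : GX n F) (θ : SU (n + 3) F (2 ^ e) ≃* X), ∀ x, (θ x).1 = gc C x.1 := by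
  obtain ⟨e, e1, hI, h⟩ := sq (F := F)
  obtain ⟨C, hC⟩ := iso (n := n) h
  exact ⟨e, e1, hI, h, C, (gc C).subgroupMap _ |>.trans (MulEquiv.subgroupCongr (by
    ext x
    obtain ⟨y, rfl⟩ := (gc C).surjective x
    rw [hC]
    exact mem_map_iff_mem (gc C).injective)), fun x => rfl⟩

theorem cen {A B : Type*} [Group A] [Group B] (θ : A ≃* B) : (center A).map (θ : A →* B) = center B := by
  ext x
  obtain ⟨y, rfl⟩ := θ.surjective x
  rw [show (θ y ∈ center B) ↔ y ∈ center _ from (MulEquivClass.apply_mem_center_iff θ)]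
  exact mem_map_iff_mem θ.injective

theorem pf : commutator X = ⊤ := by
  obtain ⟨e, -, hI, -, C, θ, -⟩ := eqv (n := n) (F := F)
  have h3 : 3 ≤ n := Ok.h3 (F := F)
  have k := congrArg (Subgroup.map (θ : SU (n + 3) F (2 ^ e) →* X))
    (H11.U.commutator_SU_eq_top (F := F) (q := 2 ^ e) (n := n + 3) (by omega) (by omega))
  rwa [commutator_def, Subgroup.map_commutator, map_top_of_surjective _ θ.surjective] at k

theorem simple : IsSimpleGroup (X ⧸ center X) := by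
  obtain ⟨e, -, hI, -, C, θ, -⟩ := eqv (n := n) (F := F)
  have h3 : 3 ≤ n := Ok.h3 (F := F)
  have : IsSimpleGroup (PSU (n + 3) F (2 ^ e)) := H11.U.isSimpleGroup_PSU (by omega) (by omega)
  exact (QuotientGroup.congr _ _ θ (cen θ)).symm.isSimpleGroup

theorem nrm (N : Subgroup X) [N.Normal] : N ≤ center _ ∨ N = ⊤ := by
  have hs : IsSimpleGroup (X ⧸ center X) := simple
  have hn := Subgroup.Normal.map ‹N.Normal› (QuotientGroup.mk' (center X)) (QuotientGroup.mk'_surjective _)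
  refine hn.eq_bot_or_eq_top.imp (fun e => ?_) fun e => ?_
  · rwa [Subgroup.map_eq_bot_iff, QuotientGroup.ker_mk'] at e
  · have h1 := congrArg (comap (QuotientGroup.mk' (center X))) e
    rw [comap_map_eq, QuotientGroup.ker_mk', comap_top] at h1
    rw [eq_top_iff, ← pf, commutator_def]
    nth_rewrite 1 [← h1]
    refine commutator_sup_le_left le_normalizer_of_normal le_normalizer_of_normal (commutator_le_left _ _) ?_
    rw [commutator_eq_bot_of_le_centralizer H69.centralizer_top.ge]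
    exact bot_le

theorem psu (β : MulAut (X ⧸ center X)) :
    ∃ (α : X →* X) (φ : RingAut F), Au α φ ∧ ∀ M : X, β (QuotientGroup.mk M) = QuotientGroup.mk (α M) := by
  obtain ⟨e, e1, hI, h, C, θ, hθ⟩ := eqv (n := n) (F := F)
  let Θ : PSU (n + 3) F (2 ^ e) ≃* X ⧸ center X := QuotientGroup.congr _ _ θ (cen θ)
  have hΘ : ∀ x, Θ (QuotientGroup.mk x) = QuotientGroup.mk (θ x) := fun x => rfl
  have h3 : 3 ≤ n := Ok.h3 (F := F)
  obtain ⟨δ, φ', φ, ⟨g, hg, hδ⟩, hφ, eq⟩ := Cfsg.Agent.S2692.result (F := F) (p := 2) (f := e) rfl e1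
    (H11.U.IsSq.card_eq) (n := n + 3) (by omega) (by omega) (Θ.trans (β.trans Θ.symm))
  let γ : SU (n + 3) F (2 ^ e) →* SU (n + 3) F (2 ^ e) :=
    ((gc g).toMonoidHom.comp (SU (n + 3) F (2 ^ e)).subtype).codRestrict _ fun x =>
      mem_su.2 ((gc_tI hg x.1).trans (congrArg _ (mem_su.1 x.2)))
  refine ⟨θ.toMonoidHom.comp ((γ.comp (frI (2 ^ e) φ)).comp θ.symm.toMonoidHom), φ,
    ⟨C * g * (Matrix.GeneralLinearGroup.map (φ : F →+* F) C)⁻¹, fun x => ?_⟩, fun M => ?_⟩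
  · obtain ⟨y, rfl⟩ := θ.surjective x
    rw [LMS.au_false, hθ y, fr_gc, gc_gc, inv_mul_cancel_right, ← gc_gc]
    simp only [MonoidHom.comp_apply, MulEquiv.coe_toMonoidHom, MulEquiv.symm_apply_apply]
    rw [hθ]
    rfl
  · obtain ⟨y, rfl⟩ := θ.surjective M
    have k := DFunLike.congr_fun eq (QuotientGroup.mk y)
    rw [MulAut.mul_apply, hφ y (frI (2 ^ e) φ y) rfl, hδ _ (γ (frI (2 ^ e) φ y)) rfl, MulEquiv.trans_apply,
      MulEquiv.trans_apply, MulEquiv.symm_apply_eq, hΘ, hΘ] at k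
    rw [k]
    simp only [MonoidHom.comp_apply, MulEquiv.coe_toMonoidHom, MulEquiv.symm_apply_apply]

theorem aut {Γ : Type*} [Group Γ] {f : X →* Γ} (e : Em f) (β : X → X)
    (h1 : ∀ x y, f (β (x * y)) = f (β x) * f (β y)) (h2 : ∀ y, ∃ x, f (β x) = f y) :
    ∃ (α : X →* X) (φ : RingAut F), Au α φ ∧ ∀ x, f (β x) = f (α x) := by
  let b : X →* f.range := MonoidHom.mk' (fun x => ⟨f (β x), _, rfl⟩) fun x y => Subtype.ext (h1 x y)
  have sb : Function.Surjective b := by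
    rintro ⟨_, y, rfl⟩
    obtain ⟨x, hx⟩ := h2 y
    exact ⟨x, Subtype.ext hx⟩
  rcases nrm b.ker with k | k
  · obtain ⟨β', hβ⟩ := LMS.B5b.lift pf f.rangeRestrict b f.rangeRestrict_surjective
      (by rw [MonoidHom.ker_rangeRestrict]; exact e) sb k
    obtain ⟨α, φ, a, h⟩ := psu β'
    exact ⟨α, φ, a, fun x => congrArg Subtype.val (hβ _ h x)⟩
  · have z : ∀ x, f (β x) = 1 := fun x => congrArg Subtype.val (show b x = 1 from (k ▸ mem_top x : x ∈ b.ker))
    refine ⟨MonoidHom.id _, 1, ⟨1, fun x => ?_⟩, fun x => ?_⟩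
    · rw [LMS.au_false, gc_one]
      exact Subtype.ext (Matrix.ext fun _ _ => rfl)
    · obtain ⟨y, hy⟩ := h2 x
      rw [MonoidHom.id_apply, ← hy, z, z]

end AutP

end UMS
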