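import Cfsg.Agent.Lib.UMS.Defs
import Cfsg.Agent.Lib.LMS.NFa
import Cfsg.Agent.Lib.Unitary.Field

set_option autoImplicit false
set_option linter.unusedSectionVars false

namespace UMS

open Subgroup H69 Cfsg Matrix U4S
open LMS (XX GX iL kk MM au tw Sg)
open scoped MatrixGroups commutatorElement

universe u
variable {G : Type*} [Group G] [Finite G] {F : Type u} [Field F] [CharP F 2] [Fintype F] [Hs F] {n : ℕ} [Ok n F]
  {ι ψ χ : XU n F →* G} {t : G} {E : Subgroup G}

local notation "X" => XU n F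
local notation "V" => VV n F
local notation "𝐪" => Nat.card (K0 F)
local notation "I" => Fin (n + 3)
local notation "Mx" => Matrix (Fin (n + 3)) (Fin (n + 3)) F

theorem sg_sg (a : F) : σ (σ a) = a := by
  exact Hs.sg.2 a

theorem card_F : Nat.card F = 𝐪 ^ 2 := by
  obtain ⟨w, hw⟩ := LMS.sg_free (σ := (σ : RingAut F)) Hs.sg
  have two := CharTwo.two_eq_zero (R := F)
  rw [sq, ← Nat.card_prod]
  refine (Nat.card_eq_of_bijective (fun p : K0 F × K0 F => (p.1 : F) + p.2 * w) ⟨fun p p' e => ?_, fun a => ?_⟩).symm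
  · have e' := congrArg σ e
    simp only [map_add, map_mul, mem_K0.1 p.1.2, mem_K0.1 p.2.2, mem_K0.1 p'.1.2, mem_K0.1 p'.2.2] at e e'
    have k : (p.2 : F) = p'.2 := by
      linear_combination e + e' - ((p.2 : F) - p'.2) * hw - ((p.1 : F) - p'.1) * two
    exact Prod.ext (Subtype.ext (by rwa [k, add_left_inj] at e)) (Subtype.ext k)
  · refine ⟨(⟨a * σ w + σ a * w, by rw [mem_K0, map_add, map_mul, map_mul, sg_sg, sg_sg, add_comm]⟩,
      ⟨a + σ a, by rw [mem_K0, map_add, sg_sg, add_comm]⟩), ?_⟩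
    change a * σ w + σ a * w + (a + σ a) * w = a
    linear_combination a * hw + (σ a * w) * two

theorem sg_pow (a : F) : σ a = a ^ 𝐪 := by
  have : H11.U.IsSq F 𝐪 := ⟨Nat.card_eq_fintype_card.symm.trans card_F⟩
  let s : RingAut F := RingEquiv.ofBijective (H11.U.cj 𝐪)
    (Finite.injective_iff_bijective.1 (H11.U.cj 𝐪 : F →+* F).injective)
  have h : (σ : RingAut F) = s := LMS.aut_inv Hs.sg ⟨fun e1 => H11.U.cj_ne_id (F := F) (q := 𝐪)
    (RingHom.ext fun a => DFunLike.congr_fun e1 a), fun a => H11.U.cj_cj a⟩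
  rw [h]; rfl

theorem q_pow : ∃ f, 0 < f ∧ 𝐪 = 2 ^ f := by
  let _ := Fintype.ofFinite (K0 F)
  obtain ⟨f, -, hf⟩ := FiniteField.card (K0 F) 2
  exact ⟨f, f.2, Nat.card_eq_fintype_card.trans hf⟩

theorem q_cases : (Nat.card F = 4 ∧ 𝐪 = 2) ∨ 4 ≤ 𝐪 := by
  obtain ⟨f, h, e⟩ := q_pow (F := F)
  rw [card_F, e]
  rcases f with _ | _ | f
  · omega
  · exact .inl ⟨rfl, rfl⟩
  · exact .inr (Nat.pow_le_pow_right (n := 2) (i := 2) two_pos (by omega))

theorem q_four (h : n = 3) : 4 ≤ 𝐪 := by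
  have := Ok.h (F := F) h
  rcases q_cases (F := F) with k | k
  · omega
  · exact k

theorem ex_om : ∃ ω : F, ω + σ ω = 1 := by
  exact LMS.sg_free Hs.sg

theorem nm_surj (c : K0 F) : ∃ a : F, nm a = c := by
  obtain ⟨b, hb⟩ := LMS.norm_surj Hs.sg (mem_K0.1 c.2)
  exact ⟨b, Subtype.ext hb⟩

theorem nm_mul (a b : F) : nm (a * b) = nm a * nm b := by
  refine Subtype.ext ?_
  change a * b * σ (a * b) = a * σ a * (b * σ b)
  rw [map_mul]; ring

theorem nm_zero {a : F} : nm a = 0 ↔ a = 0 := by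
  rw [Subtype.ext_iff]
  change a * σ a = 0 ↔ _
  simp

theorem nm_sg (a : F) : nm (σ a) = nm a := by
  refine Subtype.ext ?_
  change σ a * σ (σ a) = a * σ a
  rw [sg_sg, mul_comm]

theorem tr_surj (c : K0 F) : ∃ a : F, a + σ a = c := by
  obtain ⟨w, hw⟩ := ex_om (F := F)
  exact ⟨c * w, by rw [map_mul, mem_K0.1 c.2, ← mul_add, hw, mul_one]⟩

theorem k0_sq (c : K0 F) : ∃ b : K0 F, b * b = c := by
  let _ := Fintype.ofFinite (K0 F)
  obtain ⟨b, hb⟩ := FiniteField.isSquare_of_char_two (ringChar.eq (K0 F) 2) c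
  exact ⟨b, hb.symm⟩

theorem k0_add (c : K0 F) : c + c = 0 := by
  exact CharTwo.add_self_eq_zero c

theorem dec_om {ω : F} (h : ω + σ ω = 1) (a : F) : ∃ x y : K0 F, a = x + y * ω := by
  refine ⟨⟨a * σ ω + σ a * ω, by rw [mem_K0, map_add, map_mul, map_mul, sg_sg, sg_sg, add_comm]⟩,
    ⟨a + σ a, by rw [mem_K0, map_add, sg_sg, add_comm]⟩, ?_⟩
  change a = a * σ ω + σ a * ω + (a + σ a) * ω
  linear_combination -a * h - (σ a * ω) * CharTwo.two_eq_zero (R := F)

theorem span_n1 (a : F) : ∃ l : List F, (∀ b ∈ l, nm b = 1) ∧ l.sum = a := by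
  have : H11.U.IsSq F 𝐪 := ⟨Nat.card_eq_fintype_card.symm.trans card_F⟩
  let S : Subring F := Subring.closure {b | nm b = 1}
  have key : ∀ x ∈ S, ∃ l : List F, (∀ b ∈ l, nm b = 1) ∧ l.sum = x := fun x hx => by
    obtain ⟨L, h1, rfl⟩ := Subring.exists_list_of_mem_closure hx
    refine ⟨L.map List.prod, fun b hb => ?_, rfl⟩
    obtain ⟨l, hl, rfl⟩ := List.mem_map.1 hb
    refine List.prod_induction (fun b => nm b = 1) (fun a b ha hb => by rw [nm_mul, ha, hb, one_mul])
      (Subtype.ext (by simp [nm])) fun y hy => (h1 l hl y hy).elim id fun e => ?_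
    exact Subtype.ext (by simp [nm, e])
  let K : Subfield F := ⟨S, fun x hx => by
    by_cases h0 : x = 0
    · rw [h0, _root_.inv_zero]; exact S.zero_mem
    · have := FiniteField.pow_card_sub_one_eq_one x h0
      have h2 := Fintype.one_lt_card (α := F)
      rw [show Fintype.card F - 1 = Fintype.card F - 2 + 1 by omega, pow_succ] at this
      exact eq_inv_of_mul_eq_one_left this ▸ S.pow_mem hx _⟩
  have c1 : 𝐪 + 1 ≤ Nat.card K := by
    rw [← H11.U.card_norm_eq (F := F) (q := 𝐪) one_ne_zero (map_one _)]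
    exact Nat.card_le_card_of_injective (fun x => ⟨x.1, Subring.subset_closure (Subtype.ext (by
      change x.1 * σ x.1 = 1
      rw [sg_pow]; exact x.2))⟩) fun x y e => Subtype.ext (congrArg Subtype.val e :)
  have c2 : Nat.card F = Nat.card K ^ Module.finrank K F := Module.natCard_eq_pow_finrank
  have c3 : Module.finrank K F = 1 := by
    have p := Module.finrank_pos (R := K) (M := F)
    by_contra k
    have := (Nat.pow_le_pow_left c1 2).trans (Nat.pow_le_pow_right (j := Module.finrank K F) (by omega) (by omega))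
    rw [← c2, card_F (F := F)] at this
    exact absurd (Nat.pow_lt_pow_left (Nat.lt_succ_self 𝐪) two_ne_zero) this.not_gt
  rw [c3, pow_one] at c2
  exact key a ((AddSubgroup.eq_top_of_card_eq K.toAddSubgroup c2.symm).ge (AddSubgroup.mem_top a))

theorem ex_n1 : ∃ a : F, nm a = 1 ∧ a ≠ 1 ∧ a * a ≠ 1 := by
  have : H11.U.IsSq F 𝐪 := ⟨Nat.card_eq_fintype_card.symm.trans card_F⟩
  obtain ⟨a, h1, h2, h3⟩ := H11.U.exists_norm_one_ne F 𝐪
  exact ⟨a, Subtype.ext (by change a * σ a = 1; rw [sg_pow]; exact h1), h2,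
    fun e => (mul_self_eq_one_iff.1 e).elim h2 h3⟩

theorem kk_ge (h : 3 ≤ n := by exact UMS.Ok.h3 (self := ‹_›)) : 3 ≤ kk n := by
  unfold kk
  omega

theorem kk_spec : n + 3 = 2 * kk n ∨ n + 3 = 2 * kk n + 1 := by
  unfold kk
  omega

end UMS
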