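import Cfsg.Agent.Lib.UMS.B0
import Cfsg.Agent.Lib.LMS.B1
import Cfsg.Agent.Lib.UMS.Api

set_option autoImplicit false
set_option linter.unusedSectionVars false

namespace UMS

open Subgroup H69 Cfsg Matrix U4S
open LMS (XX GX iL kk MM au tw Sg)
open scoped MatrixGroups commutatorElement

universe u
variable {G : Type*} [Group G] [Finite G] {F : Type u} [Field F] [CharP F 2] [Fintype F] [Hs F] {n : ℕ} [Ok n F]
  {ι ψ χ : XU n F →* G} {t : G} {E : Subgroup G}

local notation "X" => XU n F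
local notation "V" => VV n F
local notation "𝐪" => Nat.card (K0 F)
local notation "I" => Fin (n + 3)
local notation "Mx" => Matrix (Fin (n + 3)) (Fin (n + 3)) F

theorem bt_add_left (u v w : V) : bt (u + v) w = bt u w + bt v w := by
  exact Api.bt_add_l u v w

theorem bt_add_right (u v w : V) : bt u (v + w) = bt u v + bt u w := by
  exact Api.bt_add_r u v w

theorem bt_smul_left (a : F) (u v : V) : bt (a • u) v = a * bt u v := by
  exact Api.bt_smul_l a u v

theorem bt_smul_right (a : F) (u v : V) : bt u (a • v) = σ a * bt u v := by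
  exact Api.bt_smul_r a u v

theorem bt_symm (u v : V) : bt v u = σ (bt u v) := by
  exact (Api.bt_conj u v).symm

theorem bt_ee (u : V) (j : I) : bt u (ee j) = u j.rev := by
  exact Api.bt_ee_r u j

theorem ee_bt (u : V) (j : I) : bt (ee j) u = σ (u j.rev) := by
  exact Api.bt_ee_l u j

theorem bt_nd {v : V} (h : ∀ u, bt u v = 0) : v = 0 := by
  exact Api.bt_nondeg fun y => by rw [bt_symm, h, map_zero]

theorem hm_vec (u v x : V) : hm u v *ᵥ x = bt x v • u := by
  exact Api.hm_mulVec u v x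

theorem hm_mul (u v x y : V) : hm u v * hm x y = bt x v • hm u y := by
  exact Api.hm_mul u v x y

theorem hm_add_left (u v w : V) : hm (u + v) w = hm u w + hm v w := by
  ext i j; simp [hm, vecMulVec_apply, add_mul]

theorem hm_add_right (u v w : V) : hm u (v + w) = hm u v + hm u w := by
  ext i j; simp [hm, vecMulVec_apply, mul_add]

theorem hm_smul_left (a : F) (u v : V) : hm (a • u) v = a • hm u v := by
  ext i j; simp [hm, vecMulVec_apply, mul_assoc]

theorem hm_smul_right (a : F) (u v : V) : hm u (a • v) = σ a • hm u v := by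
  ext i j; simp [hm, vecMulVec_apply, mul_left_comm]

theorem hm_ee (i j : I) : hm (ee i : V) (ee j) = single i j.rev (1 : F) := by
  ext a b
  simp only [hm, ee, vecMulVec_apply, Pi.single_apply, Matrix.single_apply]
  by_cases h1 : a = i
  · by_cases h2 : b.rev = j
    · simp [h1, ← h2]
    · have : ¬ j.rev = b := fun e => h2 (by rw [← e, Fin.rev_rev])
      simp [h2, this]
  · simp [h1, Ne.symm h1]

theorem mem_XU {x : XX n F} : x ∈ XU n F ↔ ∀ u v : V, bt (x.1 *ᵥ u) (x.1 *ᵥ v) = bt u v := by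
  exact Api.mem_XU

theorem bt_ac (x : X) (u v : V) : bt (ac x u) (ac x v) = bt u v := by
  exact Api.bt_ac x u v

theorem ac_mul (x y : X) (v : V) : ac (x * y) v = ac x (ac y v) := by
  exact Api.ac_mul x y v

theorem ac_one (v : V) : ac (1 : X) v = v := by
  exact Api.ac_one v

theorem ac_add (x : X) (u v : V) : ac x (u + v) = ac x u + ac x v := by
  exact Api.ac_add x u v

theorem ac_smul (x : X) (a : F) (v : V) : ac x (a • v) = a • ac x v := by
  exact Api.ac_smul x a v

theorem ac_ext {x y : X} (h : ∀ v, ac x v = ac y v) : x = y := by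
  exact Api.xu_ext h

theorem cj_hm (x : X) (u v : V) : x.1.1 * hm u v * (x⁻¹).1.1 = hm (ac x u) (ac x v) := by
  refine Api.mat_ext fun y => ?_
  rw [← mulVec_mulVec, ← mulVec_mulVec, hm_vec, hm_vec, mulVec_smul]
  exact congrArg (· • ac x u) (Api.bt_ac_inv x y v)

theorem mx_val {M : Mx} (h : M.det = 1) : (mx M : XX n F).1 = M := by
  exact congrArg Subtype.val (dif_pos h : (mx M : XX n F) = ⟨M, h⟩)

theorem mx_hm {u v : V} (h : bt u v = 0) : (mx (1 + hm u v) : XX n F).1 = 1 + hm u v := by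
  exact mx_val (by rw [Api.det_hm, h, add_zero])

theorem mk_val {M : Mx} (h : M.det = 1) (k : ∀ u v : V, bt (M *ᵥ u) (M *ᵥ v) = bt u v) : (mk M : X).1.1 = M := by
  exact Api.mk_val h k

theorem sa_val {N : Mx} (h : N * N = 0) (k : ∀ u v : V, bt (N *ᵥ u) v = bt u (N *ᵥ v)) : (mk (1 + N) : X).1.1 = 1 + N := by
  have e : N + N = 0 := by ext i j; simp [CharTwo.add_self_eq_zero]
  have e2 : (1 + N) * (1 + N) = 1 := by
    rw [add_mul, mul_add, mul_add, h, one_mul, one_mul, mul_one, add_zero, add_assoc, e, add_zero]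
  refine mk_val ?_ fun u v => ?_
  · have := congrArg det e2
    rw [det_mul, det_one, mul_self_eq_one_iff, CharTwo.neg_eq, or_self] at this
    exact this
  · rw [add_mulVec, add_mulVec, one_mulVec, one_mulVec, bt_add_left, bt_add_right, k u (v + N *ᵥ v), mulVec_add,
      mulVec_mulVec, h, zero_mulVec, add_zero, add_assoc, CharTwo.add_self_eq_zero, add_zero]

theorem inv_sa {x : X} (h : x * x = 1) (u v : V) : bt ((x.1.1 - 1) *ᵥ u) v = bt u ((x.1.1 - 1) *ᵥ v) := by
  have e : bt (ac x u) v = bt u (ac x v) := by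
    rw [← Api.bt_ac_inv, inv_eq_of_mul_eq_one_left h]
  have e1 : ∀ w : V, (x.1.1 - 1) *ᵥ w = ac x w + (-1 : F) • w := fun w => by
    rw [sub_mulVec, one_mulVec, neg_one_smul, sub_eq_add_neg]; rfl
  rw [e1, e1, bt_add_left, bt_add_right, bt_smul_left, bt_smul_right, e, map_neg, map_one]

theorem Is.ac {v : V} (h : Is v) (x : X) : Is (ac x v) := by
  refine ⟨by rw [bt_ac, h.1], fun e => h.2 ?_⟩
  rw [← Api.ac_inv_ac x v, e]
  exact mulVec_zero _

theorem Is.smul {v : V} (h : Is v) {a : F} (ha : a ≠ 0) : Is (a • v) := by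
  exact ⟨by rw [bt_smul_left, bt_smul_right, h.1, mul_zero, mul_zero], smul_ne_zero ha h.2⟩

theorem is_ee {i : I} (h : i ≠ i.rev) : Is (ee i : V) := by
  refine ⟨by rw [Api.bt_ee, if_neg h.symm], fun e => ?_⟩
  simpa [ee] using congrFun e i

theorem Ot.ac {u v : V} (h : Ot u v) (x : X) : Ot (ac x u) (ac x v) := by
  refine ⟨by rw [bt_ac, h.1], by rw [bt_ac, h.2.1], by rw [bt_ac, h.2.2.1], ?_⟩
  have k := LinearIndependent.pair_iff.1 h.2.2.2
  refine LinearIndependent.pair_iff.2 fun a b e => k a b ?_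
  rw [← ac_smul, ← ac_smul, ← ac_add] at e
  rw [← Api.ac_inv_ac x (a • u + b • v), e]
  exact mulVec_zero _

theorem Ot.symm {u v : V} (h : Ot u v) : Ot v u := by
  exact ⟨h.2.1, h.1, by rw [bt_symm, h.2.2.1, map_zero], LinearIndependent.pair_symm_iff.1 h.2.2.2⟩

theorem Ot.smul {u v : V} (h : Ot u v) {a b : F} (ha : a ≠ 0) (hb : b ≠ 0) : Ot (a • u) (b • v) := by
  refine ⟨by rw [bt_smul_left, bt_smul_right, h.1, mul_zero, mul_zero],
    by rw [bt_smul_left, bt_smul_right, h.2.1, mul_zero, mul_zero],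
    by rw [bt_smul_left, bt_smul_right, h.2.2.1, mul_zero, mul_zero], ?_⟩
  refine LinearIndependent.pair_iff.2 fun c d e => ?_
  rw [smul_smul, smul_smul] at e
  have := LinearIndependent.pair_iff.1 h.2.2.2 _ _ e
  exact ⟨(mul_eq_zero.1 this.1).resolve_right ha, (mul_eq_zero.1 this.2).resolve_right hb⟩

theorem Ot.is {u v : V} (h : Ot u v) {a b : F} (k : a ≠ 0 ∨ b ≠ 0) : Is (a • u + b • v) := by
  refine ⟨?_, fun e => ?_⟩
  · simp only [bt_add_left, bt_add_right, bt_smul_left, bt_smul_right, h.1, h.2.1, h.2.2.1, h.symm.2.2.1, mul_zero,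
      add_zero]
  · have := LinearIndependent.pair_iff.1 h.2.2.2 _ _ e
    exact k.elim (fun k => k this.1) fun k => k this.2

theorem ot_ee {i j : I} (h : Sh i j) : Ot (ee i : V) (ee j.rev) := by
  have h1 : i ≠ j.rev := fun e => h.2.1 (by rw [e, Fin.rev_rev])
  refine ⟨(is_ee h.2.2.1).1, (is_ee (by rw [Fin.rev_rev]; exact h.2.2.2.symm)).1,
    by rw [Api.bt_ee, Fin.rev_rev, if_neg h.1.symm], LinearIndependent.pair_iff.2 fun a b e => ⟨?_, ?_⟩⟩
  · simpa [ee, h1] using congrFun e i
  · simpa [ee, h1.symm] using congrFun e j.rev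

theorem Sh.symm {i j : I} (h : Sh i j) : Sh j i := by
  exact ⟨h.1.symm, fun e => h.2.1 (by rw [e, Fin.rev_rev]), h.2.2.2, h.2.2.1⟩

theorem Sh.rev {i j : I} (h : Sh i j) : Sh j.rev i.rev := by
  refine ⟨fun e => h.1 (Fin.rev_injective e).symm, fun e => h.2.1 ?_, ?_, ?_⟩
  · rw [e, Fin.rev_rev]
  · rw [Fin.rev_rev]; exact h.2.2.2.symm
  · rw [Fin.rev_rev]; exact h.2.2.1.symm

end UMS
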