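import Cfsg.Agent.Lib.UMS.HX
import Cfsg.Agent.Lib.Forms.Perp

/-! Perpendiculars and transitivity statements for the special unitary group. -/

set_option autoImplicit false
set_option linter.unusedSectionVars false

namespace UMS.H12

open Subgroup H69 Cfsg Matrix U4S Module
open LMS (XX GX iL kk MM au tw Sg)
open scoped MatrixGroups commutatorElement

variable {n : ℕ} {F : Type*} [Field F] [CharP F 2] [Hs F]

local notation "I" => Fin (n + 3)
local notation "Mx" => Matrix (Fin (n + 3)) (Fin (n + 3)) F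

theorem bt_nd {x : VV n F} (h : ∀ y, bt y x = 0) : x = 0 := by
  ext i
  have := h (ee i.rev)
  rw [bt_ee_l, Fin.rev_rev] at this
  exact (map_eq_zero_iff _ (σ : RingAut F).injective).1 this

theorem bt_nd' {x : VV n F} (h : ∀ y, bt x y = 0) : x = 0 :=
  bt_nd fun y => by rw [bt_symm, h, map_zero]

theorem bt_zero_l (v : VV n F) : bt 0 v = 0 := by simp [bt]
theorem bt_zero_r (v : VV n F) : bt v 0 = 0 := by simp [bt]
theorem bt_sw {u v : VV n F} (h : bt u v = 0) : bt v u = 0 := by rw [bt_symm, h, map_zero]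

variable (n F) in
/-- the form as pseudo-quadratic data -/
noncomputable def PH : H28.PQ F (VV n F) ((σ : RingAut F) : F →+* F) :=
  H28.PQ.ofHerm ss (ex_tr (F := F)).choose (ex_tr (F := F)).choose_spec BB fun _ _ => (bt_symm _ _).symm

theorem PH_sep : (PH n F).B.SeparatingLeft := fun _ hx => bt_nd hx

/-- the perpendicular -/
noncomputable def pp (W : Submodule F (VV n F)) : Submodule F (VV n F) := (PH n F).perp W

theorem mem_pp {W : Submodule F (VV n F)} {y : VV n F} : y ∈ pp W ↔ ∀ x ∈ W, bt y x = 0 := Iff.rfl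

theorem mem_pp_span {s : Set (VV n F)} {y : VV n F} : y ∈ pp (Submodule.span F s) ↔ ∀ x ∈ s, bt y x = 0 :=
  (PH n F).mem_perp_span

theorem rk_pp (W : Submodule F (VV n F)) : finrank F (pp W) + finrank F W = n + 3 := by
  have := (PH n F).finrank_perp_add PH_sep W
  rwa [finrank_fin_fun] at this

theorem pp_pp (W : Submodule F (VV n F)) : pp (pp W) = W := by
  refine (Submodule.eq_of_le_of_finrank_eq ((PH n F).le_perp_perp W) ?_).symm
  have h1 := rk_pp W
  have h2 := rk_pp (pp W)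
  change _ = finrank F (pp (pp W))
  omega

theorem ti_le {W : Submodule F (VV n F)} (h : ∀ x ∈ W, bt x x = 0) : W ≤ pp W := fun y hy x hx =>
  tot (h y hy) (h x hx) fun c => h _ (W.add_mem hy (W.smul_mem c hx))

theorem ti_rk {W : Submodule F (VV n F)} (h : ∀ x ∈ W, bt x x = 0) : 2 * finrank F W ≤ n + 3 := by
  have h1 := rk_pp W
  have h2 := Submodule.finrank_mono (ti_le h)
  omega

/-- a large subspace contains a non-isotropic vector -/
theorem ex_ni {W : Submodule F (VV n F)} (h : n + 3 < 2 * finrank F W) : ∃ w ∈ W, bt w w ≠ 0 := by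
  by_contra k
  push Not at k
  exact absurd (ti_rk k) (by omega)

theorem ex_perp {κ : Type*} [Fintype κ] (u : κ → VV n F) (h : 2 * Fintype.card κ < n + 3) :
    ∃ w, bt w w ≠ 0 ∧ ∀ i, bt (u i) w = 0 := by
  have h1 := rk_pp (Submodule.span F (Set.range u))
  have h2 : finrank F (Submodule.span F (Set.range u)) ≤ Fintype.card κ := finrank_range_le_card u
  obtain ⟨w, hw, k⟩ := ex_ni (W := pp (Submodule.span F (Set.range u))) (by omega)
  exact ⟨w, k, fun i => bt_sw (mem_pp_span.1 hw _ ⟨i, rfl⟩)⟩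

/-- Witt's lemma for short families -/
theorem witt' {κ : Type*} [Fintype κ] (u v : κ → VV n F) (hu : LinearIndependent F u) (hv : LinearIndependent F v)
    (h : ∀ i j, bt (v i) (v j) = bt (u i) (u j)) (hc : 2 * Fintype.card κ < n + 3) :
    ∃ x : XU n F, ∀ i, ac x (u i) = v i := by
  obtain ⟨w, h1, h2⟩ := ex_perp u hc
  exact witt u v hu hv h h1 h2

theorem tr_Is {u v : VV n F} (hu : Is u) (hv : Is v) : ∃ x : XU n F, ac x u = v := by
  obtain ⟨x, hx⟩ := witt' (κ := Unit) (fun _ => u) (fun _ => v) (linearIndependent_unique_iff.2 hu.2)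
    (linearIndependent_unique_iff.2 hv.2) (fun _ _ => hv.1.trans hu.1.symm) (by simp)
  exact ⟨x, hx ()⟩

theorem tr_two (hn : 2 ≤ n) {u v u' v' : VV n F} (h : LinearIndependent F ![u, v]) (h' : LinearIndependent F ![u', v'])
    (e1 : bt u' u' = bt u u) (e2 : bt v' v' = bt v v) (e3 : bt u' v' = bt u v) :
    ∃ x : XU n F, ac x u = u' ∧ ac x v = v' := by
  obtain ⟨x, hx⟩ := witt' ![u, v] ![u', v'] h h' (fun i j => by
    fin_cases i <;> fin_cases j
    exacts [e1, e3, (bt_symm _ _).trans ((congrArg _ e3).trans (bt_symm _ _).symm), e2]) (by simp; omega)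
  exact ⟨x, hx 0, hx 1⟩

theorem tr_Ot (hn : 2 ≤ n) {u v u' v' : VV n F} (h : Ot u v) (h' : Ot u' v') :
    ∃ x : XU n F, ac x u = u' ∧ ac x v = v' :=
  tr_two hn h.2.2.2 h'.2.2.2 (h'.1.trans h.1.symm) (h'.2.1.trans h.2.1.symm) (h'.2.2.1.trans h.2.2.1.symm)

theorem bt_ee (i j : I) : bt (ee i : VV n F) (ee j) = if i = j.rev then 1 else 0 := by
  rw [bt_ee_r, ee, Pi.single_apply]
  exact if_congr eq_comm rfl rfl

theorem ee_ne (i : I) : (ee i : VV n F) ≠ 0 := fun e => by
  have := congrFun e i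
  simp [ee] at this

theorem is_ee {i : I} (h : i ≠ i.rev) : Is (ee i : VV n F) := ⟨by rw [bt_ee, if_neg h], ee_ne i⟩

theorem is0 : Is (ee 0 : VV n F) := is_ee fun e => by
  have := congrArg Fin.val e
  simp at this

theorem Is.ac {v : VV n F} (h : Is v) (x : XU n F) : Is (ac x v) :=
  ⟨(bt_ac x v v).trans h.1, fun e => h.2 (ac_inj x (e.trans (ac_zero x).symm))⟩

theorem li_ac {κ : Type*} (x : XU n F) {u : κ → VV n F} (h : LinearIndependent F u) :
    LinearIndependent F fun i => ac x (u i) :=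
  h.map' (Matrix.mulVecLin x.1.1) (LinearMap.ker_eq_bot.2 fun _ _ e => ac_inj x e)

theorem Ot.ac {u v : VV n F} (h : Ot u v) (x : XU n F) : Ot (ac x u) (ac x v) := by
  refine ⟨(bt_ac x _ _).trans h.1, (bt_ac x _ _).trans h.2.1, (bt_ac x _ _).trans h.2.2.1, ?_⟩
  have := li_ac x h.2.2.2
  convert this using 1
  ext1 i
  fin_cases i <;> rfl

theorem ot_ee {i j : I} (h : Sh i j) {a : F} (ha : a ≠ 0) : Ot (a • ee i : VV n F) (ee j.rev) := by
  refine ⟨?_, ?_, ?_, ?_⟩
  · rw [bt_smul_l, bt_smul_r, bt_ee, if_neg h.2.2.1, mul_zero, mul_zero]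
  · rw [bt_ee, Fin.rev_rev, if_neg h.2.2.2.symm]
  · rw [bt_smul_l, bt_ee, Fin.rev_rev, if_neg h.1, mul_zero]
  · rw [LinearIndependent.pair_iff]
    intro s t e
    have ne : i ≠ j.rev := fun k => h.2.1 (by rw [k, Fin.rev_rev])
    have e1 := congrFun e i
    have e2 := congrFun e j.rev
    simp [ee, ne, ne.symm, ha] at e1 e2
    exact ⟨e1, e2⟩

theorem sr_val {i j : I} (h : Sh i j) (a : F) :
    (sr i j a : XU n F).1.1 = 1 + single i j a + single j.rev i.rev (σ a) := by
  rw [sr, sh_val (by rw [bt_smul_l, bt_smul_r, bt_ee, if_neg h.2.2.1, mul_zero, mul_zero])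
    (by rw [bt_ee, Fin.rev_rev, if_neg h.2.2.2.symm]) (by rw [bt_smul_l, bt_ee, Fin.rev_rev, if_neg h.1, mul_zero]),
    hm_smul_l, hm_smul_r, hm_ee, hm_ee, Fin.rev_rev, smul_single, smul_single, smul_eq_mul, smul_eq_mul, mul_one,
    mul_one]

theorem zz_val (c : K0 F) : (zz c : XU n F).1.1 = 1 + single 0 iL (c : F) := by
  rw [zz, tc_val is0.1, hm_ee, smul_single, smul_eq_mul, mul_one, Fin.rev_zero]

section fin
variable [Finite F]

theorem ex_sqrt (a : F) : ∃ b : F, b * b = a := by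
  have : ExpChar F 2 := ExpChar.prime Nat.prime_two
  obtain ⟨b, hb⟩ := surjective_frobenius F 2 a
  exact ⟨b, by rw [← hb, frobenius_def, pow_two]⟩

theorem sq_inj {a b : F} (h : a * a = b * b) : a = b := by
  have : (a + b) * (a + b) = 0 := by
    linear_combination h + (a * b + b * b) * (CharTwo.two_eq_zero : (2 : F) = 0)
  exact CharTwo.add_eq_zero.1 (mul_self_eq_zero.1 this)

/-- fixed elements are norms (of fixed elements) -/
theorem ex_nm {a : F} (h : σ a = a) : ∃ b : F, σ b = b ∧ b * σ b = a := by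
  obtain ⟨b, hb⟩ := ex_sqrt a
  have : σ b = b := sq_inj (by rw [← map_mul, hb, h])
  exact ⟨b, this, by rw [this, hb]⟩

theorem diagN (k : ℕ) : ∀ N : Mx, N.rank ≤ k → ad N = N → N * N = 0 → ∃ (ρ : ℕ) (w : Fin ρ → VV n F),
    LinearIndependent F w ∧ (∀ i, ∃ v, N *ᵥ v = w i) ∧ N = ∑ i, hm (w i) (w i) := by
  induction k using Nat.strong_induction_on with
  | _ k ih =>
  intro N hk h1 h2
  by_cases h0 : ∀ v, bt (N *ᵥ v) v = 0
  · refine ⟨0, Fin.elim0, linearIndependent_empty_type, fun i => i.elim0, ?_⟩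
    have : ∀ u, N *ᵥ u = 0 := fun u => bt_nd' fun v => by
      by_contra k
      obtain ⟨c, hc⟩ := ex_tr (F := F)
      have := h0 (u + σ (c / bt (N *ᵥ u) v) • v)
      rw [mulVec_add, mulVec_smul, bt_add_l, bt_add_r, bt_add_r, bt_smul_l, bt_smul_r, bt_smul_l, bt_smul_r, h0, h0,
        ss, bt_ad N v u, h1, bt_symm (N *ᵥ u) v, ← map_mul, div_mul_cancel₀ _ k, mul_zero, mul_zero, zero_add,
        add_zero, hc] at this
      exact one_ne_zero this
    rw [Finset.univ_eq_empty, Finset.sum_empty]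
    ext i j
    simpa using congrFun (this (Pi.single j 1)) i
  push Not at h0
  obtain ⟨v0, hv0⟩ := h0
  have s0 : σ (bt (N *ᵥ v0) v0) = bt (N *ᵥ v0) v0 := by rw [← bt_symm, bt_ad, h1]
  obtain ⟨c, -, hc⟩ := ex_nm (a := (bt (N *ᵥ v0) v0)⁻¹) (by rw [map_inv₀, s0])
  obtain ⟨v, hv⟩ : ∃ v, bt (N *ᵥ v) v = 1 :=
    ⟨c • v0, by rw [mulVec_smul, bt_smul_l, bt_smul_r, ← mul_assoc, hc, inv_mul_cancel₀ hv0]⟩
  set w := N *ᵥ v with hw
  have Nw : N *ᵥ w = 0 := by rw [hw, mulVec_mulVec, h2, zero_mulVec]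
  have ww : bt w w = 0 := by rw [hw, bt_ad, h1, ← hw, Nw, bt_zero_r]
  have vw : bt v w = 1 := by rw [bt_symm, hv, map_one]
  have a1 : ad (N + hm w w) = N + hm w w := by rw [ad_add, h1, ad_hm]
  have z1 : N * hm w w = 0 := by
    rw [mul_hm, Nw]; ext i j; simp [hm]
  have z2 : hm w w * N = 0 := by
    rw [← h1, hm_mul_ad, Nw]; ext i j; simp [hm, vecMulVec_apply]
  have a2 : (N + hm w w) * (N + hm w w) = 0 := by
    rw [add_mul, mul_add, mul_add, h2, z1, z2, hm_mul, ww, zero_smul]; simp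
  have a3 : (N + hm w w) *ᵥ v = 0 := by
    rw [add_mulVec, hm_mulVec, vw, one_smul, ← hw]
    ext i; exact CharTwo.add_self_eq_zero _
  have a4 : ∀ u, (N + hm w w) *ᵥ u = N *ᵥ (u + bt u w • v) := fun u => by
    rw [add_mulVec, hm_mulVec, mulVec_add, mulVec_smul]
  have a5 : ∀ u, bt ((N + hm w w) *ᵥ u) v = 0 := fun u => by rw [bt_ad, a1, a3, bt_zero_r]
  have lt : (N + hm w w).rank < N.rank := by
    refine Submodule.finrank_lt_finrank_of_lt (lt_of_le_of_ne ?_ fun e => ?_)
    · rintro _ ⟨u, rfl⟩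
      exact ⟨_, (a4 u).symm⟩
    · have : w ∈ LinearMap.range (N + hm w w).mulVecLin := e ▸ ⟨v, rfl⟩
      obtain ⟨u, hu⟩ := this
      have := a5 u
      rw [show (N + hm w w) *ᵥ u = w from hu, hv] at this
      exact one_ne_zero this
  obtain ⟨ρ, u, u1, u2, u3⟩ := ih _ (lt.trans_le hk) _ le_rfl a1 a2
  refine ⟨ρ + 1, Fin.cons w u, ?_, ?_, ?_⟩
  · refine linearIndependent_finCons.2 ⟨u1, fun m => ?_⟩
    have : Submodule.span F (Set.range u) ≤ pp (Submodule.span F {v}) := Submodule.span_le.2 (by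
      rintro _ ⟨i, rfl⟩
      obtain ⟨y, hy⟩ := u2 i
      exact mem_pp_span.2 fun x hx => by rw [Set.mem_singleton_iff.1 hx, ← hy, a5])
    have := mem_pp_span.1 (this m) v rfl
    rw [hv] at this
    exact one_ne_zero this
  · refine Fin.cases ⟨v, rfl⟩ fun i => ?_
    obtain ⟨y, hy⟩ := u2 i
    exact ⟨_, (a4 y).symm.trans hy⟩
  · rw [Fin.sum_univ_succ]
    simp only [Fin.cons_zero, Fin.cons_succ]
    rw [← u3, add_comm N, ← add_assoc, mm, zero_add]

/-- normal form of an involution -/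
theorem inv_nf {x : XU n F} (h : x * x = 1) : ∃ w : Fin (rk x) → VV n F, LinearIndependent F w ∧
    (∀ i j, bt (w i) (w j) = 0) ∧ x.1.1 = 1 + ∑ i, hm (w i) (w i) := by
  have xx : x.1.1 * x.1.1 = 1 := by rw [← mul_val, h, one_val]
  have e : x.1.1 - 1 = x.1.1 + 1 := by
    ext i j; exact CharTwo.sub_eq_add _ _
  have h1 : ad (x.1.1 - 1) = x.1.1 - 1 := by
    rw [e, ad_add, ad_one, ← inv_val, inv_eq_of_mul_eq_one_right h]
  have h2 : (x.1.1 - 1) * (x.1.1 - 1) = 0 := by
    rw [e, add_mul, mul_add, xx, mul_one, one_mul, add_comm 1, mm]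
  obtain ⟨ρ, w, w1, w2, w3⟩ := diagN _ _ le_rfl h1 h2
  have hρ : rk x = ρ := by
    have : LinearMap.range (x.1.1 - 1).mulVecLin = Submodule.span F (Set.range w) := by
      refine le_antisymm ?_ (Submodule.span_le.2 ?_)
      · rintro _ ⟨u, rfl⟩
        rw [mulVecLin_apply, w3, sum_mulVec]
        exact Submodule.sum_mem _ fun i _ => by
          rw [hm_mulVec]; exact Submodule.smul_mem _ _ (Submodule.subset_span ⟨i, rfl⟩)
      · rintro _ ⟨i, rfl⟩
        exact w2 i
    change finrank F (LinearMap.range (x.1.1 - 1).mulVecLin) = ρ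
    rw [this, finrank_span_eq_card w1, Fintype.card_fin]
  subst hρ
  refine ⟨w, w1, fun i j => ?_, by rw [← w3, add_sub_cancel]⟩
  obtain ⟨a, ha⟩ := w2 i
  obtain ⟨b, hb⟩ := w2 j
  rw [← ha, ← hb, bt_ad, h1, mulVec_mulVec, h2, zero_mulVec, bt_zero_r]

omit [Finite F] in
/-- Witt's lemma in the full unitary group -/
theorem witt0 {κ : Type*} [Finite κ] (u v : κ → VV n F) (hu : LinearIndependent F u) (hv : LinearIndependent F v)
    (h : ∀ i j, bt (v i) (v j) = bt (u i) (u j)) : ∃ M : Mx, ad M * M = 1 ∧ ∀ i, M *ᵥ u i = v i := by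
  obtain ⟨g, g1, g2⟩ := H28.witt_herm_family (σ := ((σ : RingAut F) : F →+* F)) ss ex_tr (BB (n := n))
    (fun x y => (bt_symm _ _).symm) (fun x hx => bt_nd hx) u v hu hv (fun i j => h j i)
  have hM : ∀ x, LinearMap.toMatrix' g.toLinearMap *ᵥ x = g x := fun x => LinearMap.toMatrix'_mulVec _ _
  exact ⟨_, iso_ad fun a b => by rw [hM, hM]; exact g1 b a, fun i => by rw [hM, g2]⟩

/-- Witt's lemma for totally isotropic families, up to a scalar of norm one on one vector -/
theorem witt_ti {ρ : ℕ} (w : Fin ρ → VV n F) (w1 : LinearIndependent F w) (w2 : ∀ i j, bt (w i) (w j) = 0) :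
    ∃ h : ρ ≤ n + 3, 2 * ρ ≤ n + 3 ∧ ∃ (l : XU n F) (c : F), c * σ c = 1 ∧
      ∀ i, ac l (w i) = (if i.1 = 0 then c else 1) • ee (Fin.castLE h i) := by
  have h2 : 2 * ρ ≤ n + 3 := by
    have := ti_rk (W := Submodule.span F (Set.range w)) fun x hx => by
      have : Submodule.span F (Set.range w) ≤ pp (Submodule.span F (Set.range w)) := Submodule.span_le.2 (by
        rintro _ ⟨i, rfl⟩
        exact mem_pp_span.2 (by rintro _ ⟨j, rfl⟩; exact w2 i j))
      exact mem_pp.1 (this hx) x hx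
    rwa [finrank_span_eq_card w1, Fintype.card_fin] at this
  have h : ρ ≤ n + 3 := by omega
  refine ⟨h, h2, ?_⟩
  obtain ⟨M, hA, hM⟩ := witt0 w (fun i => ee (Fin.castLE h i)) w1
    ((Pi.linearIndependent_single_one (Fin (n + 3)) F).comp _ (Fin.castLE_injective h)) fun i j => by
      rw [w2, bt_ee, if_neg]
      intro e
      have := congrArg Fin.val e
      simp only [Fin.val_castLE, Fin.val_rev] at this
      omega
  have hd : σ M.det * M.det = 1 := by rw [← ad_det, ← det_mul, hA, det_one]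
  obtain ⟨c, hc⟩ := ex_sqrt (σ M.det)
  have c1 : c * σ c = 1 := sq_inj (by
    rw [mul_mul_mul_comm, ← map_mul, hc, ss, hd, mul_one])
  have n0 : (0 : I) ≠ iL := fun e => by
    have := congrArg Fin.val e
    simp at this
  let d : I → F := fun i => if i = 0 ∨ i = iL then c else 1
  have dd : (diagonal d).det = σ M.det := by
    rw [det_diagonal, ← hc, Finset.prod_eq_mul (0 : I) iL n0]
    · simp [d]
    · intro i _ hi
      exact if_neg (not_or.2 hi)
    · simp
    · simp
  have da : ad (diagonal d) * diagonal d = 1 := by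
    have : ad (diagonal d) = diagonal fun i => σ (d i.rev) := by
      ext i j
      rw [ad_apply, diagonal_apply, diagonal_apply]
      by_cases e : i = j
      · simp [e]
      · rw [if_neg e, if_neg (fun k => e (Fin.rev_inj.1 k).symm), map_zero]
    rw [this, diagonal_mul_diagonal, ← diagonal_one]
    congr 1
    ext i
    have e : (i.rev = 0 ∨ i.rev = iL) ↔ (i = 0 ∨ i = iL) := by
      simp only [Fin.ext_iff, Fin.val_rev, Fin.val_zero, Fin.val_last]
      omega
    simp only [d, e]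
    split_ifs
    · rw [mul_comm, c1]
    · rw [map_one, mul_one]
  refine ⟨mk (diagonal d * M), c, c1, fun i => ?_⟩
  rw [ac, mk_val (by rw [det_mul, dd, hd]) (by rw [ad_mul, mul_assoc, ← mul_assoc (ad _) _ M, da, one_mul, hA]),
    ← mulVec_mulVec, hM, ee, diagonal_mulVec_single, mul_one]
  have : d (Fin.castLE h i) = if i.1 = 0 then c else 1 := by
    refine if_congr ?_ rfl rfl
    simp only [Fin.ext_iff, Fin.val_castLE, Fin.val_zero, Fin.val_last]
    omega
  rw [this, ← Pi.single_smul', smul_eq_mul, mul_one]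

/-- standard form of an involution -/
theorem inv_std {x : XU n F} (h : x * x = 1) : ∃ k : rk x ≤ n + 3, 2 * rk x ≤ n + 3 ∧ ∃ l : XU n F,
    (l * x * l⁻¹).1.1 = 1 + ∑ i : Fin (rk x), hm (ee (Fin.castLE k i)) (ee (Fin.castLE k i)) := by
  obtain ⟨w, w1, w2, w3⟩ := inv_nf h
  obtain ⟨k, k2, l, c, c1, hl⟩ := witt_ti w w1 w2
  refine ⟨k, k2, l, ?_⟩
  rw [mul_val, mul_val, w3, mul_add, add_mul, cj_one, Finset.mul_sum, Finset.sum_mul]
  congr 1
  refine Finset.sum_congr rfl fun i _ => ?_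
  rw [cj_hm, hl, hm_smul_l, hm_smul_r, smul_smul]
  split_ifs
  · rw [c1, one_smul]
  · rw [map_one, mul_one, one_smul]

/-- involutions of the same rank are conjugate -/
theorem inv_cj {x y : XU n F} (hx : x * x = 1) (hy : y * y = 1) (h : rk x = rk y) : ∃ l, l * x * l⁻¹ = y := by
  obtain ⟨k, -, l, hl⟩ := inv_std hx
  obtain ⟨k', -, l', hl'⟩ := inv_std hy
  have : l * x * l⁻¹ = l' * y * l'⁻¹ := xext (by
    rw [hl, hl']
    revert k k'
    rw [h]
    intros
    rfl)
  refine ⟨l'⁻¹ * l, ?_⟩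
  rw [_root_.mul_inv_rev, inv_inv, mul_assoc l'⁻¹, mul_assoc l'⁻¹, ← mul_assoc (l * x), this]
  group

end fin

end UMS.H12
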