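import Cfsg.Agent.Lib.UMS.HX

/-! Witt's lemma in `XU` without a chosen anisotropic vector. -/

set_option autoImplicit false
set_option linter.unusedSectionVars false

namespace UMS.H76

open Subgroup H69 Cfsg Matrix U4S UMS.H12
open LMS (XX GX iL kk MM au tw Sg)
open scoped MatrixGroups commutatorElement

variable {n : ℕ} {F : Type*} [Field F] [CharP F 2] [Hs F]

theorem bt_nd {u : VV n F} (h : ∀ v, bt u v = 0) : u = 0 := by
  ext i; have := h (ee i.rev); rwa [bt_ee_r, Fin.rev_rev] at this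

theorem bt_nd' {u : VV n F} (h : ∀ v, bt v u = 0) : u = 0 := bt_nd fun v => by rw [bt_symm, h, map_zero]

theorem bt_zero_l (v : VV n F) : bt 0 v = 0 := by simp [bt]
theorem bt_zero_r (v : VV n F) : bt v 0 = 0 := by simp [bt]

theorem ex_aniso (W : Submodule F (VV n F)) {a b : VV n F} (ha : a ∈ W) (hb : b ∈ W) (h : bt a b ≠ 0) :
    ∃ w ∈ W, bt w w ≠ 0 := by
  by_contra k; push Not at k
  obtain ⟨c, hc⟩ := ex_tr (F := F)
  have := k ((c / bt a b) • a + b) (W.add_mem (W.smul_mem _ ha) hb)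
  rw [bt_add_l, bt_add_r, bt_add_r, k _ (W.smul_mem _ ha), k b hb, bt_smul_l, bt_smul_r, bt_symm a b,
    ← map_mul, div_mul_cancel₀ _ h, zero_add, add_zero, hc] at this
  exact one_ne_zero this

/-- a non-isotropic vector orthogonal to fewer than `m / 2` given vectors -/
theorem ex_perp {ι : Type*} [Fintype ι] (v : ι → VV n F) (hc : 2 * Fintype.card ι < n + 3) :
    ∃ w, bt w w ≠ 0 ∧ ∀ i, bt (v i) w = 0 := by
  classical
  let f : VV n F →ₗ[F] (ι → F) := LinearMap.pi fun i => BB (v i)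
  have hf : ∀ x, x ∈ LinearMap.ker f ↔ ∀ i, bt x (v i) = 0 := fun x => by
    rw [LinearMap.mem_ker, funext_iff]; rfl
  have d1 : n + 3 ≤ Fintype.card ι + Module.finrank F (LinearMap.ker f) := by
    have := f.finrank_range_add_finrank_ker
    have h2 := Submodule.finrank_le (LinearMap.range f)
    simp only [Module.finrank_fintype_fun_eq_card, Fintype.card_fin] at this h2
    omega
  by_contra k
  have iso : ∀ a ∈ LinearMap.ker f, ∀ b ∈ LinearMap.ker f, bt a b = 0 := fun a ha b hb => by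
    by_contra e
    obtain ⟨w, hw, hw'⟩ := ex_aniso _ ha hb e
    exact k ⟨w, hw', fun i => by rw [bt_symm, (hf w).1 hw, map_zero]⟩
  set K := LinearMap.ker f
  let b := Module.finBasis F K
  let g : VV n F →ₗ[F] (Fin (Module.finrank F K) → F) := LinearMap.pi fun i => BB (b i : VV n F)
  have gs : Function.Surjective g := by
    rw [← LinearMap.range_eq_top]
    by_contra e
    obtain ⟨φ, φ0, hφ⟩ := Submodule.exists_le_ker_of_lt_top _ (lt_top_iff_ne_top.2 e)
    apply φ0
    have key : ∑ i, σ (φ (Pi.single i 1)) • (b i : VV n F) = 0 := bt_nd fun x => by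
      have := hφ (LinearMap.mem_range_self g x)
      rw [LinearMap.mem_ker, LinearMap.pi_apply_eq_sum_univ] at this
      rw [bt_symm]
      have e2 : bt x (∑ i, σ (φ (Pi.single i 1)) • (b i : VV n F)) = BB (∑ i, σ (φ (Pi.single i 1)) • (b i : VV n F)) x := rfl
      rw [e2, map_sum, LinearMap.sum_apply, ← map_zero (σ : RingAut F), ← this]
      congr 1
      refine Finset.sum_congr rfl fun i _ => ?_
      change bt x (σ (φ (Pi.single i 1)) • (b i : VV n F)) = bt x (b i) * _
      rw [bt_smul_r, ss, mul_comm]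
      congr 2; ext j; simp [Pi.single_apply, eq_comm]
    have li : LinearIndependent F fun i => (b i : VV n F) := b.linearIndependent.map' K.subtype (Submodule.ker_subtype K)
    have z := Fintype.linearIndependent_iff.1 li _ key
    refine LinearMap.pi_ext' fun i => LinearMap.ext_ring ?_
    simpa using z i
  have d2 := g.finrank_range_add_finrank_ker
  rw [LinearMap.range_eq_top.2 gs] at d2
  have d3 : K ≤ LinearMap.ker g := fun a ha => by
    rw [LinearMap.mem_ker, funext_iff]; exact fun i => iso a ha _ (b i).2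
  have d4 := Submodule.finrank_mono d3
  simp only [finrank_top, Module.finrank_fintype_fun_eq_card, Fintype.card_fin] at d2
  omega

/-- Witt's lemma for fewer than `m / 2` vectors -/
theorem witt' {ι : Type*} [Fintype ι] (u v : ι → VV n F) (hu : LinearIndependent F u) (hv : LinearIndependent F v)
    (h : ∀ i j, bt (v i) (v j) = bt (u i) (u j)) (hc : 2 * Fintype.card ι < n + 3) :
    ∃ x : XU n F, ∀ i, ac x (u i) = v i := by
  obtain ⟨w, hw, ho⟩ := ex_perp u hc
  exact witt u v hu hv h hw ho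

/-- transitivity on vectors of the same norm -/
theorem tr1 {u v : VV n F} (hu : u ≠ 0) (hv : v ≠ 0) (h : bt v v = bt u u) : ∃ x : XU n F, ac x u = v := by
  obtain ⟨x, hx⟩ := witt' (ι := Unit) (fun _ => u) (fun _ => v) (linearIndependent_unique_iff.2 hu)
    (linearIndependent_unique_iff.2 hv) (fun _ _ => h) (by simp)
  exact ⟨x, hx ()⟩

theorem tr_Is {u v : VV n F} (hu : Is u) (hv : Is v) : ∃ x : XU n F, ac x u = v :=
  tr1 hu.2 hv.2 (hv.1.trans hu.1.symm)

/-- transitivity on independent pairs with the same Gram matrix -/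
theorem tr2 (hn : 2 ≤ n) {u u' v v' : VV n F} (hu : LinearIndependent F ![u, u']) (hv : LinearIndependent F ![v, v'])
    (h1 : bt v v = bt u u) (h2 : bt v' v' = bt u' u') (h3 : bt v v' = bt u u') :
    ∃ x : XU n F, ac x u = v ∧ ac x u' = v' := by
  obtain ⟨x, hx⟩ := witt' ![u, u'] ![v, v'] hu hv (fun i j => by
    fin_cases i <;> fin_cases j
    · exact h1
    · exact h3
    · change bt v' v = bt u' u
      rw [bt_symm, h3, ← bt_symm]
    · exact h2) (by simp; omega)
  exact ⟨x, hx 0, hx 1⟩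

theorem tr_Ot (hn : 2 ≤ n) {u u' v v' : VV n F} (hu : Ot u u') (hv : Ot v v') : ∃ x : XU n F, ac x u = v ∧ ac x u' = v' :=
  tr2 hn hu.2.2.2 hv.2.2.2 (hv.1.trans hu.1.symm) (hv.2.1.trans hu.2.1.symm) (hv.2.2.1.trans hu.2.2.1.symm)

/-- a hyperbolic partner -/
theorem ex_hyp {v : VV n F} (hv : Is v) : ∃ u, bt u u = 0 ∧ bt u v = 1 := by
  obtain ⟨a, ha⟩ : ∃ a, bt a v ≠ 0 := by
    by_contra k; push Not at k; exact hv.2 (bt_nd' k)
  obtain ⟨c, hc⟩ := ex_tr (F := F)
  set b := (bt a v)⁻¹ • a with hb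
  have b1 : bt b v = 1 := by rw [hb, bt_smul_l, inv_mul_cancel₀ ha]
  have b2 : bt v b = 1 := by rw [bt_symm, b1, map_one]
  have b3 : σ (bt b b) = bt b b := (bt_symm b b).symm
  refine ⟨b + (c * bt b b) • v, ?_, ?_⟩
  · simp only [bt_add_l, bt_add_r, bt_smul_l, bt_smul_r, b1, b2, hv.1, map_mul, b3]
    have h2 : (2 : F) = 0 := CharTwo.two_eq_zero
    linear_combination bt b b * hc + bt b b * h2
  · rw [bt_add_l, b1, bt_smul_l, hv.1, mul_zero, add_zero]

/-- a hyperbolic pair is independent -/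
theorem hyp_li {u v : VV n F} (hu : bt u u = 0) (hv : bt v v = 0) (h : bt u v ≠ 0) : LinearIndependent F ![u, v] := by
  refine LinearIndependent.pair_iff.2 fun a b e => ?_
  have e1 := congrArg (bt · v) e
  have e2 := congrArg (bt · u) e
  have h' : bt v u ≠ 0 := by rw [bt_symm]; exact (map_ne_zero _).2 h
  simp only [bt_add_l, bt_smul_l, hu, hv, bt_zero_l, mul_zero, add_zero, zero_add] at e1 e2
  exact ⟨(mul_eq_zero.1 e1).resolve_right h, (mul_eq_zero.1 e2).resolve_right h'⟩

theorem bt_ee (i j : Fin (n + 3)) : bt (ee i : VV n F) (ee j) = if i = j.rev then 1 else 0 := by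
  rw [bt_ee_r, ee, Pi.single_apply]; exact if_congr eq_comm rfl rfl

theorem ee_ne (i : Fin (n + 3)) : (ee i : VV n F) ≠ 0 := fun h => by simpa [ee] using congrFun h i

theorem is_ee {i : Fin (n + 3)} (h : i ≠ i.rev) : Is (ee i : VV n F) := ⟨by rw [bt_ee, if_neg h], ee_ne i⟩

theorem ee_li {i j : Fin (n + 3)} (h : i ≠ j) : LinearIndependent F ![(ee i : VV n F), ee j] := by
  refine LinearIndependent.pair_iff.2 fun a b e => ⟨?_, ?_⟩
  · simpa [ee, Pi.single_apply, h] using congrFun e i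
  · simpa [ee, Pi.single_apply, h.symm] using congrFun e j

theorem ot_ee {i j : Fin (n + 3)} (h : i ≠ j) (h1 : i ≠ i.rev) (h2 : j ≠ j.rev) (h3 : i ≠ j.rev) :
    Ot (ee i : VV n F) (ee j) := ⟨(is_ee h1).1, (is_ee h2).1, by rw [bt_ee, if_neg h3], ee_li h⟩

theorem Is.ac {v : VV n F} (h : Is v) (x : XU n F) : Is (ac x v) :=
  ⟨by rw [bt_ac, h.1], fun e => h.2 (ac_inj x (e.trans (ac_zero x).symm))⟩

theorem li_ac {u v : VV n F} (h : LinearIndependent F ![u, v]) (x : XU n F) : LinearIndependent F ![ac x u, ac x v] := by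
  rw [LinearIndependent.pair_iff] at h ⊢
  intro a b e
  refine h a b (ac_inj x ?_)
  rw [ac_add, ac_smul, ac_smul, e, ac_zero]

theorem Ot.ac {u v : VV n F} (h : Ot u v) (x : XU n F) : Ot (ac x u) (ac x v) :=
  ⟨by rw [bt_ac, h.1], by rw [bt_ac, h.2.1], by rw [bt_ac, h.2.2.1], li_ac h.2.2.2 x⟩

end UMS.H76
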