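import Cfsg.Agent.Lib.UMS.B1
import Cfsg.Agent.Lib.UMS.H12b
import Cfsg.Agent.Lib.UMS.HY
import Cfsg.Agent.Lib.LMS.B2

set_option autoImplicit false
set_option linter.unusedSectionVars false

namespace UMS

open Subgroup H69 Cfsg Matrix U4S
open LMS (XX GX iL kk MM au tw Sg)
open scoped MatrixGroups commutatorElement

universe u
variable {G : Type*} [Group G] [Finite G] {F : Type u} [Field F] [CharP F 2] [Fintype F] [Hs F] {n : ℕ} [Ok n F]
  {ι ψ χ : XU n F →* G} {t : G} {E : Subgroup G}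

local notation "X" => XU n F
local notation "V" => VV n F
local notation "𝐪" => Nat.card (K0 F)
local notation "I" => Fin (n + 3)
local notation "Mx" => Matrix (Fin (n + 3)) (Fin (n + 3)) F

namespace B1b

theorem cmm {H : Type*} [Group H] {A A' B B' : H} (h1 : A * A' = A' * A) (h2 : A * B' = B' * A) (h3 : B * A' = A' * B)
    (h4 : B * B' = B' * B) : ⁅A * A', B * B'⁆ = ⁅A, B⁆ * ⁅A', B'⁆ := by
  have c1 : Commute A A' := h1
  have c2 : Commute A B' := h2
  have c3 : Commute B A' := h3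
  have c4 : Commute B B' := h4
  have k : ∀ {x : H}, Commute x A' → Commute x B' → Commute x ⁅A', B'⁆ := fun a b => by
    rw [commutatorElement_def]; exact ((a.mul_right b).mul_right a.inv_right).mul_right b.inv_right
  have e : A' * (B * B') * A'⁻¹ = B * ⁅A', B'⁆ * B' := by
    rw [← mul_assoc, ← c3.eq, commutatorElement_def]; group
  calc ⁅A * A', B * B'⁆ = A * (A' * (B * B') * A'⁻¹) * A⁻¹ * B'⁻¹ * B⁻¹ := by rw [commutatorElement_def]; group
    _ = A * B * (⁅A', B'⁆ * B' * A⁻¹) * B'⁻¹ * B⁻¹ := by rw [e]; group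
    _ = A * B * A⁻¹ * (⁅A', B'⁆ * B⁻¹) := by
      rw [← (((k c1 c2).mul_right c2).inv_left).eq]; group
    _ = _ := by rw [← ((k c3 c4).inv_left).eq, commutatorElement_def A B]; group

theorem ex_pm {i i' : I} (h : i ≠ i.rev) (h' : i' ≠ i'.rev) : ∃ π : Equiv.Perm I, (∀ a, π a.rev = (π a).rev) ∧ π i = i' ∧
    ∀ a, a ≠ i → a ≠ i.rev → a ≠ i' → a ≠ i'.rev → π a = a := by
  by_cases e : i' = i
  · exact ⟨1, fun _ => rfl, e.symm, fun _ _ _ _ _ => rfl⟩
  by_cases e' : i' = i.rev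
  · refine ⟨Equiv.swap i i.rev, fun a => ?_, by rw [e', Equiv.swap_apply_left],
      fun a h1 h2 _ _ => Equiv.swap_apply_of_ne_of_ne h1 h2⟩
    simp only [Equiv.swap_apply_def, Fin.ext_iff, Fin.val_rev, apply_ite Fin.val, apply_ite Fin.rev] at *
    have := a.2; have := i.2
    split_ifs <;> omega
  · refine ⟨Equiv.swap i i' * Equiv.swap i.rev i'.rev, fun a => ?_, ?_, fun a h1 h2 h3 h4 => ?_⟩
    · simp only [ne_eq, Equiv.Perm.mul_apply, Equiv.swap_apply_def, Fin.ext_iff, Fin.val_rev, apply_ite Fin.val,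
        apply_ite Fin.rev] at *
      have := a.2; have := i.2; have := i'.2
      split_ifs <;> omega
    · rw [Equiv.Perm.mul_apply, Equiv.swap_apply_of_ne_of_ne h fun k => e' (by rw [k, Fin.rev_rev]),
        Equiv.swap_apply_left]
    · rw [Equiv.Perm.mul_apply, Equiv.swap_apply_of_ne_of_ne h2 h4, Equiv.swap_apply_of_ne_of_ne h1 h3]

theorem ad_sq {x : X} (h : x.1 * x.1 = 1) : H12.ad x.1.1 = x.1.1 := by
  rw [← H12.inv_val, inv_eq_of_mul_eq_one_right (Subtype.ext h : x * x = 1)]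

theorem ee_ap (i a : I) : (ee i : V) a = if a = i then 1 else 0 := Pi.single_apply _ _ _

end B1b

open B1b

theorem tc_val {v : V} (h : bt v v = 0) (c : K0 F) : (tc v c).1.1 = 1 + (c : F) • hm v v := by
  exact H12.tc_val h c

theorem sh_val {u v : V} (hu : bt u u = 0) (hv : bt v v = 0) (h : bt u v = 0) : (sh u v).1.1 = 1 + hm u v + hm v u := by
  exact H12.sh_val hu hv h

theorem ac_tc {v : V} (h : bt v v = 0) (c : K0 F) (u : V) : ac (tc v c) u = u + ((c : F) * bt u v) • v := by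
  exact H12.ac_tc h c u

theorem ac_sh {u v : V} (hu : bt u u = 0) (hv : bt v v = 0) (h : bt u v = 0) (x : V) :
    ac (sh u v) x = x + bt x v • u + bt x u • v := by
  exact H12.ac_sh hu hv h x

theorem tc_mul {v : V} (h : bt v v = 0) (c c' : K0 F) : tc v c * tc v c' = tc v (c + c') := by
  exact H12.tc_mul h c c'

theorem tc_zero (v : V) : tc v 0 = 1 := by
  refine H12.xext ?_
  rw [tc, ZeroMemClass.coe_zero, zero_smul, add_zero, H12.mk_val det_one (by rw [H12.ad_one, mul_one]), H12.one_val]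

theorem tc_sq {v : V} (h : bt v v = 0) (c : K0 F) : tc v c * tc v c = 1 := by
  exact H12.tc_sq h c

theorem tc_cj {v : V} (h : bt v v = 0) (c : K0 F) (x : X) : x * tc v c * x⁻¹ = tc (ac x v) c := by
  exact H12.cj_tc x h c

theorem tc_smul (v : V) (a : F) (c : K0 F) : tc (a • v) c = tc v (nm a * c) := by
  rw [tc, tc, H12.hm_smul_l, H12.hm_smul_r, smul_smul, smul_smul, mul_assoc, mul_comm (c : F)]
  rfl

theorem tc_cen {v : V} (h : Is v) {c : K0 F} (k : tc v c ∈ center _) : c = 0 := by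
  obtain ⟨u, hu, h1⟩ := H76.ex_hyp h
  have e := H12.cj_tc (tc u 1) h.1 c
  rw [mem_center_iff.1 k, mul_inv_cancel_right] at e
  have h2 : bt v u = 1 := by rw [H12.bt_symm, h1, map_one]
  have e1 : ac (tc u 1) v = v + u := by rw [H12.ac_tc hu, h2]; simp
  have h3 : bt (v + u) (v + u) = 0 := by rw [← e1, H12.bt_ac, h.1]
  have e2 := congrArg (fun y => bt (ac y v) v) e
  simp only [e1, H12.ac_tc h.1, H12.ac_tc h3, H12.bt_add_l, H12.bt_add_r, H12.bt_smul_l, h.1, h1, h2] at e2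
  simpa using e2.symm

theorem tc_inj {v : V} (h : Is v) {c c' : K0 F} (k : tc v c = tc v c') : c = c' := by
  obtain ⟨u, hu, h1⟩ := H76.ex_hyp h
  have e := congrArg (fun y => ac y u) k
  simp only [H12.ac_tc h.1, h1, mul_one, add_right_inj] at e
  exact Subtype.ext (smul_left_injective F h.2 e)

theorem tc_comm {u v : V} (hu : bt u u = 0) (hv : bt v v = 0) (h : bt u v = 0) (c c' : K0 F) :
    tc u c * tc v c' = tc v c' * tc u c := by
  have e := H12.cj_tc (tc u c) hv c'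
  rw [H12.ac_tc hu, H12.bt_sw h, mul_zero, zero_smul, add_zero] at e
  exact mul_inv_eq_iff_eq_mul.1 e

theorem tc_St {u v : V} (hv : bt v v = 0) (h : bt u v = 0) (c : K0 F) : tc v c ∈ St {u} := by
  rintro _ rfl
  rw [H12.ac_tc hv, h, mul_zero, zero_smul, add_zero]

theorem sh_symm (u v : V) : sh u v = sh v u := by
  rw [sh, sh, add_right_comm]

theorem sh_smul (a : F) (u v : V) : sh (a • u) v = sh u (σ a • v) := by
  rw [sh, sh, H12.hm_smul_l, H12.hm_smul_r, H12.hm_smul_l, H12.hm_smul_r, H12.ss]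

theorem sh_cj {u v : V} (hu : bt u u = 0) (hv : bt v v = 0) (h : bt u v = 0) (x : X) :
    x * sh u v * x⁻¹ = sh (ac x u) (ac x v) := by
  exact H12.cj_sh x hu hv h

theorem sh_add {u v w : V} (hu : bt u u = 0) (hv : bt v v = 0) (hw : bt w w = 0) (h : bt u v = 0) (h' : bt u w = 0)
    (k : bt v w = 0) : sh u (v + w) = sh u v * sh u w := by
  refine H12.xext ?_
  rw [H12.mul_val, H12.sh_val hu hv h, H12.sh_val hu hw h', H12.sh_val hu
    (by rw [H12.bt_add_l, H12.bt_add_r, H12.bt_add_r, hv, hw, k, H12.bt_sw k]; simp)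
    (by rw [H12.bt_add_r, h, h', add_zero])]
  simp only [H12.hm_add_l, H12.hm_add_r, add_mul, mul_add, one_mul, mul_one, H12.hm_mul, hu, H12.bt_sw k, h,
    H12.bt_sw h', zero_smul, add_zero]
  abel

theorem sh_tc {u v : V} (hu : bt u u = 0) (hv : bt v v = 0) (h : bt u v = 0) :
    sh u v = tc (u + v) 1 * tc u 1 * tc v 1 := by
  refine H12.xext ?_
  rw [H12.mul_val, H12.mul_val, H12.sh_val hu hv h, H12.tc_val hu, H12.tc_val hv, H12.tc_val
    (by rw [H12.bt_add_l, H12.bt_add_r, H12.bt_add_r, hu, hv, h, H12.bt_sw h]; simp)]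
  simp only [OneMemClass.coe_one, one_smul, H12.hm_add_l, H12.hm_add_r, add_mul, mul_add, one_mul, mul_one,
    H12.hm_mul, hu, hv, h, H12.bt_sw h, zero_smul, add_zero]
  calc _ = 1 + hm u v + hm v u + (hm u u + hm u u) + (hm v v + hm v v) := by rw [H12.mm, H12.mm, add_zero, add_zero]
    _ = _ := by abel

theorem sh_sq {u v : V} (hu : bt u u = 0) (hv : bt v v = 0) (h : bt u v = 0) : sh u v * sh u v = 1 := by
  exact H12.sh_sq hu hv h

theorem herm_inj {u v : V} (h : Ot u v) {a b a' b' : K0 F} {c c' : F}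
    (k : tc u a * tc v b * sh (c • u) v = tc u a' * tc v b' * sh (c' • u) v) : a = a' ∧ b = b' ∧ c = c' := by
  obtain ⟨hu, hv, h0, li⟩ := h
  have h0' := H12.bt_sw h0
  have f : ∀ (a b : K0 F) (c : F) (y : V), ac (tc u a * tc v b * sh (c • u) v) y =
      y + (((a : F) * bt y u + c * bt y v) • u + ((b : F) * bt y v + σ c * bt y u) • v) := fun a b c y => by
    rw [H12.ac_mul, H12.ac_mul, H12.ac_sh (by rw [H12.bt_smul_l, H12.bt_smul_r, hu, mul_zero, mul_zero]) hv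
      (by rw [H12.bt_smul_l, h0, mul_zero]), H12.ac_tc hv, H12.ac_tc hu]
    simp only [H12.bt_add_l, H12.bt_smul_l, H12.bt_smul_r, hu, hv, h0, h0', mul_zero, add_zero]
    module
  rw [LinearIndependent.pair_iff] at li
  have g : ∀ y : V, ((a : F) - a') * bt y u + (c - c') * bt y v = 0 ∧ ((b : F) - b') * bt y v + (σ c - σ c') * bt y u = 0 :=
    fun y => li _ _ (by
      have e := congrArg (fun z => ac z y) k
      simp only [f, add_right_inj] at e
      rw [← sub_eq_zero.2 e]; module)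
  have g1 := li (σ ((a : F) - a')) (σ (c - c')) (H12.bt_nd fun y => by
    rw [H12.bt_add_r, H12.bt_smul_r, H12.bt_smul_r, H12.ss, H12.ss]; exact (g y).1)
  have g2 := li (σ (σ c - σ c')) (σ ((b : F) - b')) (H12.bt_nd fun y => by
    rw [H12.bt_add_r, H12.bt_smul_r, H12.bt_smul_r, H12.ss, H12.ss, add_comm]; exact (g y).2)
  simp only [EmbeddingLike.map_eq_zero_iff, sub_eq_zero] at g1 g2
  exact ⟨Subtype.ext g1.1, Subtype.ext g2.2, g1.2⟩

theorem zz_val (c : K0 F) : (zz c : X).1 = xe 0 iL (c : F) := by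
  refine Subtype.ext ?_
  rw [H12.zz_val, LMS.xe_val (Fin.last_pos.ne)]

theorem tce_val {i : I} (h : i ≠ i.rev) (c : K0 F) : (tc (ee i) c : X).1 = xe i i.rev (c : F) := by
  refine Subtype.ext ?_
  rw [H12.tc_val (H12.is_ee h).1, H12.hm_ee, smul_single, smul_eq_mul, mul_one, LMS.xe_val h]

theorem sr_val {i j : I} (h : Sh i j) (a : F) : (sr i j a : X).1 = xe i j a * xe j.rev i.rev (σ a) := by
  refine Subtype.ext ?_
  rw [H12.sr_val h, Matrix.SpecialLinearGroup.coe_mul, LMS.xe_val h.1,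
    LMS.xe_val fun e => h.1 (Fin.rev_injective e).symm, mul_add, mul_one, add_mul, one_mul,
    single_mul_single_of_ne _ _ _ _ h.2.2.2, add_zero]

theorem sr_mul {i j : I} (h : Sh i j) (a b : F) : (sr i j a : X) * sr i j b = sr i j (a + b) := by
  refine Subtype.ext ?_
  rw [Subgroup.coe_mul, sr_val h, sr_val h, sr_val h, map_add, ← LMS.xe_mul, ← LMS.xe_mul, mul_assoc, mul_assoc,
    ← mul_assoc (xe j.rev i.rev (σ a)), ← LMS.xe_c0 h.2.2.1 h.2.2.2, mul_assoc]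

theorem sr_sym {i j : I} (h : Sh i j) (a : F) : (sr i j a : X) = sr j.rev i.rev (σ a) := by
  rw [sr, sr, Fin.rev_rev, sh_smul, sh_symm]

theorem sr_c0 {i j k l : I} (h : Sh i j) (h' : Sh k l) (h1 : i ≠ l) (h2 : j ≠ k) (h3 : k ≠ i.rev) (h4 : l ≠ j.rev)
    (a b : F) : (sr i j a : X) * sr k l b = sr k l b * sr i j a := by
  refine Subtype.ext ?_
  rw [Subgroup.coe_mul, Subgroup.coe_mul, sr_val h, sr_val h']
  have c1 : Commute (xe i j a : XX n F) (xe k l b) := LMS.xe_c0 h1 h2 _ _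
  have c2 : Commute (xe i j a : XX n F) (xe l.rev k.rev (σ b)) :=
    LMS.xe_c0 (fun e => h3 (by rw [e, Fin.rev_rev])) (fun e => h4 (by rw [e, Fin.rev_rev])) _ _
  have c3 : Commute (xe j.rev i.rev (σ a) : XX n F) (xe k l b) := LMS.xe_c0 h4.symm h3.symm _ _
  have c4 : Commute (xe j.rev i.rev (σ a) : XX n F) (xe l.rev k.rev (σ b)) :=
    LMS.xe_c0 (Fin.rev_injective.ne h2) (Fin.rev_injective.ne h1) _ _
  exact ((c1.mul_right c2).mul_left (c3.mul_right c4)).eq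

theorem sr_c1 {i j l : I} (h : Sh i j) (h' : Sh j l) (h1 : Sh i l) (a b : F) :
    ⁅(sr i j a : X), (sr j l b : X)⁆ = sr i l (a * b) := by
  refine Subtype.ext ?_
  have e : ((⁅(sr i j a : X), (sr j l b : X)⁆ : X) : XX n F) = ⁅(sr i j a : X).1, (sr j l b : X).1⁆ := rfl
  have r : ∀ {x y : I}, x ≠ y.rev → y ≠ x.rev := fun k e => k (by rw [e, Fin.rev_rev])
  rw [e, sr_val h, sr_val h', sr_val h1, cmm (LMS.xe_c0 h.2.2.1 h.2.2.2 _ _) (LMS.xe_c0 (r h.2.1) (r h'.2.1) _ _)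
    (LMS.xe_c0 h.2.1 h'.2.1 _ _) (LMS.xe_c0 h.2.2.2 h'.2.2.2 _ _), commutatorElement_def, LMS.xe_inv, LMS.xe_inv,
    LMS.xe_c1 h.1 h'.1 h1.1, ← commutatorElement_inv, commutatorElement_def, LMS.xe_inv, LMS.xe_inv,
    LMS.xe_c1 (Fin.rev_injective.ne h'.1.symm) (Fin.rev_injective.ne h.1.symm) (Fin.rev_injective.ne h1.1.symm),
    LMS.xe_inv, map_mul, mul_comm (σ b)]

theorem dgu_val {d : V} (h : Dd d) : (dgu d : X).1.1 = diagonal d := by
  refine H12.mk_val (by rw [det_diagonal, h.2]) ?_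
  have e : H12.ad (diagonal d : Mx) = diagonal fun i => σ (d i.rev) := by
    ext i j
    rw [H12.ad_apply]
    by_cases k : i = j
    · subst k; rw [diagonal_apply_eq, diagonal_apply_eq]
    · rw [diagonal_apply_ne _ k, diagonal_apply_ne _ (Fin.rev_injective.ne (Ne.symm k)), map_zero]
  rw [e, diagonal_mul_diagonal, ← diagonal_one]
  exact congrArg _ (funext fun i => by rw [mul_comm, h.1])

theorem ac_dgu {d : V} (h : Dd d) (i : I) : ac (dgu d) (ee i) = d i • ee i := by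
  ext a
  rw [ac, dgu_val h, mulVec_diagonal, Pi.smul_apply, smul_eq_mul, ee_ap]
  split_ifs with k
  · rw [k]
  · rw [mul_zero, mul_zero]

theorem dgu_odd {d : V} (h : Dd d) : Odd (orderOf (dgu d : X)) := by
  have e : (dgu d : X) ^ (Fintype.card F - 1) = 1 := by
    refine H12.xext ?_
    rw [Subgroup.coe_pow, Matrix.SpecialLinearGroup.coe_pow, dgu_val h, diagonal_pow, H12.one_val, ← diagonal_one]
    exact congrArg _ (funext fun i => FiniteField.pow_card_sub_one_eq_one _ (left_ne_zero_of_mul_eq_one (h.1 i)))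
  refine Odd.of_dvd_nat ?_ (orderOf_dvd_of_pow_eq_one e)
  exact Nat.Even.sub_odd Fintype.card_pos (Nat.even_iff.2 (FiniteField.even_card_of_char_two (ringChar.eq F 2))) odd_one

theorem dgu_sr {d : V} (h : Dd d) {i j : I} (k : Sh i j) (a : F) :
    (dgu d : X) * sr i j a * (dgu d)⁻¹ = sr i j (d i * (d j)⁻¹ * a) := by
  obtain ⟨h1, h2, h3⟩ : bt (a • ee i : V) (a • ee i) = 0 ∧ bt (ee j.rev : V) (ee j.rev) = 0 ∧
      bt (a • ee i : V) (ee j.rev) = 0 := by
    refine ⟨?_, ?_, ?_⟩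
    · rw [H12.bt_smul_l, H12.bt_smul_r, H12.bt_ee, if_neg k.2.2.1, mul_zero, mul_zero]
    · rw [H12.bt_ee, Fin.rev_rev, if_neg k.2.2.2.symm]
    · rw [H12.bt_smul_l, H12.bt_ee, Fin.rev_rev, if_neg k.1, mul_zero]
  rw [sr, sr, sh_cj h1 h2 h3, H12.ac_smul, ac_dgu h, ac_dgu h, ← H12.ss (d j.rev), ← sh_smul,
    eq_inv_of_mul_eq_one_right (h.1 j), smul_smul, smul_smul]
  congr 2
  ring

theorem pmU_val {π : Equiv.Perm I} (h : ∀ i, π i.rev = (π i).rev) : (pmU π : X).1 = pmL π := by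
  refine Subtype.ext (H12.mk_val (pmL π : XX n F).2 ?_)
  have e : H12.ad (pmL π : XX n F).1 = (pmL π⁻¹ : XX n F).1 := by
    ext i j
    rw [H12.ad_apply, pmL_apply, pmL_apply, h, apply_ite σ, map_one, map_zero]
    simp only [Fin.rev_inj, Equiv.Perm.eq_inv_iff_eq, eq_comm]
  rw [e, ← Matrix.SpecialLinearGroup.coe_mul, ← map_mul, inv_mul_cancel, map_one, Matrix.SpecialLinearGroup.coe_one]

theorem ac_pmU {π : Equiv.Perm I} (h : ∀ i, π i.rev = (π i).rev) (i : I) : ac (pmU π : X) (ee i) = ee (π i) := by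
  ext a
  obtain ⟨b, rfl⟩ := π.surjective a
  rw [ac, pmU_val h, pmL_mulVec, ee_ap, ee_ap]
  simp only [π.injective.eq_iff]

theorem pmU_sr {π : Equiv.Perm I} (h : ∀ i, π i.rev = (π i).rev) {i j : I} (k : Sh i j) (a : F) :
    (pmU π : X) * sr i j a * (pmU π)⁻¹ = sr (π i) (π j) a := by
  obtain ⟨h1, h2, h3⟩ : bt (a • ee i : V) (a • ee i) = 0 ∧ bt (ee j.rev : V) (ee j.rev) = 0 ∧
      bt (a • ee i : V) (ee j.rev) = 0 := by
    refine ⟨?_, ?_, ?_⟩
    · rw [H12.bt_smul_l, H12.bt_smul_r, H12.bt_ee, if_neg k.2.2.1, mul_zero, mul_zero]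
    · rw [H12.bt_ee, Fin.rev_rev, if_neg k.2.2.2.symm]
    · rw [H12.bt_smul_l, H12.bt_ee, Fin.rev_rev, if_neg k.1, mul_zero]
  rw [sr, sr, sh_cj h1 h2 h3, H12.ac_smul, ac_pmU h, ac_pmU h, h]

theorem ex_pm2 {i j i' j' : I} (h : Sh i j) (h' : Sh i' j') :
    ∃ π : Equiv.Perm I, (∀ a, π a.rev = (π a).rev) ∧ π i = i' ∧ π j = j' := by
  have r : ∀ {x y : I}, x ≠ y.rev → y ≠ x.rev := fun k e => k (by rw [e, Fin.rev_rev])
  obtain ⟨π, p1, p2, -⟩ := ex_pm h.2.2.1 h'.2.2.1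
  obtain ⟨ρ, q1, q2, q3⟩ := ex_pm (i := π j) (by rw [← p1]; exact π.injective.ne h.2.2.2) h'.2.2.2
  refine ⟨ρ * π, fun a => by rw [Equiv.Perm.mul_apply, Equiv.Perm.mul_apply, p1, q1], ?_, q2⟩
  rw [Equiv.Perm.mul_apply, p2]
  refine q3 _ ?_ ?_ h'.1 (r h'.2.1)
  · rw [← p2]; exact π.injective.ne h.1
  · rw [← p2, ← p1]; exact π.injective.ne (r h.2.1)

theorem ex_pm3 {i j l i' j' l' : I} (h1 : Sh i j) (h2 : Sh j l) (h3 : Sh i l) (k1 : Sh i' j') (k2 : Sh j' l')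
    (k3 : Sh i' l') : ∃ π : Equiv.Perm I, (∀ a, π a.rev = (π a).rev) ∧ π i = i' ∧ π j = j' ∧ π l = l' := by
  have r : ∀ {x y : I}, x ≠ y.rev → y ≠ x.rev := fun k e => k (by rw [e, Fin.rev_rev])
  obtain ⟨π, p1, p2, p3⟩ := ex_pm2 h1 k1
  obtain ⟨ρ, q1, q2, q3⟩ := ex_pm (i := π l) (by rw [← p1]; exact π.injective.ne h2.2.2.2) k2.2.2.2
  refine ⟨ρ * π, fun a => by rw [Equiv.Perm.mul_apply, Equiv.Perm.mul_apply, p1, q1], ?_, ?_, q2⟩
  · rw [Equiv.Perm.mul_apply, p2]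
    refine q3 _ ?_ ?_ k3.1 (r k3.2.1)
    · rw [← p2]; exact π.injective.ne h3.1
    · rw [← p2, ← p1]; exact π.injective.ne (r h3.2.1)
  · rw [Equiv.Perm.mul_apply, p3]
    refine q3 _ ?_ ?_ k2.1 (r k2.2.1)
    · rw [← p3]; exact π.injective.ne h2.1
    · rw [← p3, ← p1]; exact π.injective.ne (r h2.2.1)

theorem ex_sh3 (h3 : 3 ≤ n) {i j : I} (h : Sh i j) : ∃ l, Sh i l ∧ Sh l j := by
  have := i.2
  have := j.2
  by_contra k
  have k0 := not_exists.1 k ⟨0, by omega⟩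
  have k1 := not_exists.1 k ⟨1, by omega⟩
  have k2 := not_exists.1 k ⟨2, by omega⟩
  simp only [Sh, ne_eq, Fin.ext_iff, Fin.val_rev] at h k0 k1 k2
  omega

theorem mem_St {s : Set V} {x : X} : x ∈ St s ↔ ∀ v ∈ s, ac x v = v := by
  exact Iff.rfl

theorem St_cj (v : V) (x : X) : St {v} ^ᶜ x = St {ac x v} := by
  ext y
  rw [mem_cj, mem_St, mem_St]
  simp only [Set.mem_singleton_iff, forall_eq, H12.ac_mul]
  exact ⟨fun h => by rw [← H12.ac_inv' x (ac y _), h], fun h => by rw [h, H12.ac_inv]⟩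

theorem St_smul (v : V) {a : F} (ha : a ≠ 0) : St {a • v} = St {v} := by
  ext y
  simp only [mem_St, Set.mem_singleton_iff, forall_eq, H12.ac_smul]
  exact (smul_right_injective V ha).eq_iff

theorem mem_ZZ {x : X} : x ∈ ZZ n F ↔ ∃ c, x = zz c := by
  refine ⟨fun h => ?_, fun h => subset_closure h⟩
  induction h using closure_induction with
  | mem x hx => exact hx
  | one => exact ⟨0, (tc_zero _).symm⟩
  | mul x y _ _ hx hy =>
    obtain ⟨c, rfl⟩ := hx
    obtain ⟨d, rfl⟩ := hy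
    exact ⟨c + d, tc_mul H12.is0.1 c d⟩
  | inv x _ hx =>
    obtain ⟨c, rfl⟩ := hx
    exact ⟨c, inv_eq_of_mul_eq_one_right (tc_sq H12.is0.1 c)⟩

theorem card_ZZ : Nat.card (ZZ n F) = 𝐪 := by
  refine (Nat.card_eq_of_bijective (fun c : K0 F => (⟨zz c, mem_ZZ.2 ⟨c, rfl⟩⟩ : ZZ n F)) ⟨fun c d e => ?_, fun y => ?_⟩).symm
  · exact tc_inj H12.is0 (congrArg Subtype.val e)
  · obtain ⟨c, e⟩ := mem_ZZ.1 y.2
    exact ⟨c, Subtype.ext e.symm⟩

theorem mem_JD {d : ℕ} {x : X} : x ∈ JD n F d ↔ ∀ i j : I, ¬ (i.1 < d ∧ d ≤ j.1) → x.1.1 i j = (1 : Mx) i j := by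
  exact LMS.mem_JJ

theorem mem_JD' {d : ℕ} (h : d ≤ kk n) {x : X} :
    x ∈ JD n F d ↔ ∀ i j : I, ¬ (i.1 < d ∧ j.rev.1 < d) → x.1.1 i j = (1 : Mx) i j := by
  have hd : 2 * d ≤ n + 3 := by unfold kk at h; omega
  refine ⟨fun k i j e => ?_, fun k => mem_JD.2 fun i j e => k i j fun z => e ⟨z.1, ?_⟩⟩
  · by_cases z : i.1 < d ∧ d ≤ j.1
    · rw [← ad_sq (LMS.el_JJ d _ k), H12.ad_apply, mem_JD.1 k _ _ fun w => e ⟨z.1, w.1⟩, ← H12.ad_apply, H12.ad_one]
    · exact mem_JD.1 k i j z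
  · have := z.2
    rw [Fin.val_rev] at this
    omega

theorem mem_JD2 {x : X} : x ∈ JD n F 2 ↔ ∃ (a b : K0 F) (c : F), x = tc (ee 0) a * tc (ee 1) b * sh (c • ee 0) (ee 1) := by
  have h3 := Ok.h3 (n := n) (F := F)
  have r1 : (1 : I) ≠ (1 : I).rev := by
    simp only [ne_eq, Fin.ext_iff, Fin.val_rev, Fin.val_one]; omega
  have s : Sh (0 : I) (Fin.rev 1) := by
    simp only [Sh, ne_eq, Fin.ext_iff, Fin.val_rev, Fin.val_one, Fin.val_zero]; omega
  have v : ∀ (a b : K0 F) (c : F), (tc (ee 0) a * tc (ee 1) b * sh (c • ee 0) (ee 1) : X).1 =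
      xe 0 (Fin.rev 0) (a : F) * xe 1 (Fin.rev 1) (b : F) * (xe 0 (Fin.rev 1) c * xe 1 (Fin.rev 0) (σ c)) :=
    fun a b c => by
      have := sr_val s c
      rw [sr, Fin.rev_rev] at this
      rw [Subgroup.coe_mul, Subgroup.coe_mul, tce_val s.2.2.1, tce_val r1, this]
  have n0 : (Fin.rev 0 : I).1 = n + 2 := by simp only [Fin.val_rev, Fin.val_zero]; omega
  have n1 : (Fin.rev 1 : I).1 = n + 1 := by simp only [Fin.val_rev, Fin.val_one]; omega
  constructor
  · intro k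
    have k1 := ad_sq (LMS.el_JJ 2 _ k)
    have k2 := (mem_JD' (d := 2) (by unfold kk; omega)).1 k
    have k3 : ∀ i j : I, σ (x.1.1 j.rev i.rev) = x.1.1 i j := fun i j => by rw [← H12.ad_apply, k1]
    refine ⟨⟨x.1.1 0 (Fin.rev 0), mem_K0.2 (by simpa only [Fin.rev_rev] using k3 0 (Fin.rev 0))⟩,
      ⟨x.1.1 1 (Fin.rev 1), mem_K0.2 (by simpa only [Fin.rev_rev] using k3 1 (Fin.rev 1))⟩, x.1.1 0 (Fin.rev 1), H12.xext ?_⟩
    have k4 : σ (x.1.1 0 (Fin.rev 1)) = x.1.1 1 (Fin.rev 0) := by simpa only [Fin.rev_rev] using k3 1 (Fin.rev 0)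
    have d00 : (0 : I) ≠ Fin.rev 0 := s.2.2.1
    have d01 : (0 : I) ≠ Fin.rev 1 := s.1
    have d10 : (1 : I) ≠ Fin.rev 0 := fun e => d01 (by rw [e, Fin.rev_rev])
    rw [v, k4]
    simp only [Matrix.SpecialLinearGroup.coe_mul, LMS.xe_val d00, LMS.xe_val d01, LMS.xe_val d10, LMS.xe_val r1,
      add_mul, mul_add, one_mul, mul_one, single_mul_single_of_ne _ _ _ _ d00.symm,
      single_mul_single_of_ne _ _ _ _ d01.symm, single_mul_single_of_ne _ _ _ _ d10.symm,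
      single_mul_single_of_ne _ _ _ _ r1.symm, add_zero]
    ext i j
    have d : (0 : I) ≠ 1 := Fin.zero_ne_one
    have d' : (Fin.rev 0 : I) ≠ Fin.rev 1 := Fin.rev_injective.ne d
    by_cases z : i.1 < 2 ∧ j.rev.1 < 2
    · have hi : i = 0 ∨ i = 1 := by simp only [Fin.ext_iff, Fin.val_zero, Fin.val_one]; omega
      have hj : j = Fin.rev 0 ∨ j = Fin.rev 1 := by
        have := z.2
        have := j.2
        simp only [Fin.ext_iff, n0, n1, Fin.val_rev] at *; omega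
      rcases hi with rfl | rfl <;> rcases hj with rfl | rfl <;>
        simp only [Matrix.add_apply, single_apply, d, d', d.symm, d'.symm, and_true, and_false, false_and, if_true, if_false,
          one_apply_ne d00, one_apply_ne d01, one_apply_ne d10, one_apply_ne r1, add_zero, zero_add, and_self]
    · have w : ∀ (p q : I) (c : F), p.1 < 2 → q.1 < 2 → single p q.rev c i j = 0 := fun p q c hp hq =>
        single_apply_of_ne _ _ _ _ _ fun e => z ⟨e.1 ▸ hp, by rw [← e.2, Fin.rev_rev]; exact hq⟩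
      simp only [Matrix.add_apply, k2 i j z, w 0 0 _ (by simp) (by simp), w 0 1 _ (by simp) (by simp),
        w 1 0 _ (by simp) (by simp), w 1 1 _ (by simp) (by simp), add_zero]
  · rintro ⟨a, b, c, rfl⟩
    rw [JD, mem_subgroupOf, v]
    refine mul_mem (mul_mem ?_ ?_) (mul_mem ?_ ?_) <;> refine LMS.B2.xe_JJ (by simp) (by omega) _

theorem mem_UU {x : X} : x ∈ UU n F ↔ ∀ i j : I, j ≤ i → x.1.1 i j = (1 : Mx) i j := by
  exact LMS.mem_UU

theorem mem_QQ {x : X} : x ∈ QQ n F ↔ ∀ a b : I, (a ≠ 0 ∧ b ≠ iL) ∨ a = b → x.1.1 a b = (1 : Mx) a b := by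
  exact LMS.mem_QQ' (Fin.last_pos.ne)

end UMS
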