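import Cfsg.Agent.Lib.UMS.Defs
import Cfsg.Agent.Lib.LMS.NFa
import Cfsg.Agent.Lib.G2S.UB
import Cfsg.Agent.Lib.Unitary.Simple

/-! The special unitary group of the antidiagonal form is the special unitary group. -/

set_option autoImplicit false
set_option linter.unusedSectionVars false

namespace UMS

open Subgroup H69 Cfsg Matrix U4S
open LMS (XX GX iL kk MM au tw Sg)
open scoped MatrixGroups commutatorElement

universe u
variable {F : Type u} [Field F] [CharP F 2] [Fintype F] [Hs F] {n : ℕ} [Ok n F]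

local notation "X" => XX n F
local notation "I" => Fin (n + 3)
local notation "Mx" => Matrix (Fin (n + 3)) (Fin (n + 3)) F

namespace B33

theorem w_apply (i j : I) : (pmL Fin.revPerm : X).1 i j = if i = j.rev then 1 else 0 := by
  rw [pmL_apply]; rfl

theorem w_symm (i j : I) : (pmL Fin.revPerm : X).1 j i = (pmL Fin.revPerm : X).1 i j := by
  rw [w_apply, w_apply]
  exact if_congr ⟨fun h => by rw [h, Fin.rev_rev], fun h => by rw [h, Fin.rev_rev]⟩ rfl rfl

theorem ww : (pmL Fin.revPerm : X) * pmL Fin.revPerm = 1 := by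
  rw [← map_mul]
  have : (Fin.revPerm : Equiv.Perm I) * Fin.revPerm = 1 := by ext i; simp
  rw [this, map_one]

theorem bt_eq (x y : VV n F) : bt x y = x ⬝ᵥ ((pmL Fin.revPerm : X).1 *ᵥ (fun j => σ (y j))) := by
  unfold bt dotProduct
  refine Finset.sum_congr rfl fun j _ => ?_
  congr 1
  simp only [mulVec, dotProduct, w_apply]
  rw [Finset.sum_eq_single j.rev]
  · simp
  · intro b _ hb
    rw [if_neg, zero_mul]
    rintro rfl
    exact hb (Fin.rev_rev b).symm
  · simp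

theorem σ_mulVec (M : Mx) (v : VV n F) : (fun j => σ ((M *ᵥ v) j)) = M.map σ *ᵥ fun j => σ (v j) := by
  funext j
  simp [mulVec, dotProduct, map_sum]

theorem bt_mul (A B : Mx) (u v : VV n F) :
    bt (A *ᵥ u) (B *ᵥ v) = u ⬝ᵥ ((Aᵀ * (pmL Fin.revPerm : X).1 * B.map σ) *ᵥ fun j => σ (v j)) := by
  rw [bt_eq, σ_mulVec, ← mulVec_mulVec, ← mulVec_mulVec, dotProduct_mulVec u, vecMul_transpose]

theorem ext_form {A B : Mx} (h : ∀ u v : VV n F, u ⬝ᵥ (A *ᵥ fun j => σ (v j)) = u ⬝ᵥ (B *ᵥ fun j => σ (v j))) :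
    A = B := by
  ext i j
  have := h (Pi.single i 1) (Pi.single j 1)
  have e : (fun k => σ ((Pi.single j 1 : VV n F) k)) = Pi.single j 1 := by
    funext k
    by_cases hk : k = j
    · subst hk; simp
    · simp [hk]
  simpa [e] using this

theorem mem_XU_mat {x : X} : x ∈ XU n F ↔ x.1ᵀ * (pmL Fin.revPerm : X).1 * x.1.map σ = (pmL Fin.revPerm : X).1 := by
  have wi : (pmL Fin.revPerm : X)⁻¹ = pmL Fin.revPerm := inv_eq_of_mul_eq_one_left ww
  have wt : (pmL Fin.revPerm : X).1ᵀ = (pmL Fin.revPerm : X).1 := by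
    ext i j
    exact w_symm i j
  change pmL Fin.revPerm * LMS.it (fr σ x) * (pmL Fin.revPerm)⁻¹ = x ↔ _
  rw [wi]
  obtain ⟨y, hy⟩ : ∃ y : X, y.1 = (fr σ x).1ᵀ := ⟨⟨(fr σ x).1ᵀ, (det_transpose _).trans (fr σ x).2⟩, rfl⟩
  have e : LMS.it (fr σ x) = y⁻¹ := by
    refine eq_inv_of_mul_eq_one_left (Subtype.ext ?_)
    rw [Matrix.SpecialLinearGroup.coe_mul, LMS.it_val, hy, ← transpose_mul, ← Matrix.SpecialLinearGroup.coe_mul,
      mul_inv_cancel]
    simp
  rw [e]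
  have e2 : pmL Fin.revPerm * y⁻¹ * pmL Fin.revPerm = x ↔ y * pmL Fin.revPerm * x = pmL Fin.revPerm := by
    generalize (pmL Fin.revPerm : X) = w at wi
    constructor
    · rintro rfl
      rw [← mul_assoc, ← mul_assoc, mul_assoc y]
      nth_rewrite 1 [← wi]
      rw [inv_mul_cancel, mul_one, mul_inv_cancel, one_mul]
    · intro h
      nth_rewrite 2 [← h]
      nth_rewrite 2 [← wi]
      group
  rw [e2]
  refine Iff.trans ⟨fun h => congrArg Subtype.val h, fun h => Subtype.ext h⟩ ?_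
  change y.1 * (pmL Fin.revPerm : X).1 * x.1 = (pmL Fin.revPerm : X).1 ↔ _
  rw [hy, fr_val, ← transpose_inj, transpose_mul, transpose_mul, transpose_transpose, wt, Matrix.mul_assoc]

theorem mem_XU {x : X} : x ∈ XU n F ↔ ∀ u v, bt (x.1 *ᵥ u) (x.1 *ᵥ v) = bt u v := by
  rw [mem_XU_mat]
  constructor
  · intro h u v
    rw [bt_mul, h, bt_eq]
  · intro h
    exact ext_form fun u v => by rw [← bt_mul, h, bt_eq]

theorem bridge : ∃ (q : ℕ) (_ : H11.U.IsSq F q) (C : GX n F) (e : XU n F ≃* SU (n + 3) F q),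
    q = Nat.card (K0 F) ∧ (∀ a : F, σ a = H11.U.cj q a) ∧
    (∀ u v, bt (C.1 *ᵥ u) (C.1 *ᵥ v) = hermForm (n + 3) F q u v) ∧ ∀ x : XU n F, x.1 = gc C (e x).1 := by
  have hσ : Sg (σ : RingAut F) := Hs.sg
  obtain ⟨c, hc⟩ := H89.G2S.exists_free σ hσ.2 hσ.1
  have hq := H89.G2S.card_fix σ hσ.2 hc
  have hq' : Nat.card (K0 F) = Nat.card {a : F | σ a = a} := rfl
  rw [← hq'] at hq
  generalize Nat.card (K0 F) = q at hq
  have hF : Fintype.card F = q ^ 2 := by rw [hq, Nat.card_eq_fintype_card]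
  have : H11.U.IsSq F q := ⟨hF⟩
  let s : RingAut F := RingEquiv.ofBijective (H11.U.cj q)
    (Finite.injective_iff_bijective.1 (H11.U.cj q : F →+* F).injective)
  have hs : σ = s := LMS.aut_inv hσ ⟨fun e1 => H11.U.cj_ne_id (F := F) (q := q)
    (RingHom.ext fun a => DFunLike.congr_fun e1 a), fun a => H11.U.cj_cj a⟩
  have hs' : ∀ a : F, σ a = H11.U.cj q a := fun a => by rw [hs]; rfl
  have wt : (pmL Fin.revPerm : X).1ᵀ.map σ = (pmL Fin.revPerm : X).1 := by
    ext i j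
    rw [map_apply, transpose_apply, w_symm, w_apply]
    split_ifs <;> simp
  obtain ⟨D, hD⟩ := LMS.her hσ (Matrix.SpecialLinearGroup.toGL (pmL Fin.revPerm : X)) wt
  have hD' : (pmL Fin.revPerm : X).1 = D.1 * D.1ᵀ.map σ := hD
  obtain ⟨C, hC⟩ : ∃ C : GX n F, C.1 = (D⁻¹).1ᵀ := ⟨⟨(D⁻¹).1ᵀ, D.1ᵀ, by
    rw [← transpose_mul, Units.mul_inv, transpose_one], by rw [← transpose_mul, Units.inv_mul, transpose_one]⟩, rfl⟩
  have key : ∀ u v, bt (C.1 *ᵥ u) (C.1 *ᵥ v) = hermForm (n + 3) F q u v := by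
    intro u v
    have : C.1ᵀ * (pmL Fin.revPerm : X).1 * C.1.map σ = 1 := by
      rw [hC, hD', transpose_transpose, ← Matrix.mul_assoc, Units.inv_mul, Matrix.one_mul, ← LMS.NFa.map_mul',
        ← transpose_mul, Units.inv_mul, transpose_one, LMS.NFa.map_one']
    rw [bt_mul, this, one_mulVec, H11.U.form_def]
    simp only [dotProduct, hs']
  have mem : ∀ x : X, gc C x ∈ XU n F ↔ x ∈ SU (n + 3) F q := by
    intro x
    rw [mem_XU, H11.U.mem_SU]
    have e : ∀ u, (gc C x).1 *ᵥ (C.1 *ᵥ u) = C.1 *ᵥ (x.1 *ᵥ u) := fun u => by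
      rw [gc_val, mulVec_mulVec, mulVec_mulVec, Matrix.mul_assoc, Units.inv_mul, Matrix.mul_one]
    constructor
    · intro h u v
      rw [← key, ← key, ← e, ← e, h]
    · intro h u v
      have s : ∀ u : VV n F, u = C.1 *ᵥ ((C⁻¹).1 *ᵥ u) := fun u => by
        rw [mulVec_mulVec, Units.mul_inv, one_mulVec]
      rw [s u, s v, e, e, key, key, h]
  refine ⟨q, this, C, ⟨⟨fun x => ⟨(gc C).symm x.1, (mem _).1 (by rw [MulEquiv.apply_symm_apply]; exact x.2)⟩,
    fun y => ⟨gc C y.1, (mem _).2 y.2⟩, fun x => Subtype.ext ((gc C).apply_symm_apply _),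
    fun y => Subtype.ext ((gc C).symm_apply_apply _)⟩, fun x y => Subtype.ext (map_mul (gc C).symm _ _)⟩,
    rfl, hs', key, fun x => ((gc C).apply_symm_apply _).symm⟩

theorem ac_mul (x y : XU n F) (v : VV n F) : ac (x * y) v = ac x (ac y v) := by
  change (x.1.1 * y.1.1) *ᵥ v = _
  rw [← mulVec_mulVec]; rfl

theorem bt_ac (x : XU n F) (u v : VV n F) : bt (ac x u) (ac x v) = bt u v := mem_XU.1 x.2 u v

theorem ac_ext {x y : XU n F} (h : ∀ v, ac x v = ac y v) : x = y :=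
  Subtype.ext (Subtype.ext (Matrix.ext_of_mulVec_single fun _ => h _))

theorem mk_eq {x : XU n F} {M : Mx} (h : x.1.1 = M) : mk M = x := by
  subst h
  have e : mx x.1.1 = x.1 := dif_pos x.1.2
  unfold mk
  rw [dif_pos (by rw [e]; exact x.2)]
  exact Subtype.ext e

theorem hm_mulVec (u v x : VV n F) : hm u v *ᵥ x = bt x v • u := by
  unfold hm bt
  rw [vecMulVec_mulVec, op_smul_eq_smul, dotProduct_comm]; rfl

/-- the bridge with its action on vectors and on transvections -/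
theorem bridge' : ∃ (q : ℕ) (_ : H11.U.IsSq F q) (c : VV n F ≃ₗ[F] VV n F) (e : XU n F ≃* SU (n + 3) F q),
    q = Nat.card (K0 F) ∧ (∀ a : F, σ a = H11.U.cj q a) ∧
    (∀ u v, bt (c u) (c v) = hermForm (n + 3) F q u v) ∧
    (∀ (x : XU n F) v, ac x (c v) = c ((e x).1.1 *ᵥ v)) ∧
    ∀ v, hermForm (n + 3) F q v v = 0 → ∀ a : K0 F, e (tc (c v) a) = H11.U.tv q v a ∧
      (tc (c v) a).1.1 = 1 + (a : F) • hm (c v) (c v) := by
  obtain ⟨q, i, C, e, h1, h2, h3, h4⟩ := bridge (F := F) (n := n)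
  obtain ⟨c, hc⟩ : ∃ c : VV n F ≃ₗ[F] VV n F, ∀ v, c v = C.1 *ᵥ v :=
    ⟨LinearEquiv.ofLinearMap C.1.mulVecLin (C⁻¹).1.mulVecLin
      (by rw [← mulVecLin_mul, Units.mul_inv, mulVecLin_one])
      (by rw [← mulVecLin_mul, Units.inv_mul, mulVecLin_one]), fun _ => rfl⟩
  have a1 : ∀ (x : XU n F) v, ac x (c v) = c ((e x).1.1 *ᵥ v) := fun x v => by
    unfold ac
    rw [hc, hc, h4, gc_val, mulVec_mulVec, mulVec_mulVec, Matrix.mul_assoc, Units.inv_mul, Matrix.mul_one]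
  have a2 : ∀ u v, bt (c u) (c v) = hermForm (n + 3) F q u v := fun u v => by rw [hc, hc, h3]
  refine ⟨q, i, c, e, h1, h2, a2, a1, fun v hv a => ?_⟩
  have ha : H11.U.cj q (a : F) = -(a : F) := by rw [← h2, CharTwo.neg_eq]; exact a.2
  have k : (e.symm (H11.U.tv q v a)).1.1 = 1 + (a : F) • hm (c v) (c v) := by
    refine Matrix.ext_of_mulVec_single fun j => ?_
    obtain ⟨u, hu⟩ := c.surjective (Pi.single j 1)
    rw [← hu]
    have := a1 (e.symm (H11.U.tv q v a)) u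
    rw [e.apply_symm_apply, H11.U.tv_mulVec hv ha, map_add, map_smul] at this
    rw [add_mulVec, one_mulVec, smul_mulVec, hm_mulVec, a2, smul_smul]
    exact this
  have k2 : tc (c v) a = e.symm (H11.U.tv q v a) := mk_eq k
  exact ⟨by rw [k2, e.apply_symm_apply], by rw [k2, k]⟩

theorem tc_val {v : VV n F} (hv : bt v v = 0) (a : K0 F) : (tc v a).1.1 = 1 + (a : F) • hm v v := by
  obtain ⟨q, i, c, e, -, -, h3, -, h5⟩ := bridge' (F := F) (n := n)
  obtain ⟨u, rfl⟩ := c.surjective v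
  exact (h5 u (h3 u u ▸ hv) a).2

theorem top_tc {H : Subgroup (XU n F)} (h : ∀ v, Is v → ∀ a, tc v a ∈ H) : H = ⊤ := by
  obtain ⟨q, i, c, e, -, h2, h3, -, h5⟩ := bridge' (F := F) (n := n)
  have h3' := Ok.h3 (n := n) F
  have : H.map e.toMonoidHom = ⊤ := H11.U.eq_top_of_tv_mem (Or.inl (by omega)) fun w w0 hw a ha => by
    have ha' : a ∈ K0 F := by rw [mem_K0, h2, ha, CharTwo.neg_eq]
    exact ⟨_, h (c w) ⟨(h3 w w).trans hw, fun k => w0 (c.map_eq_zero_iff.1 k)⟩ ⟨a, ha'⟩, (h5 w hw ⟨a, ha'⟩).1⟩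
  rw [eq_top_iff]
  intro x _
  obtain ⟨y, hy, k⟩ : e x ∈ H.map e.toMonoidHom := this ▸ mem_top _
  exact e.injective k ▸ hy

theorem mem_center {x : XU n F} : x ∈ center (XU n F) ↔ ∃ a : F, x.1.1 = a • (1 : Mx) := by
  obtain ⟨q, i, C, e, -, -, -, h4⟩ := bridge (F := F) (n := n)
  have : x ∈ center (XU n F) ↔ e x ∈ center (SU (n + 3) F q) := by
    rw [mem_center_iff, mem_center_iff]
    refine ⟨fun h g => ?_, fun h g => e.injective (by rw [map_mul, map_mul, h])⟩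
    obtain ⟨g, rfl⟩ := e.surjective g
    rw [← map_mul, ← map_mul, h]
  rw [this, H11.U.mem_center_SU_iff (by omega)]
  refine exists_congr fun a => ?_
  rw [h4, gc_val]
  constructor
  · intro h
    rw [h, Matrix.mul_smul, Matrix.mul_one, Matrix.smul_mul, Units.mul_inv]
  · intro h
    have := congrArg (fun M => (C⁻¹).1 * M * C.1) h
    simpa only [← Matrix.mul_assoc, Units.inv_mul, Matrix.one_mul, Matrix.mul_assoc _ (C⁻¹).1 C.1, Matrix.mul_one,
      Matrix.mul_smul, Matrix.smul_mul] using this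

theorem pf_X : commutator (XU n F) = ⊤ := by
  obtain ⟨q, i, C, e, -⟩ := bridge (F := F) (n := n)
  have h3' := Ok.h3 (n := n) F
  have h := H11.U.commutator_SU_eq_top (F := F) (q := q) (n := n + 3) (by omega) (by omega)
  have := map_commutator_eq (SU (n + 3) F q) e.symm.toMonoidHom
  rw [h, MonoidHom.range_eq_top.2 e.symm.surjective, map_top_of_surjective _ e.symm.surjective] at this
  exact this.symm

theorem normal_X (N : Subgroup (XU n F)) [hN : N.Normal] : N ≤ center _ ∨ N = ⊤ := by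
  obtain ⟨q, i, C, e, -⟩ := bridge (F := F) (n := n)
  have h3' := Ok.h3 (n := n) F
  have := hN.map e.toMonoidHom e.surjective
  rcases H11.U.normal_le_center_or (F := F) (q := q) (n := n + 3) (by omega) (by omega) (N.map e.toMonoidHom)
    with h | h
  · exact Or.inl fun x hx => mem_center_iff.2 fun g => e.injective (by
      rw [map_mul, map_mul]; exact mem_center_iff.1 (h ⟨x, hx, rfl⟩) _)
  · rw [H11.U.commutator_SU_eq_top (by omega) (by omega)] at h
    refine Or.inr (eq_top_iff.2 fun x _ => ?_)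
    obtain ⟨y, hy, k⟩ := h (mem_top (e x))
    exact e.injective k ▸ hy

theorem ex_is {u v : VV n F} (hu : Is u) (hv : Is v) : ∃ x : XU n F, ac x u = v := by
  obtain ⟨q, i, c, e, -, -, h3, h4, -⟩ := bridge' (F := F) (n := n)
  obtain ⟨u, rfl⟩ := c.surjective u
  obtain ⟨v, rfl⟩ := c.surjective v
  obtain ⟨g, hg⟩ := H11.U.exists_su_isotropic (F := F) (q := q) (n := n + 3) (by omega)
    (fun k => hu.2 (c.map_eq_zero_iff.2 k)) (fun k => hv.2 (c.map_eq_zero_iff.2 k)) (h3 u u ▸ hu.1) (h3 v v ▸ hv.1)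
  exact ⟨e.symm g, by rw [h4, e.apply_symm_apply, hg]⟩

theorem ex_pair {u v u' v' : VV n F} (hu : bt u u = 0) (hv : bt v v = 0) (hu' : bt u' u' = 0) (hv' : bt v' v' = 0)
    (h0 : bt v u ≠ 0) (h : bt v' u' = bt v u) : ∃ x : XU n F, ac x u = u' ∧ ac x v = v' := by
  obtain ⟨q, i, c, e, -, -, h3, h4, -⟩ := bridge' (F := F) (n := n)
  obtain ⟨u, rfl⟩ := c.surjective u
  obtain ⟨v, rfl⟩ := c.surjective v
  obtain ⟨u', rfl⟩ := c.surjective u'
  obtain ⟨v', rfl⟩ := c.surjective v'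
  rw [h3] at hu hv hu' hv' h0 h
  rw [h3] at h
  obtain ⟨g, hg, hg'⟩ := H11.U.exists_su_pair (F := F) (q := q) (n := n + 3) (by omega) h0 hu hv hu' hv' rfl h
  exact ⟨e.symm g, by rw [h4, e.apply_symm_apply, hg], by rw [h4, e.apply_symm_apply, hg']⟩

end B33

end UMS
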