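import Cfsg.Agent.Lib.UMS.HX
import Cfsg.Agent.Lib.UMS.B33
import Cfsg.Agent.Lib.LMS.B2

/-! Root elements and the Sylow subgroup of the special unitary group. -/

set_option autoImplicit false
set_option linter.unusedSectionVars false

namespace UMS

open Subgroup H69 Cfsg Matrix U4S
open LMS (XX GX iL kk MM au tw Sg)
open scoped MatrixGroups commutatorElement

universe u
variable {F : Type u} [Field F] [CharP F 2] [Fintype F] [Hs F] {n : ℕ} [Ok n F]

local notation "X" => XX n F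
local notation "I" => Fin (n + 3)
local notation "Mx" => Matrix (Fin (n + 3)) (Fin (n + 3)) F

namespace B33
open H12

theorem cen_val {x : XU n F} (h : x ∈ center (XU n F)) : x.1 ∈ center X := by
  obtain ⟨a, ha⟩ := mem_center.1 h
  refine mem_center_iff.2 fun g => Subtype.ext ?_
  change g.1 * x.1.1 = x.1.1 * g.1
  rw [ha, Matrix.mul_smul, Matrix.smul_mul, Matrix.mul_one, Matrix.one_mul]

theorem cen_two {x : XU n F} (h : x ∈ center (XU n F)) (p : P2 x) : x = 1 := by
  obtain ⟨k, hk⟩ := p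
  exact Subtype.ext (LMS.cen_two (cen_val h) ⟨k, congrArg Subtype.val hk⟩)

/-- Eichler transformations -/
theorem eich {u v : VV n F} {c : F} (hu : bt u u = 0) (huv : bt u v = 0) (hc : c + σ c = bt v v) :
    ∃ y : XU n F, y.1.1 = 1 + hm u v + hm v u + c • hm u u := by
  have hvu : bt v u = 0 := by rw [bt_symm, huv, map_zero]
  have c2 : (2 : F) = 0 := CharTwo.two_eq_zero
  refine ⟨mk _, mk_val ?_ ?_⟩
  · have : 1 + hm u v + hm v u + c • hm u u = (1 + hm u (v + c • u)) * (1 + hm v u) := by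
      simp only [add_mul, mul_add, one_mul, mul_one, hm_mul, hm_add_r, hm_smul_r, Matrix.smul_mul, hvu, ← hc]
      match_scalars <;> grind
    rw [this, det_mul, det_hm, det_hm, bt_add_r, bt_smul_r, hu, huv, hvu]
    simp
  · simp only [ad_add, ad_one, ad_hm, ad_smul, add_mul, mul_add, one_mul, mul_one, hm_mul, Matrix.smul_mul,
      Matrix.mul_smul, hu, huv, hvu, ← hc]
    match_scalars <;> grind

theorem mem_UU {x : XU n F} : x ∈ UU n F ↔ ∀ i j : I, j ≤ i → x.1.1 i j = (1 : Mx) i j := LMS.mem_UU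

theorem rootL {k : I} (h : k < k.rev) (c : K0 F) :
    tc (ee k) c ∈ UU n F ∧ (tc (ee k) c : XU n F).1.1 = 1 + single k k.rev (c : F) := by
  have e : (tc (ee k) c : XU n F).1.1 = 1 + single k k.rev (c : F) := by
    rw [tc_val (by rw [bt_ee_r, ee, Pi.single_eq_of_ne h.ne']), hm_ee, smul_single, smul_eq_mul, mul_one]
  refine ⟨mem_UU.2 fun i j hij => ?_, e⟩
  rw [e, Matrix.add_apply, single_apply_of_ne, add_zero]
  rintro ⟨rfl, rfl⟩
  exact absurd h (not_lt.2 hij)

theorem root0 {i j : I} (h : i < j) (hi : i ≠ i.rev) (a : F) : ∃ y : XU n F, ∃ k : I, ∃ c : F, k < k.rev ∧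
    (c = 0 ∨ (k = i ∧ j = j.rev)) ∧ y.1.1 = 1 + single i j a + single j.rev i.rev (σ a) + single k k.rev c := by
  have h1 : bt (a • ee i : VV n F) (a • ee i) = 0 := by
    rw [bt_smul_l, bt_smul_r, bt_ee_r, ee, Pi.single_eq_of_ne hi.symm]; simp
  have h2 : bt (a • ee i : VV n F) (ee j.rev) = 0 := by
    rw [bt_smul_l, bt_ee_r, ee, Fin.rev_rev, Pi.single_eq_of_ne h.ne']; simp
  by_cases hj : j = j.rev
  · obtain ⟨c, hc⟩ := ex_tr (F := F)
    obtain ⟨y, hy⟩ := eich (c := c) h1 h2 (by rw [hc, bt_ee_r, ee, Fin.rev_rev, ← hj, Pi.single_eq_same])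
    refine ⟨y, i, c * (σ a * a), h.trans (hj ▸ Fin.rev_lt_rev.2 h), Or.inr ⟨rfl, hj⟩, ?_⟩
    simp only [hy, hm_smul_l, hm_smul_r, hm_ee, smul_single, smul_eq_mul, mul_one, Fin.rev_rev]
  · obtain ⟨y, hy⟩ := eich (c := 0) h1 h2 (by
      rw [map_zero, add_zero, bt_ee_r, ee, Fin.rev_rev, Pi.single_eq_of_ne hj])
    refine ⟨y, 0, 0, by simp [Fin.lt_def], Or.inl rfl, ?_⟩
    simp only [hy, hm_smul_l, hm_smul_r, hm_ee, smul_single, smul_eq_mul, mul_one, Fin.rev_rev, zero_mul, single_zero]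

/-- root elements -/
theorem root {i j : I} (h : i < j) (a : F) : ∃ y ∈ UU n F, ∃ k : I, ∃ c : F, k < k.rev ∧
    (c = 0 ∨ (k = i ∧ j = j.rev) ∨ (k = j.rev ∧ i = i.rev)) ∧
    y.1.1 = 1 + single i j a + single j.rev i.rev (σ a) + single k k.rev c := by
  suffices H : ∃ y : XU n F, ∃ k : I, ∃ c : F, k < k.rev ∧ (c = 0 ∨ (k = i ∧ j = j.rev) ∨ (k = j.rev ∧ i = i.rev)) ∧
      y.1.1 = 1 + single i j a + single j.rev i.rev (σ a) + single k k.rev c by
    obtain ⟨y, k, c, h1, h2, h3⟩ := H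
    refine ⟨y, mem_UU.2 fun p q hpq => ?_, k, c, h1, h2, h3⟩
    have s : ∀ {l m : I} (b : F), l < m → single l m b p q = 0 := fun b hl => single_apply_of_ne _ _ _ _ _ (by
      rintro ⟨rfl, rfl⟩
      exact absurd hl (not_lt.2 hpq))
    rw [h3, Matrix.add_apply, Matrix.add_apply, Matrix.add_apply, s _ h, s _ (Fin.rev_lt_rev.2 h), s _ h1]
    simp
  by_cases hi : i = i.rev
  · obtain ⟨y, k, c, h1, h2, h3⟩ := root0 (Fin.rev_lt_rev.2 h) (fun e => by
      rw [Fin.rev_rev] at e
      have := Fin.rev_lt_rev.2 h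
      rw [← hi, e] at this
      exact absurd (h.trans this) (lt_irrefl _)) (σ a)
    refine ⟨y, k, c, h1, h2.imp_right fun e => Or.inr ⟨e.1, hi⟩, ?_⟩
    rw [h3, Fin.rev_rev, Fin.rev_rev, ss, add_right_comm 1]
  · obtain ⟨y, k, c, h1, h2, h3⟩ := root0 h hi a
    exact ⟨y, k, c, h1, h2.imp_right Or.inl, h3⟩

/-- whatever commutes with `UU` commutes with all upper matrix units -/
theorem comm_single {M : Mx} (hM : ∀ u ∈ UU n F, u.1.1 * M = M * u.1.1) {i j : I} (h : i < j) :
    single i j (1 : F) * M = M * single i j 1 := by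
  have L : ∀ k : I, k < k.rev → ∀ c : F, single k k.rev c * M = M * single k k.rev c := fun k hk c => by
    have h1 := hM _ (rootL hk 1).1
    rw [(rootL hk 1).2, add_mul, mul_add, one_mul, mul_one, add_right_inj] at h1
    have : single k k.rev c = c • single k k.rev ((1 : K0 F) : F) := by simp
    rw [this, Matrix.smul_mul, Matrix.mul_smul, h1]
  have R : ∀ a : F, a • (single i j (1 : F) * M - M * single i j 1) +
      σ a • (single j.rev i.rev (1 : F) * M - M * single j.rev i.rev 1) = 0 := fun a => by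
    obtain ⟨y, hy, k, c, h1, -, h3⟩ := root h a
    have h4 := hM y hy
    rw [h3] at h4
    simp only [add_mul, mul_add, one_mul, mul_one, L k h1 c, add_left_inj] at h4
    have e1 : single i j a = a • single i j (1 : F) := by simp
    have e2 : single j.rev i.rev (σ a) = σ a • single j.rev i.rev (1 : F) := by simp
    rw [e1, e2, Matrix.smul_mul, Matrix.smul_mul, Matrix.mul_smul, Matrix.mul_smul] at h4
    rw [smul_sub, smul_sub, sub_add_sub_comm, sub_eq_zero]
    exact add_left_cancel (a := M) (by rw [← add_assoc, ← add_assoc, h4])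
  by_cases hj : j = i.rev
  · subst hj; exact L i h 1
  obtain ⟨c, hc⟩ := ex_tr (F := F)
  have r1 := R 1
  have r2 := R (σ c)
  rw [map_one, one_smul, one_smul] at r1
  rw [ss, eq_neg_of_add_eq_zero_right r1, smul_neg, ← sub_eq_add_neg, ← sub_smul, CharTwo.sub_eq_add, add_comm (σ c), hc,
    one_smul] at r2
  exact sub_eq_zero.1 r2

theorem cen_U {x : XU n F} (h : x ∈ UU n F) (c : ∀ u ∈ UU n F, u * x = x * u) : ∃ a, x = zz a := by
  have k := fun i j (e : i < j) => comm_single (M := x.1.1) (fun u hu => congrArg (fun y => y.1.1) (c u hu)) e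
  have : x.1 ∈ LMS.RR F 0 iL := LMS.cen_U h fun u hu => by
    refine mem_centralizer_singleton_iff.1 ((closure_le (centralizer {x.1})).2 ?_ hu)
    rintro _ ⟨i, j, a, e, rfl⟩
    refine mem_centralizer_singleton_iff.2 (Subtype.ext ?_)
    change (xe i j a : X).1 * x.1.1 = x.1.1 * (xe i j a : X).1
    have e1 : single i j a = a • single i j (1 : F) := by simp
    rw [xe_val e.ne, add_mul, mul_add, one_mul, mul_one, e1, Matrix.smul_mul, Matrix.mul_smul, k i j e]
  obtain ⟨a, ha⟩ := LMS.mem_RR.1 this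
  have h0 : (0 : I) ≠ iL := Fin.last_pos.ne
  have hv : x.1.1 = 1 + single 0 iL a := by rw [ha, xe_val h0]
  have ha' : σ a = a := by
    have h1 := H12.inv_val x
    have h2 : x⁻¹ = x := Subtype.ext (by rw [Subgroup.coe_inv, ha, LMS.xe_inv])
    have := congrFun (congrFun h1 0) iL
    rw [h2, ad_apply, hv] at this
    simpa [h0, h0.symm, eq_comm] using this
  refine ⟨⟨a, ha'⟩, xext ?_⟩
  rw [hv, zz, (rootL (k := 0) (by simp [Fin.lt_def]) _).2]
  simp

theorem tri_of {h : Mx} (k : ∀ u ∈ UU n F, ∃ M : Mx, (∀ i j : I, j ≤ i → M i j = (1 : Mx) i j) ∧ u.1.1 * h = h * M) :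
    h.BlockTriangular id := by
  have key : ∀ j : I, ∀ i, j < i → h i j = 0 := by
    intro j
    induction j using WellFoundedLT.induction with
    | _ j ih =>
    intro i
    induction i using WellFoundedGT.induction with
    | _ i ih' =>
    intro hji
    obtain ⟨l, hl⟩ : ∃ l : I, l.1 + 1 = i.1 := ⟨⟨i.1 - 1, by omega⟩, by have := Fin.lt_def.1 hji; simp; omega⟩
    have li : l < i := Fin.lt_def.2 (by omega)
    have jl : j ≤ l := Fin.le_def.2 (by have := Fin.lt_def.1 hji; omega)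
    obtain ⟨u, hu, e⟩ : ∃ u ∈ UU n F, u.1.1 l i = 1 := by
      by_cases q : i = l.rev
      · subst q
        exact ⟨_, (rootL li 1).1, by rw [(rootL li 1).2]; simp [li.ne]⟩
      · obtain ⟨y, hy, p, c, h1, h2, h3⟩ := root li (1 : F)
        refine ⟨y, hy, ?_⟩
        rw [h3, Matrix.add_apply, Matrix.add_apply, Matrix.add_apply, single_apply_same, one_apply_ne li.ne,
          single_apply_of_ne _ _ _ _ _ (fun e => q e.2.symm), single_apply]
        rw [if_neg (by rintro ⟨rfl, e⟩; exact q e.symm)]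
        simp
    obtain ⟨M, hM, eM⟩ := k u hu
    have := congrFun (congrFun eM l) j
    rw [mul_apply, mul_apply, Finset.sum_eq_add_of_mem l i (by simp) (by simp) li.ne, Finset.sum_eq_single j,
      mem_UU.1 hu l l le_rfl, hM j j le_rfl, e, one_apply_eq, one_apply_eq, one_mul, one_mul, mul_one] at this
    · exact add_eq_left.1 this
    · intro b _ hb
      rcases lt_or_gt_of_ne hb with q | q
      · rw [ih b q l (q.trans_le jl), zero_mul]
      · rw [hM b j q.le, one_apply_ne hb, mul_zero]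
    · simp
    · rintro b _ ⟨b1, b2⟩
      rcases lt_or_gt_of_ne b1 with q | q
      · rw [mem_UU.1 hu l b q.le, one_apply_ne b1.symm, zero_mul]
      · have : i < b := lt_of_le_of_ne (Fin.le_def.2 (by have := Fin.lt_def.1 q; omega)) b2.symm
        rw [ih' b this (hji.trans this), mul_zero]
  exact fun i j e => key j i e

theorem sylU : IsSylowIn 2 (UU n F) ⊤ := by
  refine ⟨le_top, LMS.sylU.isP.comap_subtype, fun R h1 _ h3 => le_antisymm (fun r hr => ?_) h1⟩
  obtain ⟨g, -, hg⟩ := (LMS.sylU (n := n) (F := F)).exists_cj_le (h3.map (XU n F).subtype) le_top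
  have m : ∀ r ∈ R, g * r.1 * g⁻¹ ∈ LMS.UU n F := fun r hr => hg (cj_mem g ⟨r, hr, rfl⟩)
  have t1 : (g⁻¹).1.BlockTriangular id := tri_of fun u hu => ⟨_, LMS.mem_UU.1 (m u (h1 hu)), by
    exact congrArg (fun y : X => y.1) (show (u.1 : X) * g⁻¹ = g⁻¹ * (g * u.1 * g⁻¹) by group)⟩
  have t2 : g.1.BlockTriangular id := by
    have := H10.inv_upper (g := Matrix.SpecialLinearGroup.toGL g⁻¹) t1
    rwa [← map_inv, inv_inv] at this
  have t3 : (g * r.1 * g⁻¹).1.BlockTriangular id := fun i j e => by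
    rw [LMS.mem_UU.1 (m r hr) i j (le_of_lt e), one_apply_ne (show i ≠ j from ne_of_gt e)]
  have e : r.1.1 = (g⁻¹).1 * (g * r.1 * g⁻¹).1 * g.1 := by
    exact congrArg (fun y : X => y.1) (show (r.1 : X) = g⁻¹ * (g * r.1 * g⁻¹) * g by group)
  refine mem_UU.2 fun i j q => ?_
  rcases q.lt_or_eq with q | rfl
  · rw [e, (t1.mul t3).mul t2 q, one_apply_ne q.ne']
  · rw [e, H10.mul_apply_diag_of_upper (t1.mul t3) t2, H10.mul_apply_diag_of_upper t1 t3,
      LMS.mem_UU.1 (m r hr) j j le_rfl, one_apply_eq, mul_one, ← H10.mul_apply_diag_of_upper t1 t2,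
      ← Matrix.SpecialLinearGroup.coe_mul, inv_mul_cancel, Matrix.SpecialLinearGroup.coe_one, one_apply_eq]

end B33

end UMS
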