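import Cfsg.Agent.Lib.LMS.Defs

/-! Standard subgroups of type `U_m(2^n)`: definitions.  See `blueprint/UMS/README.md`. -/

set_option autoImplicit false
set_option linter.unusedSectionVars false

namespace UMS

open Subgroup H69 Cfsg Matrix U4S
open LMS (XX GX iL kk MM au tw Sg)
open scoped MatrixGroups commutatorElement

/-- a field with a chosen involution -/
class Hs (F : Type*) [Field F] where
  bar : RingAut F
  sg : Sg bar

/-- degree at least six, and not `U_6(2)` -/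
class Ok (n : ℕ) (F : Type*) : Prop where
  h3 : 3 ≤ n
  h : n = 3 → 16 ≤ Nat.card F

instance instLMSOk {n : ℕ} {F : Type*} [h : Ok n F] : LMS.Ok n F := ⟨fun k => absurd h.h3 (by omega)⟩

section model
variable {n : ℕ} {F : Type*} [Field F] [CharP F 2] [Hs F]

/-- the involution -/
abbrev σ : RingAut F := Hs.bar

variable (F) in
/-- the fixed field -/
def K0 : Subfield F := (σ : RingAut F).toRingHom.eqLocusField (RingHom.id F)

theorem mem_K0 {a : F} : a ∈ K0 F ↔ σ a = a := Iff.rfl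

/-- the graph-field automorphism -/
def τ : XX n F →* XX n F := tw.comp (fr σ)

variable (n F) in
/-- the special unitary group of the antidiagonal form -/
def XU : Subgroup (XX n F) := (τ : XX n F →* XX n F).eqLocus (MonoidHom.id _)

/-- vectors -/
abbrev VV (n : ℕ) (F : Type*) : Type _ := Fin (n + 3) → F

/-- the hermitian form -/
def bt (x y : VV n F) : F := ∑ j, x j * σ (y j.rev)
/-- `x ↦ β(x, v) u` -/
def hm (u v : VV n F) : Matrix (Fin (n + 3)) (Fin (n + 3)) F := vecMulVec u fun j => σ (v j.rev)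
/-- action on vectors -/
def ac (x : XU n F) (v : VV n F) : VV n F := x.1.1 *ᵥ v
/-- basis vectors -/
def ee (i : Fin (n + 3)) : VV n F := Pi.single i 1
/-- the middle basis vector (zero in even degree) -/
def mv : VV n F := fun i => if i = i.rev then 1 else 0
/-- the norm -/
def nm (a : F) : K0 F := ⟨a * σ a, by rw [mem_K0, map_mul, Hs.sg.2, mul_comm]⟩

open Classical in
/-- the element of `SL` with a given matrix -/
noncomputable def mx (M : Matrix (Fin (n + 3)) (Fin (n + 3)) F) : XX n F := if h : M.det = 1 then ⟨M, h⟩ else 1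
open Classical in
/-- the element of `XU` with a given matrix -/
noncomputable def mk (M : Matrix (Fin (n + 3)) (Fin (n + 3)) F) : XU n F :=
  if h : mx M ∈ XU n F then ⟨mx M, h⟩ else 1

/-- unitary transvections -/
noncomputable def tc (v : VV n F) (c : K0 F) : XU n F := mk (1 + (c : F) • hm v v)
/-- short root elements -/
noncomputable def sh (u v : VV n F) : XU n F := mk (1 + hm u v + hm v u)
/-- the highest root group -/
noncomputable def zz (c : K0 F) : XU n F := tc (ee 0) c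
/-- short root elements of the basis -/
noncomputable def sr (i j : Fin (n + 3)) (a : F) : XU n F := sh (a • ee i) (ee j.rev)
/-- diagonal elements -/
noncomputable def dgu (d : VV n F) : XU n F := mk (diagonal d)
/-- permutation matrices -/
noncomputable def pmU (π : Equiv.Perm (Fin (n + 3))) : XU n F := mk (pmL π : XX n F).1
/-- admissible diagonal entries -/
def Dd (d : VV n F) : Prop := (∀ i, d i * σ (d i.rev) = 1) ∧ ∏ i, d i = 1
/-- `(i, j)` is a short root -/
def Sh (i j : Fin (n + 3)) : Prop := i ≠ j ∧ j ≠ i.rev ∧ i ≠ i.rev ∧ j ≠ j.rev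
/-- non-zero isotropic -/
def Is (v : VV n F) : Prop := bt v v = 0 ∧ v ≠ 0
/-- a basis of an isotropic plane -/
def Ot (u v : VV n F) : Prop := bt u u = 0 ∧ bt v v = 0 ∧ bt u v = 0 ∧ LinearIndependent F ![u, v]
/-- a basis of an isotropic three-space -/
def Ot3 (u v x : VV n F) : Prop := bt u u = 0 ∧ bt v v = 0 ∧ bt x x = 0 ∧ bt u v = 0 ∧ bt u x = 0 ∧ bt v x = 0 ∧
  LinearIndependent F ![u, v, x]
/-- the rank of `x - 1` -/
noncomputable def rk (x : XU n F) : ℕ := LMS.rk x.1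
/-- the last column without its ends -/
def cv (x : XU n F) : VV n F := fun j => if j = 0 ∨ j = iL then 0 else x.1.1 j iL
/-- vectors in the middle -/
def Mi (v : VV n F) : Prop := v 0 = 0 ∧ v iL = 0

/-- pointwise stabilisers -/
def St (s : Set (VV n F)) : Subgroup (XU n F) where
  carrier := {x | ∀ v ∈ s, ac x v = v}
  one_mem' := fun v _ => Matrix.one_mulVec v
  mul_mem' := fun {x y} hx hy v hv => by
    change (x.1.1 * y.1.1) *ᵥ v = v
    rw [← mulVec_mulVec]; exact (congrArg _ (hy v hv)).trans (hx v hv)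
  inv_mem' := fun {x} hx v hv => by
    have : ac x⁻¹ (ac x v) = v := by
      change (x⁻¹).1.1 *ᵥ (x.1.1 *ᵥ v) = v
      rw [mulVec_mulVec, ← Matrix.SpecialLinearGroup.coe_mul, ← Subgroup.coe_mul, inv_mul_cancel]
      exact Matrix.one_mulVec v
    rwa [hx v hv] at this

variable (n F) in
/-- the unitriangular group -/
def UU : Subgroup (XU n F) := (LMS.UU n F).subgroupOf _
variable (n F) in
/-- hermitian matrices on the span of the first `d` basis vectors -/
def JD (d : ℕ) : Subgroup (XU n F) := (LMS.JJ n F d).subgroupOf _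
variable (n F) in
/-- the radical of the stabiliser of the first basis vector -/
def QQ : Subgroup (XU n F) := (LMS.QQ F 0 iL).subgroupOf _
variable (n F) in
/-- the stabiliser of the first basis vector -/
def PP : Subgroup (XU n F) := St {ee 0}
variable (n F) in
/-- the highest root group -/
def ZZ : Subgroup (XU n F) := closure {y | ∃ c, y = zz c}
/-- elements of `SL` fixing `v` and the form with `v` -/
def HN (v : VV n F) (x : XX n F) : Prop := x.1 *ᵥ v = v ∧ ∀ u, bt (x.1 *ᵥ u) v = bt u v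

/-- the largest elementary abelian subgroups -/
def IsJ (J : Subgroup (XU n F)) : Prop := ∃ x : XU n F, J = JD n F (kk n) ^ᶜ x

/-- conjugation as a homomorphism -/
def cn (u : XU n F) : XU n F →* XU n F := (MulAut.conj u).toMonoidHom

theorem cn_apply (u x : XU n F) : cn u x = u * x * u⁻¹ := rfl

/-- `α` is induced by a `φ`-semilinear map -/
def Au (α : XU n F →* XU n F) (φ : RingAut F) : Prop := ∃ g : GX n F, ∀ x, (α x).1 = au g φ false x.1
/-- an involutory outer automorphism -/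
def Ou (α : XU n F →* XU n F) : Prop := Au α σ ∧ ∀ x, α (α x) = x
/-- `y = x α(x)⁻¹` -/
def Tw (α : XU n F →* XU n F) (y : XU n F) : Prop := ∃ x, y = x * (α x)⁻¹
/-- a twisted commutator that is an involution in the derived group of a fixed 2-subgroup -/
def Gd (α : XU n F →* XU n F) : Prop := ∃ P : Subgroup (XU n F), IsPGroup 2 P ∧ (∀ p ∈ P, α p = p) ∧
  ∃ y ∈ ⁅P, P⁆, y * y = 1 ∧ y ≠ 1 ∧ Tw α y

/-- a line `C = [J, r]` -/
structure Ln (J : Subgroup (XU n F)) (r : XU n F) (C : Subgroup (XU n F)) : Prop where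
  sq : r * r = 1
  nJ : r ∈ 𝐍(J)
  le : C ≤ J
  card : Nat.card C = Nat.card (K0 F) ^ (2 * kk n - 2)
  cm : IsCm J r C

/-- the elements of rank at most one form a subgroup of order `q` -/
def R1 (C : Subgroup (XU n F)) : Prop := ∃ Z : Subgroup (XU n F), Nat.card Z = Nat.card (K0 F) ∧
  ∀ x, x ∈ Z ↔ x ∈ C ∧ rk x ≤ 1

/-- invariants of a transvection of `J` outside `Q` over the field with four elements -/
def Fb (N : XU n F) : Prop := N ∈ JD n F (kk n) ∧ N ∉ QQ n F ∧
  Set.ncard {y | ∃ x ∈ QQ n F, ∃ c, y = ⁅x, N⁆ * zz c} ≤ 8 ∧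
  Set.ncard {y | (∃ b ∈ PP n F ⊓ 𝐍(JD n F (kk n)), y = b * N * b⁻¹) ∧ y * N⁻¹ ∈ QQ n F} ≤ 4

end model

section conf
variable {G : Type*} [Group G] {n : ℕ} {F : Type*} [Field F] [CharP F 2] [Hs F]

/-- central kernel -/
def Em (ι : XU n F →* G) : Prop := ι.ker ≤ center _
/-- `a` induces `α` -/
def Act (ι : XU n F →* G) (a : G) (α : XU n F →* XU n F) : Prop := ∀ x, a * ι x * a⁻¹ = ι (α x)
/-- inner-diagonal -/
def Dg (ι : XU n F →* G) (a : G) : Prop := ∃ α, Act ι a α ∧ Au α 1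
/-- `Gd` for the induced automorphism -/
def Good (ι : XU n F →* G) (a : G) : Prop := ∃ α, Act ι a α ∧ Gd α
/-- conjugated parametrisation -/
def cι (ι : XU n F →* G) (g : G) : XU n F →* G := (MulAut.conj g).toMonoidHom.comp ι

theorem cι_apply (ι : XU n F →* G) (g : G) (x : XU n F) : cι ι g x = g * ι x * g⁻¹ := rfl

/-- the standard configuration -/
structure C1 (ι : XU n F →* G) (t : G) : Prop where
  em : Em ι
  t2 : t * t = 1
  t1 : t ≠ 1
  tc : ∀ x, t * ι x = ι x * t
  CN : ∀ g, g * t = t * g → g ∈ 𝐍(ι.range)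
  uq : ∀ c ∈ 𝐂(ι.range), c * c = 1 → c * t = t * c → c = 1 ∨ c = t

/-- with `⟨t⟩` Sylow in the centraliser -/
structure C2 (ι : XU n F →* G) (t : G) : Prop extends C1 ι t where
  two : Two ι.range t

/-- odd elements of `C(L) ⊓ C(t)` -/
def Oo (ι : XU n F →* G) (t o : G) : Prop := o ∈ 𝐂(ι.range) ∧ o * t = t * o ∧ Odd (orderOf o)
/-- centralises the odd elements -/
def CO (ι : XU n F →* G) (t d : G) : Prop := ∀ o, Oo ι t o → d * o = o * d
/-- centralises the image of `W` -/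
def Cn (ι : XU n F →* G) (W : Subgroup (XU n F)) (d : G) : Prop := ∀ x ∈ W, d * ι x = ι x * d

/-- `y` centralises `Z` and `Q / Z` and translates `t` -/
def D1 (ι : XU n F →* G) (t : G) (c : K0 F) (y : G) : Prop :=
  Cn ι (ZZ n F) y ∧ (∀ x ∈ QQ n F, ∃ a, y * ι x * y⁻¹ = ι x * ι (zz a)) ∧ y * t * y⁻¹ = t * ι (zz c)
/-- `d` centralises the stabiliser of `v` and translates `t` -/
def D0 (ι : XU n F →* G) (t : G) (v : VV n F) (c : K0 F) (d : G) : Prop :=
  Cn ι (St {v}) d ∧ d * t * d⁻¹ = t * ι (tc v c)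
/-- 2-elements with `D0` and `CO` -/
def SV (ι : XU n F →* G) (t : G) (v : VV n F) (c : K0 F) (w : G) : Prop := D0 ι t v c w ∧ CO ι t w ∧ P2 w
/-- elements of the doubled root group -/
def Xs (ι : XU n F →* G) (t : G) (v : VV n F) (c : K0 F) (w : G) : Prop :=
  D0 ι t v c w ∧ CO ι t w ∧ w * w = 1 ∧ ∀ a, w ≠ t * ι (tc v a)
/-- the doubled group -/
def YY (ι : XU n F →* G) (t : G) : Subgroup G :=
  closure {y | ∃ x c w, Xs ι t (ee 0) c w ∧ y = ι x * w * (ι x)⁻¹}

/-- `t` moves inside `t Z` -/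
structure C3 (ι : XU n F →* G) (t : G) : Prop extends C2 ι t where
  ex : ∀ v, Is v → ∀ c, ∃ w, SV ι t v c w

/-- a commuting family of complements to `t` -/
structure Zf (ι : XU n F →* G) (t : G) (Z : VV n F → K0 F → G → Prop) : Prop where
  sv : ∀ v, Is v → ∀ c w, Z v c w → SV ι t v c w
  nt : ∀ v, Is v → ∀ c w, Z v c w → ∀ a, w ≠ t * ι (tc v a)
  ex : ∀ v, Is v → ∀ c, ∃ w, Z v c w
  z : ∀ v, Is v → ∀ a, Z v 0 (ι (tc v a))
  mul : ∀ v, Is v → ∀ c c' w w', Z v c w → Z v c' w' → Z v (c + c') (w * w')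
  tr : ∀ v, Is v → ∀ c w x, Z v c w → Z (ac x v) c (ι x * w * (ι x)⁻¹)
  cm : ∀ u v, Is u → Is v → bt u v = 0 → ∀ c c' w w', Z u c w → Z v c' w' → w * w' = w' * w
  sq : ∃ κ : K0 F, ∀ v, Is v → ∀ c w, Z v c w → w * w = ι (tc v (κ * c))

/-- the doubled root groups -/
structure C4 (ι : XU n F →* G) (t : G) : Prop extends C3 ι t where
  xe : ∀ v, Is v → ∀ c, ∃ w, Xs ι t v c w
  mul : ∀ v, Is v → ∀ c c' w w', Xs ι t v c w → Xs ι t v c' w' → Xs ι t v (c + c') (w * w')
  cm : ∀ u v, Is u → Is v → bt u v = 0 → ∀ c c' w w', Xs ι t u c w → Xs ι t v c' w' → w * w' = w' * w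

/-- an equivariant section -/
structure Wt (ι : XU n F →* G) (t : G) (W : VV n F → G) : Prop where
  xs : ∀ v, Is v → Xs ι t v 1 (W v)
  zero : W 0 = 1
  eqv : ∀ x v, bt v v = 0 → ι x * W v * (ι x)⁻¹ = W (ac x v)
  add : ∀ v, bt v v = 0 → ∀ a b c : F, nm a + nm b = nm c → W (a • v) * W (b • v) = W (c • v)

/-- doubled short root elements -/
def SS (W : VV n F → G) (u v : VV n F) : G := W (u + v) * W u * W v

/-- with bilinearity -/
structure W2 (ι : XU n F →* G) (t : G) (W : VV n F → G) : Prop extends Wt ι t W where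
  sadd : ∀ u v v', Ot u v → Ot u v' → bt v v' = 0 → Ot u (v + v') → SS W u (v + v') = SS W u v * SS W u v'
  sc : ∀ u v (a : F), Ot u v → SS W u (a • v) = SS W (σ a • u) v

/-- coordinates on the doubled short root groups -/
noncomputable def YS (ι : XU n F →* G) (W : VV n F → G) (i j : Fin (n + 3)) (x y : F) : G :=
  ι (sr i j x) * SS W (y • ee i) (ee j.rev)
/-- the component of a short root element -/
noncomputable def XR (ι : XU n F →* G) (W : VV n F → G) (r : F) (u v : VV n F) : G := ι (sh (r • u) v) * SS W u v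

/-- the relations between the doubled short root groups -/
structure Stb (ι : XU n F →* G) (t : G) (W : VV n F → G) (α : K0 F) : Prop extends W2 ι t W where
  yadd : ∀ i j, Sh i j → ∀ x y x' y', YS ι W i j x y * YS ι W i j x' y' = YS ι W i j (x + x') (y + y')
  c0 : ∀ i j k l, Sh i j → Sh k l → i ≠ l → j ≠ k → k ≠ i.rev → l ≠ j.rev → ∀ x y x' y',
    YS ι W i j x y * YS ι W k l x' y' = YS ι W k l x' y' * YS ι W i j x y
  c1 : ∀ i j l, Sh i j → Sh j l → Sh i l → ∀ x y x' y',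
    ⁅YS ι W i j x y, YS ι W j l x' y'⁆ = YS ι W i l (x * x' + α * (y * y')) (x * y' + y * x' + y * y')
  sym : ∀ i j, Sh i j → ∀ x y, YS ι W i j x y = YS ι W j.rev i.rev (σ x) (σ y)
  tw : ∀ u v r, Ot u v → t * XR ι W r u v * t = XR ι W (r + 1) u v
  xsym : ∀ u v r, Ot u v → XR ι W r u v = XR ι W (σ r) v u
  xeqv : ∀ x u v r, Ot u v → ι x * XR ι W r u v * (ι x)⁻¹ = XR ι W r (ac x u) (ac x v)
  xmul : ∀ u v r, Ot u v → XR ι W r u v * XR ι W (r + 1) u v = ι (sh u v)

/-- Steinberg relations on the indices in `p` for the pairs in `R` -/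
structure Sb (R : Fin (n + 3) → Fin (n + 3) → Prop) (y : Fin (n + 3) → Fin (n + 3) → F → G) : Prop where
  add : ∀ i j, R i j → ∀ a b, y i j a * y i j b = y i j (a + b)
  c0 : ∀ i j k l, R i j → R k l → i ≠ l → j ≠ k → ∀ a b, y i j a * y k l b = y k l b * y i j a
  c1 : ∀ i j l, R i j → R j l → R i l → ∀ a b, ⁅y i j a, y j l b⁆ = y i l (a * b)

/-- a local homomorphism on the special linear group of `v^⊥` -/
structure Lo (ι : XU n F →* G) (W : VV n F → G) (r : F) (v : VV n F) (f : XX n F → G) : Prop where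
  mul : ∀ x y, HN v x → HN v y → f (x * y) = f x * f y
  res : ∀ x : XU n F, HN v x.1 → f x.1 = ι x
  xr : ∀ a b, Ot a b → bt a v = 0 → bt b v = 0 → f (mx (1 + hm a b)) = XR ι W r a b

/-- the field case -/
structure Fc (ι : XU n F →* G) (ψ : XX n F →* G) (t : G) (E : Subgroup G) : Prop extends C4 ι t where
  em' : LMS.Em ψ
  res : ∀ x, ψ x.1 = ι x
  tw : LMS.Act ψ t τ
  yy : YY ι t = ψ.range
  am : Am ψ.range E t

/-- the wreath case: `ψ` and its conjugate by `t` -/
structure Wc (ι ψ : XU n F →* G) (t : G) (E : Subgroup G) : Prop extends C4 ι t where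
  em' : Em ψ
  comm : ∀ x y, ψ x * cι ψ t y = cι ψ t y * ψ x
  res : ∀ x, ψ x * cι ψ t x = ι x
  yy : YY ι t = ψ.range ⊔ (cι ψ t).range
  am : Am (ψ.range ⊔ (cι ψ t).range) E t

/-- two commuting copies with odd common centraliser -/
structure Pa (ψ χ : XU n F →* G) : Prop where
  e1 : Em ψ
  e2 : Em χ
  comm : ∀ x y, ψ x * χ y = χ y * ψ x
  odd : ∀ c ∈ 𝐂(ψ.range), c ∈ 𝐂(χ.range) → P2 c → c = 1
  perm : ∀ m ∈ 𝐍(ψ.range ⊔ χ.range), (m ∈ 𝐍(ψ.range) ∧ m ∈ 𝐍(χ.range)) ∨
    (ψ.range ^ᶜ m = χ.range ∧ χ.range ^ᶜ m = ψ.range)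

/-- pure elements -/
def Pu (ψ χ : XU n F →* G) (x : G) : Prop := x ∈ ψ.range ∨ x ∈ χ.range

/-- the wreath case with control: `χ = ψ^t` -/
structure Wk (ι ψ χ : XU n F →* G) (t : G) : Prop extends C2 ι t where
  pa : Pa ψ χ
  sw : ∀ x, t * ψ x * t = χ x
  res : ∀ x, ψ x * χ x = ι x
  ct : Ct 𝐍(ψ.range ⊔ χ.range) t

/-- the elements normalising both factors -/
def Mo (ψ χ : XU n F →* G) : Subgroup G := 𝐍(ψ.range) ⊓ 𝐍(χ.range)

/-- the class of a transvection of the first factor -/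
def Cl (ψ : XU n F →* G) (v : G) : Prop := IsConj (ψ (zz 1)) v

/-- the components orthogonal to `v` -/
def AN (ι : XU n F →* G) (W : VV n F → G) (r : F) (v : VV n F) : Subgroup G :=
  closure {y | ∃ a b, Ot a b ∧ bt a v = 0 ∧ bt b v = 0 ∧ y = XR ι W r a b}

end conf

theorem eqns_Defs : True := by
  have := @K0.eq_1.{0}; have := @τ.eq_1.{0}; have := @XU.eq_1.{0}; have := @bt.eq_1.{0}; have := @hm.eq_1.{0}
  have := @ac.eq_1.{0}; have := @ee.eq_1.{0}; have := @mv.eq_1.{0}; have := @nm.eq_1.{0}; have := @mx.eq_1.{0}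
  have := @mk.eq_1.{0}; have := @tc.eq_1.{0}; have := @sh.eq_1.{0}; have := @zz.eq_1.{0}; have := @sr.eq_1.{0}
  have := @dgu.eq_1.{0}; have := @pmU.eq_1.{0}; have := @Dd.eq_1.{0}; have := @Sh.eq_1; have := @Is.eq_1.{0}
  have := @Ot.eq_1.{0}; have := @Ot3.eq_1.{0}; have := @rk.eq_1.{0}; have := @cv.eq_1.{0}; have := @Mi.eq_1.{0}
  have := @St.eq_1.{0}; have := @UU.eq_1.{0}; have := @JD.eq_1.{0}; have := @QQ.eq_1.{0}; have := @PP.eq_1.{0}
  have := @ZZ.eq_1.{0}; have := @HN.eq_1.{0}; have := @IsJ.eq_1.{0}; have := @cn.eq_1.{0}; have := @Au.eq_1.{0}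
  have := @Ou.eq_1.{0}; have := @Tw.eq_1.{0}; have := @Gd.eq_1.{0}; have := @R1.eq_1.{0}; have := @Fb.eq_1.{0}
  have := @Em.eq_1.{0, 0}; have := @Act.eq_1.{0, 0}; have := @Dg.eq_1.{0, 0}; have := @Good.eq_1.{0, 0}
  have := @cι.eq_1.{0, 0}; have := @Oo.eq_1.{0, 0}; have := @CO.eq_1.{0, 0}; have := @Cn.eq_1.{0, 0}
  have := @D1.eq_1.{0, 0}; have := @D0.eq_1.{0, 0}; have := @SV.eq_1.{0, 0}; have := @Xs.eq_1.{0, 0}
  have := @YY.eq_1.{0, 0}; have := @SS.eq_1.{0, 0}; have := @YS.eq_1.{0, 0}; have := @XR.eq_1.{0, 0}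
  have := @Pu.eq_1.{0, 0}; have := @Mo.eq_1.{0, 0}; have := @Cl.eq_1.{0, 0}; have := @AN.eq_1.{0, 0}
  trivial

end UMS
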