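import Cfsg.Agent.Lib.UMS.Defs

/-! Standard subgroups of type `U_m(2^n)`: more definitions. -/

set_option autoImplicit false
set_option linter.unusedSectionVars false

namespace UMS

open Subgroup H69 Cfsg Matrix U4S
open LMS (XX GX iL kk MM au tw Sg)

variable {G : Type*} [Group G] {n : ℕ} {F : Type*} [Field F] [CharP F 2] [Hs F]

/-- `g` acts on `Q / Z` as the `φ`-semilinear isometry `δ` of the middle vectors -/
structure Dl (ι : XU n F →* G) (g : G) (δ : VV n F → VV n F) (φ : RingAut F) : Prop where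
  ph : φ = 1 ∨ φ = σ
  mi : ∀ w, Mi w → Mi (δ w)
  add : ∀ v w, Mi v → Mi w → δ (v + w) = δ v + δ w
  smul : ∀ (a : F) w, Mi w → δ (a • w) = φ a • δ w
  iso : ∀ v w, Mi v → Mi w → bt (δ v) (δ w) = φ (bt v w)
  act : ∀ x ∈ QQ n F, ∃ x' ∈ QQ n F, g * ι x * g⁻¹ = ι x' ∧ cv x' = δ (cv x)

/-- `g` normalises the images of `P` and `Q` and centralises the image of `Z` -/
structure Nz (ι : XU n F →* G) (g : G) : Prop where
  nP : g ∈ 𝐍((PP n F).map ι)
  nQ : g ∈ 𝐍((QQ n F).map ι)
  cZ : Cn ι (ZZ n F) g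

/-- distinct indices that are not the middle one -/
def R0 (i j : Fin (n + 3)) : Prop := i ≠ j ∧ i ≠ i.rev ∧ j ≠ j.rev

theorem eqns_Defs2 : True := by
  have := @R0.eq_1
  trivial

end UMS
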