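import Cfsg.Agent.Lib.UMS.B1b
import Cfsg.Agent.Lib.Forms.Witt
import Cfsg.Agent.Lib.UMS.H12b
import Cfsg.Agent.Lib.UMS.HY

set_option autoImplicit false
set_option linter.unusedSectionVars false

namespace UMS

open Subgroup H69 Cfsg Matrix U4S
open LMS (XX GX iL kk MM au tw Sg)
open scoped MatrixGroups commutatorElement

universe u
variable {G : Type*} [Group G] [Finite G] {F : Type u} [Field F] [CharP F 2] [Fintype F] [Hs F] {n : ℕ} [Ok n F]
  {ι ψ χ : XU n F →* G} {t : G} {E : Subgroup G}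

local notation "X" => XU n F
local notation "V" => VV n F
local notation "𝐪" => Nat.card (K0 F)
local notation "I" => Fin (n + 3)
local notation "Mx" => Matrix (Fin (n + 3)) (Fin (n + 3)) F

namespace WIT

theorem l0 : ((0 : I) : ℕ) ≤ 2 := Nat.zero_le _
theorem l1 : ((1 : I) : ℕ) ≤ 2 := (by decide : 1 ≤ 2)
theorem l2 : ((2 : I) : ℕ) ≤ 2 := le_refl 2

theorem sh_lt (F : Type u) [Ok n F] {i j : I} (hi : i.1 ≤ 2) (hj : j.1 ≤ 2) (h : i.1 ≠ j.1) : Sh i j := by
  have := Ok.h3 (n := n) (F := F)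
  simp only [Sh, ne_eq, Fin.ext_iff, Fin.val_rev]
  omega

theorem ee0 {i j : I} (hi : i.1 ≤ 2) (hj : j.1 ≤ 2) : bt (ee i : V) (ee j) = 0 := by
  have := Ok.h3 (n := n) (F := F)
  rw [H12.bt_ee, if_neg]
  simp only [Fin.ext_iff, Fin.val_rev]
  omega

theorem li3 : LinearIndependent F ![(ee 0 : V), ee 1, ee 2] := by
  have := (Pi.basisFun F I).linearIndependent.comp (Fin.castLE (by omega) : Fin 3 → I) (Fin.castLE_injective _)
  convert this using 1
  ext1 i
  fin_cases i <;> exact (Pi.basisFun_apply _ _ _).symm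

theorem ot01 : Ot (ee 0 : V) (ee 1) :=
  ⟨ee0 (by simp) (by simp), ee0 (by simp) (by simp), ee0 (by simp) (by simp), H76.ee_li (by simp)⟩

theorem li_cons {u v w : V} (h : LinearIndependent F ![u, v]) (hu : bt u w = 0) (hv : bt v w = 0) (hw : bt w w ≠ 0) :
    LinearIndependent F ![w, u, v] := by
  refine LinearIndependent.finCons h fun k => hw ?_
  have : ∀ y ∈ Submodule.span F (Set.range ![u, v]), bt y w = 0 := fun y hy => by
    induction hy using Submodule.span_induction with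
    | mem x hx =>
      obtain ⟨i, rfl⟩ := hx
      fin_cases i
      exacts [hu, hv]
    | zero => exact H12.bt_zero_l _
    | add x y _ _ a b => rw [H12.bt_add_l, a, b, add_zero]
    | smul a x _ b => rw [H12.bt_smul_l, b, mul_zero]
  exact this w k

theorem exD {a b c e : F} (ha : a ≠ 0) (hb : b ≠ 0) (hc : c ≠ 0) (he : e ≠ 0) (h : 4 ≤ n ∨ e = 1)
    (k : σ (a * b * c * e) = a * b * c * e) : ∃ d : V, Dd d ∧ d 0 = a ∧ d 1 = b ∧ d 2 = c := by
  have h3 := Ok.h3 (n := n) (F := F)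
  set j : I := ⟨3, by omega⟩
  set f : V := Pi.mulSingle 0 a * Pi.mulSingle 1 b * Pi.mulSingle 2 c * Pi.mulSingle j e with hf
  have f0 : ∀ i, f i ≠ 0 := fun i => by
    simp only [hf, Pi.mul_apply, Pi.mulSingle_apply]
    refine mul_ne_zero (mul_ne_zero (mul_ne_zero ?_ ?_) ?_) ?_ <;> split_ifs <;> first | assumption | exact one_ne_zero
  have f1 : ∀ i : I, i.1 ≤ 2 → f i.rev = 1 := fun i hi => by
    have : (Pi.mulSingle j e : V) i.rev = 1 := by
      rcases h with h | rfl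
      · exact Pi.mulSingle_eq_of_ne (by simp only [ne_eq, Fin.ext_iff, Fin.val_rev, j]; omega) _
      · simp
    rw [hf, Pi.mul_apply, Pi.mul_apply, Pi.mul_apply, this, Pi.mulSingle_eq_of_ne, Pi.mulSingle_eq_of_ne,
      Pi.mulSingle_eq_of_ne, one_mul, one_mul, one_mul] <;>
    · simp only [ne_eq, Fin.ext_iff, Fin.val_rev, Fin.val_zero, Fin.val_one, Fin.val_two]
      omega
  have fp : ∏ i, f i = a * b * c * e := by
    simp only [hf, Pi.mul_apply, Finset.prod_mul_distrib, Finset.prod_pi_mulSingle', Finset.mem_univ, if_true]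
  refine ⟨fun i => f i * (σ (f i.rev))⁻¹, ⟨fun i => ?_, ?_⟩, ?_, ?_, ?_⟩
  · have := f0 i
    have : σ (f i.rev) ≠ 0 := (map_ne_zero _).2 (f0 _)
    simp only [map_mul, map_inv₀, H12.ss, Fin.rev_rev]
    field_simp
  · rw [Finset.prod_mul_distrib, Finset.prod_inv_distrib, ← map_prod,
      show ∏ i : I, f i.rev = ∏ i, f i from Equiv.prod_comp Fin.revPerm f, fp, k]
    exact mul_inv_cancel₀ (mul_ne_zero (mul_ne_zero (mul_ne_zero ha hb) hc) he)
  all_goals
    dsimp only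
    rw [f1 _ (by first | exact l0 | exact l1 | exact l2)]
    simp only [hf, Pi.mul_apply, Pi.mulSingle_apply, Fin.ext_iff, j, Fin.val_zero, Fin.val_one, Fin.val_two]
    simp

variable (n F) in
/-- the inclusion of the first three coordinates -/
def EE : Matrix I (Fin 3) F := Matrix.of fun i a => if i = Fin.castLE (by omega) a then 1 else 0

theorem EE_z {i : I} (h : 3 ≤ i.1) (a : Fin 3) : EE F n i a = 0 :=
  if_neg fun e => by have := congrArg Fin.val e; rw [Fin.val_castLE] at this; omega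

theorem EE_EE : (EE F n)ᵀ * EE F n = 1 := by
  ext a b
  simp [EE, Matrix.mul_apply, Matrix.one_apply, eq_comm]

theorem supp (N : Matrix (Fin 3) (Fin 3) F) {k l : I} (h : 3 ≤ k.1 ∨ 3 ≤ l.1) : (EE F n * N * (EE F n)ᵀ) k l = 0 := by
  rcases h with h | h <;> simp [Matrix.mul_apply, EE_z h]

theorem c1 (N N' : Matrix (Fin 3) (Fin 3) F) :
    EE F n * N * (EE F n)ᵀ * H12.ad (EE F n * N' * (EE F n)ᵀ) = 0 ∧
      H12.ad (EE F n * N' * (EE F n)ᵀ) * (EE F n * N * (EE F n)ᵀ) = 0 := by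
  have := Ok.h3 (n := n) (F := F)
  constructor <;> ext i j <;> rw [Matrix.mul_apply] <;> refine Finset.sum_eq_zero fun k _ => ?_ <;>
    by_cases h : 3 ≤ k.1
  · rw [supp N (Or.inr h), zero_mul]
  · rw [H12.ad_apply, supp N' (Or.inr (by rw [Fin.val_rev]; omega)), map_zero, mul_zero]
  · rw [supp N (Or.inl h), mul_zero]
  · rw [H12.ad_apply, supp N' (Or.inl (by rw [Fin.val_rev]; omega)), map_zero, zero_mul]

variable (n) in
/-- block embedding -/
def bl (A : Matrix (Fin 3) (Fin 3) F) : Mx := 1 + EE F n * (A - 1) * (EE F n)ᵀ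

theorem bl_mul (A B : Matrix (Fin 3) (Fin 3) F) : bl n A * bl n B = bl n (A * B) := by
  have : EE F n * (A - 1) * (EE F n)ᵀ * (EE F n * (B - 1) * (EE F n)ᵀ) = EE F n * ((A - 1) * (B - 1)) * (EE F n)ᵀ := by
    simp only [Matrix.mul_assoc]
    rw [← Matrix.mul_assoc (EE F n)ᵀ, EE_EE, Matrix.one_mul]
  rw [bl, bl, bl, add_mul, mul_add, mul_add, this, one_mul, one_mul, mul_one,
    show A * B - 1 = (B - 1) + ((A - 1) + (A - 1) * (B - 1)) by noncomm_ring]
  simp only [Matrix.mul_add, Matrix.add_mul, add_assoc]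

theorem bl_one : bl n (1 : Matrix (Fin 3) (Fin 3) F) = 1 := by simp [bl]

theorem bl_det (A : Matrix (Fin 3) (Fin 3) F) : (bl n A).det = A.det := by
  rw [bl, Matrix.mul_assoc, det_one_add_mul_comm, Matrix.mul_assoc, EE_EE, Matrix.mul_one, add_sub_cancel]

theorem bl_comm (A B : Matrix (Fin 3) (Fin 3) F) : H12.ad (bl n B) * bl n A = bl n A * H12.ad (bl n B) := by
  rw [bl, bl, H12.ad_add, H12.ad_one, add_mul, mul_add, mul_add, add_mul, mul_add, mul_add, (c1 _ _).1, (c1 _ _).2]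
  simp only [one_mul, mul_one]
  abel

end WIT

open WIT

theorem wittG {κ : Type} [Finite κ] (u v : κ → V) (hu : LinearIndependent F u) (hv : LinearIndependent F v)
    (h : ∀ i j, bt (v i) (v j) = bt (u i) (u j)) :
    ∃ g : GX n F, (∀ a b : V, bt (g.1 *ᵥ a) (g.1 *ᵥ b) = bt a b) ∧ ∀ i, g.1 *ᵥ u i = v i := by
  obtain ⟨M, h1, h2⟩ := H12.witt0 u v hu hv h
  exact ⟨⟨M, H12.ad M, mul_eq_one_comm.1 h1, h1⟩, fun a b => by
    rw [H12.bt_ad, mulVec_mulVec, h1, one_mulVec], h2⟩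

theorem wittS {κ : Type} [Finite κ] (u v : κ → V) (hu : LinearIndependent F u) (hv : LinearIndependent F v)
    (h : ∀ i j, bt (v i) (v j) = bt (u i) (u j)) {y : V} (hy : bt y y ≠ 0) (k : ∀ i, bt (u i) y = 0) :
    ∃ x : X, ∀ i, ac x (u i) = v i := by
  exact H12.witt u v hu hv h hy k

theorem wit1 {v : V} (h : Is v) : ∃ x : X, ac x (ee 0) = v := by
  exact H12.tr_Is H12.is0 h

theorem wit2 {u v : V} (h : Ot u v) : ∃ x : X, ac x (ee 0) = u ∧ ac x (ee 1) = v := by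
  exact H12.tr_Ot (by have := Ok.h3 (n := n) (F := F); omega) ot01 h

theorem wit2m {u v : V} (h : Ot u v) (hu : bt u mv = 0) (hv : bt v mv = 0) :
    ∃ x : X, ac x mv = mv ∧ ac x (ee 0) = u ∧ ac x (ee 1) = v := by
  have h3 := Ok.h3 (n := n) (F := F)
  by_cases k : ∃ i : I, i = i.rev
  · obtain ⟨i, hi⟩ := k
    have hi' := congrArg Fin.val hi
    rw [Fin.val_rev] at hi'
    have e : (mv : V) = ee i := funext fun j => by
      simp only [mv, ee, Pi.single_apply, Fin.ext_iff, Fin.val_rev]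
      exact if_congr (by omega) rfl rfl
    have m1 : bt (mv : V) mv = 1 := by rw [e, H12.bt_ee, if_pos hi]
    have m0 : ∀ j : I, j.1 ≤ 1 → bt (ee j : V) mv = 0 := fun j hj => by
      rw [e, H12.bt_ee, if_neg]
      simp only [Fin.ext_iff, Fin.val_rev]
      omega
    have a0 := m0 0 (by simp)
    have a1 := m0 1 (by simp)
    have o := ot01 (n := n) (F := F)
    obtain ⟨x, hx⟩ := H12.witt' ![mv, ee 0, ee 1] ![mv, u, v] (li_cons o.2.2.2 a0 a1 (m1 ▸ one_ne_zero))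
      (li_cons h.2.2.2 hu hv (m1 ▸ one_ne_zero)) (fun a b => by
        fin_cases a <;> fin_cases b <;>
          simp [a0, a1, hu, hv, H12.bt_sw a0, H12.bt_sw a1, H12.bt_sw hu, H12.bt_sw hv, o.1, o.2.1, o.2.2.1,
            H12.bt_sw o.2.2.1, h.1, h.2.1, h.2.2.1, H12.bt_sw h.2.2.1])
      (by rw [Fintype.card_fin]; omega)
    exact ⟨x, hx 0, hx 1, hx 2⟩
  · obtain ⟨x, hx⟩ := wit2 h
    have e : (mv : V) = 0 := funext fun j => if_neg fun c => k ⟨j, c⟩
    exact ⟨x, by rw [e, H12.ac_zero], hx⟩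

theorem wit3 {u v w : V} (h : Ot3 u v w) : ∃ (x : X) (a : F), ac x (ee 0) = u ∧ ac x (ee 1) = v ∧ ac x (a • ee 2) = w := by
  obtain ⟨h1, h2, h3, h4, h5, h6, h7⟩ := h
  have li : LinearIndependent F ![w, u, v] := by
    convert h7.comp ![2, 0, 1] (by decide) using 1
    ext1 i
    fin_cases i <;> rfl
  obtain ⟨_, -, l, c, -, hl⟩ := H12.witt_ti ![w, u, v] li fun a b => by
    fin_cases a <;> fin_cases b <;> simp [h1, h2, h3, h4, h5, h6, H12.bt_sw h4, H12.bt_sw h5, H12.bt_sw h6]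
  obtain ⟨π, p, p0, p1, p2⟩ := ex_pm3 (i := (0 : I)) (j := 1) (l := 2) (i' := 1) (j' := 2) (l' := 0)
    (sh_lt F l0 l1 (by decide : 0 ≠ 1)) (sh_lt F l1 l2 (by decide : 1 ≠ 2)) (sh_lt F l0 l2 (by decide : 0 ≠ 2))
    (sh_lt F l1 l2 (by decide : 1 ≠ 2)) (sh_lt F l2 l0 (by decide : 2 ≠ 0)) (sh_lt F l1 l0 (by decide : 1 ≠ 0))
  have m0 : ac l w = c • ee 0 := hl 0
  have m1 : ac l u = ee 1 := (hl 1).trans (one_smul _ _)
  have m2 : ac l v = ee 2 := (hl 2).trans (one_smul _ _)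
  refine ⟨l⁻¹ * pmU π, c, ?_, ?_, ?_⟩
  · rw [H12.ac_mul, ac_pmU p, p0, ← m1, H12.ac_inv]
  · rw [H12.ac_mul, ac_pmU p, p1, ← m2, H12.ac_inv]
  · rw [H12.ac_mul, H12.ac_smul, ac_pmU p, p2, ← m0, H12.ac_inv]

theorem ext3 {u v : V} (h : Ot u v) : ∃ w, Ot3 u v w := by
  obtain ⟨x, rfl, rfl⟩ := wit2 h
  have k := fun i j hi hj => (H12.bt_ac x _ _).trans (ee0 (i := i) (j := j) hi hj)
  refine ⟨ac x (ee 2), k _ _ l0 l0, k _ _ l1 l1, k _ _ l2 l2, k _ _ l0 l1, k _ _ l0 l2, k _ _ l1 l2, ?_⟩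
  convert H12.li_ac x li3 using 1
  ext1 i
  fin_cases i <;> rfl

theorem ext2 {u : V} (h : Is u) : ∃ v, Ot u v := by
  obtain ⟨x, rfl⟩ := wit1 h
  exact ⟨_, H12.Ot.ac ot01 x⟩

theorem hyp {u v : V} (hu : Is u) (hv : Is v) (h : bt u v = 1) : ∃ x : X, ac x (ee 0) = u ∧ ac x (ee iL) = v := by
  have h3 := Ok.h3 (n := n) (F := F)
  have a : bt (ee 0 : V) (ee 0) = 0 := ee0 (by simp) (by simp)
  have b : bt (ee iL : V) (ee iL) = 0 := by
    rw [H12.bt_ee, if_neg]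
    simp [Fin.ext_iff]
  have c : bt (ee 0 : V) (ee iL) = 1 := by rw [H12.bt_ee, if_pos (Fin.rev_last _).symm]
  exact H12.tr_two (by omega) (H76.hyp_li a b (c ▸ one_ne_zero)) (H76.hyp_li hu.1 hv.1 (h ▸ one_ne_zero))
    (hu.1.trans a.symm) (hv.1.trans b.symm) (h.trans c.symm)

theorem witn {u v : V} (hu : bt u u = 1) (hv : bt v v = 1) : ∃ x : X, ac x u = v := by
  refine H76.tr1 ?_ ?_ (hv.trans hu.symm)
  · rintro rfl
    exact zero_ne_one ((H12.bt_zero_l _).symm.trans hu)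
  · rintro rfl
    exact zero_ne_one ((H12.bt_zero_l _).symm.trans hv)

theorem exD2 {a b : F} (ha : a ≠ 0) (hb : b ≠ 0) : ∃ d : V, Dd d ∧ d 0 = a ∧ d 1 = b := by
  obtain ⟨d, h1, h2, h3, -⟩ := exD (n := n) ha hb ((map_ne_zero (σ : RingAut F)).2 (mul_ne_zero ha hb)) one_ne_zero
    (Or.inr rfl) (by rw [mul_one, map_mul, H12.ss, mul_comm])
  exact ⟨d, h1, h2, h3⟩

theorem exD3 {a b c : F} (ha : a ≠ 0) (hb : b ≠ 0) (hc : c ≠ 0) (h : 4 ≤ n ∨ a * b * c ∈ K0 F) :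
    ∃ d : V, Dd d ∧ d 0 = a ∧ d 1 = b ∧ d 2 = c := by
  have k := mul_ne_zero (mul_ne_zero ha hb) hc
  rcases h with h | h
  · exact exD ha hb hc (inv_ne_zero k) (Or.inl h) (by rw [mul_inv_cancel₀ k, map_one])
  · exact exD ha hb hc one_ne_zero (Or.inr rfl) (by rw [mul_one]; exact h)

theorem lev {A : Matrix (Fin 3) (Fin 3) F} (h : A.det = 1) : ∃ x : X,
    (∀ i : Fin 3, ac x (ee (Fin.castLE (by omega) i)) = ∑ j : Fin 3, A j i • ee (Fin.castLE (by omega) j)) ∧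
    ∀ i : I, 3 ≤ i.1 → 3 ≤ i.rev.1 → ac x (ee i) = ee i := by
  have h3 := Ok.h3 (n := n) (F := F)
  have u : IsUnit A.det := h ▸ isUnit_one
  have v : (mk (bl n A * H12.ad (bl n A⁻¹)) : X).1.1 = bl n A * H12.ad (bl n A⁻¹) := by
    refine H12.mk_val ?_ ?_
    · rw [det_mul, H12.ad_det, bl_det, bl_det, det_nonsing_inv, h]; simp
    · rw [H12.ad_mul, H12.ad_ad, mul_assoc, ← mul_assoc (H12.ad _), bl_comm, mul_assoc, ← H12.ad_mul, ← mul_assoc, bl_mul,
        nonsing_inv_mul _ u, bl_one, H12.ad_one, mul_one]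
  have w : ∀ i : I, 3 ≤ i.rev.1 → ac (mk (bl n A * H12.ad (bl n A⁻¹)) : X) (ee i) = bl n A *ᵥ ee i := fun i hi => by
    rw [ac, v, ← mulVec_mulVec]
    congr 1
    rw [bl, H12.ad_add, H12.ad_one, add_mulVec, one_mulVec, add_eq_left, ee, mulVec_single_one]
    ext k
    rw [col_apply, H12.ad_apply, supp _ (Or.inl hi), map_zero, Pi.zero_apply]
  refine ⟨mk (bl n A * H12.ad (bl n A⁻¹)), fun i => ?_, fun i h1 h2 => ?_⟩
  · rw [w _ (by rw [Fin.val_rev, Fin.val_castLE]; omega)]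
    ext k
    rw [ee, mulVec_single_one, col_apply, Finset.sum_apply]
    have : (1 : Mx) k (Fin.castLE (by omega) i) =
        (EE F n * (1 : Matrix (Fin 3) (Fin 3) F) * (EE F n)ᵀ) k (Fin.castLE (by omega) i) := by
      simp [EE, Matrix.mul_apply, Matrix.one_apply]
    rw [bl, Matrix.add_apply, this, ← Matrix.add_apply, ← Matrix.add_mul, ← Matrix.mul_add, add_sub_cancel]
    simp [EE, Matrix.mul_apply, ee, Pi.single_apply, mul_comm]
  · rw [w _ h2, bl, add_mulVec, one_mulVec, add_eq_left, ee, mulVec_single_one]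
    ext k
    rw [col_apply, supp _ (Or.inr h1), Pi.zero_apply]

end UMS
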