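import Cfsg.Agent.Lib.UMS.B1b
import Cfsg.Agent.Lib.UMS.WIT

set_option autoImplicit false
set_option linter.unusedSectionVars false

namespace UMS

open Subgroup H69 Cfsg Matrix U4S
open LMS (XX GX iL kk MM au tw Sg)
open scoped MatrixGroups commutatorElement

universe u
variable {G : Type*} [Group G] [Finite G] {F : Type u} [Field F] [CharP F 2] [Fintype F] [Hs F] {n : ℕ} [Ok n F]
  {ι ψ χ : XU n F →* G} {t : G} {E : Subgroup G}

local notation "X" => XU n F
local notation "V" => VV n F
local notation "𝐪" => Nat.card (K0 F)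
local notation "I" => Fin (n + 3)
local notation "Mx" => Matrix (Fin (n + 3)) (Fin (n + 3)) F

theorem five {u v : V} (hu : bt u u = 0) (hv : bt v v = 0) (h : bt u v = 0) {ω : F} (hω : ω + σ ω = 1) (c : K0 F) :
    tc u c * tc v c * tc (u + v) c * tc (u + ω • v) c * tc (u + (1 + ω) • v) c = 1 := by
  have h3 : bt v u = 0 := by rw [bt_symm, h, map_zero]
  have b : ∀ a a' : F, bt (u + a • v) (u + a' • v) = 0 := fun a a' => by
    simp only [bt_add_left, bt_add_right, bt_smul_left, bt_smul_right, hu, hv, h, h3, mul_zero, add_zero]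
  have b1 := b 1 1
  rw [one_smul] at b1
  refine ac_ext fun x => ?_
  simp only [ac_mul]
  rw [ac_tc (b _ _), ac_tc (b _ _), ac_tc b1, ac_tc hv, ac_tc hu, ac_one]
  simp only [bt_add_left, bt_add_right, bt_smul_left, bt_smul_right, hu, hv, h, h3, mul_zero, add_zero, map_add,
    map_one]
  have hs : σ ω = ω + 1 := by rw [← hω]; linear_combination (exp := 1) (-ω) * (CharTwo.two_eq_zero (R := F))
  rw [hs]
  have two : (2 : F) = 0 := CharTwo.two_eq_zero
  ext i
  simp only [Pi.add_apply, Pi.smul_apply, smul_eq_mul]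
  generalize bt x u = p; generalize bt x v = r
  linear_combination ((c : F) * (2 * p * u i + (ω + 2) * r * u i + (ω + 1) * p * v i +
    (ω ^ 2 + 2 * ω + 2) * r * v i)) * two

theorem ex_n (hn : Even n) {a b c d : V} (ha : bt a a = 0) (hb : bt b b = 0) (hc : bt c c = 0) (hd : bt d d = 0) :
    ∃ y : V, bt y y = 1 ∧ bt a y = 0 ∧ bt b y = 0 ∧ bt c y = 0 ∧ bt d y = 0 := by
  have h3 := Ok.h3 (n := n) (F := F)
  obtain ⟨m, e⟩ := hn
  classical
  let S : Submodule F V := Submodule.span F (({a, b, c, d} : Finset V) : Set V)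
  have d4 : Module.finrank F S ≤ 4 := (finrank_span_finset_le_card _).trans Finset.card_le_four
  obtain ⟨y, hy, y0⟩ : ∃ y ∈ H12.pp S, bt y y ≠ 0 := by
    by_contra q
    push Not at q
    have r1 := H12.rk_pp S
    have r2 := H12.ti_rk q
    have : S ≤ H12.pp S := Submodule.span_le.2 fun u hu => by
      have uu : bt u u = 0 := by
        simp only [Finset.coe_insert, Finset.coe_singleton, Set.mem_insert_iff, Set.mem_singleton_iff] at hu
        rcases hu with rfl | rfl | rfl | rfl <;> assumption
      by_contra nu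
      have l1 := Submodule.finrank_lt_finrank_of_lt (show H12.pp S < H12.pp S ⊔ Submodule.span F {u} from
        lt_of_le_of_ne le_sup_left fun e => nu (e.ge (Submodule.mem_sup_right (Submodule.mem_span_singleton_self u))))
      have l2 := H12.ti_rk (W := H12.pp S ⊔ Submodule.span F {u}) fun x hx => by
        obtain ⟨z, hz, w, hw, rfl⟩ := Submodule.mem_sup.1 hx
        obtain ⟨s, rfl⟩ := Submodule.mem_span_singleton.1 hw
        have z1 := H12.mem_pp.1 hz u (Submodule.subset_span hu)
        simp only [H12.bt_add_l, H12.bt_add_r, H12.bt_smul_l, H12.bt_smul_r, q z hz, z1, H12.bt_sw z1, uu, mul_zero,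
          add_zero]
      omega
    have := Submodule.finrank_mono this
    omega
  obtain ⟨s, hs⟩ := nm_surj (⟨bt y y, (H12.bt_symm y y).symm⟩ : K0 F)⁻¹
  have y1 : bt (s • y) (s • y) = 1 := by
    have : s * σ s = (bt y y)⁻¹ := congrArg Subtype.val hs
    rw [H12.bt_smul_l, H12.bt_smul_r, ← mul_assoc, this, inv_mul_cancel₀ y0]
  have k : ∀ u ∈ ({a, b, c, d} : Finset V), bt u (s • y) = 0 := fun u hu => by
    rw [H12.bt_smul_r, H12.bt_sw (H12.mem_pp.1 hy u (Submodule.subset_span hu)), mul_zero]
  exact ⟨_, y1, k a (by simp), k b (by simp), k c (by simp), k d (by simp)⟩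

theorem ex_r (α : K0 F) : ∃ r : F, r * r + r = α ∧ (σ r = r ∨ σ r = r + 1) := by
  obtain ⟨r, hr⟩ : ∃ r : F, r * r + r = α := by
    by_contra hn
    push Not at hn
    obtain ⟨ω, hω⟩ := ex_om (F := F)
    have two : ∀ a : F, a + a = 0 := CharTwo.add_self_eq_zero
    have k0 : ∀ x : K0 F, σ (x : F) = x := fun x => mem_K0.1 x.2
    -- the maps `x ↦ x² + x` and `x ↦ (x + ω)² + (x + ω)` on the fixed field
    let p : F → F := fun r => r * r + r
    have pm : ∀ r : F, (σ r = r ∨ σ r = r + 1) → p r ∈ K0 F := fun r h => mem_K0.2 (by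
      simp only [p, map_add, map_mul]
      rcases h with h | h <;> rw [h]
      linear_combination two r + two 1)
    have h1 : ∀ x : K0 F, σ ((x : F) + ω) = x + ω + 1 := fun x => by
      rw [map_add, k0]; linear_combination hω - two ω
    let f : K0 F × Bool → F := fun x => if x.2 then x.1 + ω else x.1
    have fm : ∀ x, p (f x) ∈ K0 F := fun x => pm _ (by
      rcases x with ⟨x, _ | _⟩
      · exact Or.inl (k0 x)
      · exact Or.inr (h1 x))
    have fi : Function.Injective f := by
      rintro ⟨x, _ | _⟩ ⟨y, _ | _⟩ h <;> simp only [f, if_true, if_false, Bool.false_eq_true] at h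
      · rw [Subtype.ext h]
      · have := congrArg σ h
        rw [h1, k0, ← h] at this
        exact absurd (by linear_combination -this) (one_ne_zero (α := F))
      · have := congrArg σ h
        rw [h1, k0, h] at this
        exact absurd (by linear_combination this) (one_ne_zero (α := F))
      · rw [Subtype.ext (add_right_cancel h)]
    classical
    let _ : Fintype (K0 F) := Fintype.ofFinite _
    let g : K0 F × Bool → K0 F := fun x => ⟨p (f x), fm x⟩
    have hc := Finset.card_le_mul_card_image_of_maps_to (f := g) (s := Finset.univ) (t := Finset.univ.erase α)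
      (fun x _ => Finset.mem_erase.2 ⟨fun e => hn _ (congrArg Subtype.val e), Finset.mem_univ _⟩) 2 fun b _ => by
        rcases (Finset.univ.filter fun a => g a = b).eq_empty_or_nonempty with e | ⟨x, hx⟩
        · rw [e]; simp
        · have hx' := congrArg Subtype.val (Finset.mem_filter.1 hx).2
          refine (Finset.card_le_card_of_injOn (t := {f x, f x + 1}) f (fun y hy => ?_) fi.injOn).trans
            Finset.card_le_two
          have hy' := congrArg Subtype.val (Finset.mem_filter.1 hy).2
          have : (f y - f x) * (f y - (f x + 1)) = 0 := by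
            have e : f y * f y + f y = f x * f x + f x := hy'.trans hx'.symm
            linear_combination e - two (f x * f y) + two (f x * f x) + two (f x) - two (f y)
          simpa [sub_eq_zero] using this
    rw [Finset.card_erase_of_mem (Finset.mem_univ _), Finset.card_univ, Finset.card_univ, Fintype.card_prod,
      Fintype.card_bool] at hc
    have := Fintype.card_pos (α := K0 F)
    omega
  refine ⟨r, hr, ?_⟩
  have e : σ r * σ r + σ r = r * r + r := by rw [← map_mul, ← map_add, hr]; exact mem_K0.1 α.2
  have two : ∀ a : F, a + a = 0 := CharTwo.add_self_eq_zero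
  have : (σ r - r) * (σ r - (r + 1)) = 0 := by
    linear_combination e - two (r * σ r) + two (r * r) + two r - two (σ r)
  simpa [sub_eq_zero] using this

theorem mv_even (hn : Even n) : bt (mv : V) mv = 1 := by
  obtain ⟨p, hp⟩ := hn
  have e : (mv : V) = ee ⟨p + 1, by omega⟩ := by
    funext i
    rw [mv, ee, Pi.single_apply]
    refine if_congr ?_ rfl rfl
    simp only [Fin.ext_iff, Fin.val_rev]
    omega
  rw [e, bt_ee, ← e]
  exact if_pos (by simp only [Fin.ext_iff, Fin.val_rev]; omega)

theorem mv_odd (hn : Odd n) : (mv : V) = 0 := by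
  obtain ⟨p, hp⟩ := hn
  exact funext fun i => if_neg (by simp only [Fin.ext_iff, Fin.val_rev]; omega)

theorem PP_tr {v : V} (h : Is v) (h0 : v iL = 0) (h1 : ∀ a : F, v ≠ a • ee 0) : ∃ p ∈ PP n F, ac p (ee 1) = v := by
  have i0 : Is (ee 0 : V) := is_ee (by simp [Fin.ext_iff])
  have o : Ot (ee 0 : V) v := by
    refine ⟨i0.1, h.1, ?_, LinearIndependent.pair_iff' i0.2 |>.2 fun a e => h1 a e.symm⟩
    rw [ee_bt, Fin.rev_zero]
    exact (congrArg σ h0).trans (map_zero _)
  obtain ⟨x, e0, e1⟩ := wit2 o
  exact ⟨x, fun w hw => by rw [Set.mem_singleton_iff.1 hw]; exact e0, e1⟩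

end UMS
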