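import Cfsg.Agent.Lib.UMS.Au77

/-! Involutory outer automorphisms of `XU`: the semilinear involution and twisted commutators. -/

set_option autoImplicit false
set_option linter.unusedSectionVars false

namespace UMS.H13

open Subgroup H69 Cfsg Matrix U4S UMS.H12
open LMS (XX GX iL kk MM au tw Sg)
open scoped MatrixGroups commutatorElement

universe u
variable {F : Type u} [Field F] [CharP F 2] [Fintype F] [Hs F] {n : ℕ} [Ok n F]

local notation "X" => XU n F
local notation "V" => VV n F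

/-- `α` is induced by the semilinear involution `s` -/
structure Sm (α : X →* X) (s : V → V) : Prop where
  add : ∀ u v, s (u + v) = s u + s v
  smul : ∀ (a : F) v, s (a • v) = σ a • s v
  hb : ∀ u v, bt (s u) (s v) = bt v u
  ha : ∀ x v, ac (α x) (s v) = s (ac x v)
  ss : ∀ v, s (s v) = v

theorem σmv (M : Matrix (Fin (n + 3)) (Fin (n + 3)) F) (v : V) :
    (fun j => σ ((M *ᵥ v) j)) = M.map σ *ᵥ fun j => σ (v j) := by
  ext k; simp [mulVec, dotProduct]

theorem ex_s {α : X →* X} (o : Ou α) : ∃ s, Sm α s := by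
  obtain ⟨g, g1, h⟩ := H77.au_unit o.1
  let s : V → V := fun v => g.1 *ᵥ fun j => σ (v j)
  have add : ∀ u v, s (u + v) = s u + s v := fun u v => by
    simp only [s, ← mulVec_add]; congr 1; ext j; simp
  have smul : ∀ (a : F) v, s (a • v) = σ a • s v := fun a v => by
    simp only [s, ← mulVec_smul]; congr 1; ext j; simp
  have hb : ∀ u v, bt (s u) (s v) = bt v u := fun u v => by
    simp only [s]
    rw [bt_ad, mulVec_mulVec, g1, one_mulVec, bt_symm u v]
    simp [UMS.bt]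
  have ha : ∀ x v, ac (α x) (s v) = s (ac x v) := fun x v => by
    simp only [s, UMS.ac]
    rw [h, LMS.au_false, gc_val, fr_val, σmv, mulVec_mulVec, mulVec_mulVec, Units.inv_mul_cancel_right]
  have s2 : ∀ v, s (s v) = (g.1 * g.1.map σ) *ᵥ v := fun v => by
    simp only [s]
    rw [σmv, mulVec_mulVec]
    simp only [ss]
  obtain ⟨c, hc⟩ := H77.scal (A := g.1 * g.1.map σ) fun x => Matrix.mulVec_injective (funext fun v => by
    rw [← mulVec_mulVec, ← mulVec_mulVec v x.1.1, ← s2, ← s2]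
    change s (s (ac x v)) = ac x _
    rw [← ha, ← ha, o.2])
  have s3 : ∀ v, s (s v) = c • v := fun v => by rw [s2, hc, smul_mulVec, one_mulVec]
  have b1 : bt (ee 0 : V) (ee (0 : Fin (n + 3)).rev) = 1 := by rw [H76.bt_ee, Fin.rev_rev, if_pos rfl]
  have c1 : c * σ c = 1 := by
    have := hb (s (ee 0)) (s (ee (0 : Fin (n + 3)).rev))
    rwa [s3, s3, hb, bt_smul_l, bt_smul_r, b1, mul_one] at this
  have c2 : σ c = c := by
    have := congrArg (fun w => bt w (s (ee 0))) (s3 (s (ee (0 : Fin (n + 3)).rev)))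
    rwa [s3 (ee _), smul, bt_smul_l, bt_smul_l, hb, b1, mul_one, mul_one] at this
  have c3 : c = 1 := by
    rw [c2] at c1
    have : (c + 1) * (c + 1) = 0 := by linear_combination c1 + (c + 1) * CharTwo.two_eq_zero (R := F)
    rw [← add_left_inj 1, CharTwo.add_self_eq_zero, mul_self_eq_zero.1 this]
  exact ⟨s, add, smul, hb, ha, fun v => by rw [s3, c3, one_smul]⟩

/-- the form is linear in the first variable -/
def bl (v : V) : V →ₗ[F] F where
  toFun u := bt u v
  map_add' u u' := bt_add_l u u' v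
  map_smul' a u := bt_smul_l a u v

theorem ex_ker (a b c d : V →ₗ[F] F) (e : V) :
    ∃ v, a v = 0 ∧ b v = 0 ∧ c v = 0 ∧ d v = 0 ∧ v ∉ Submodule.span F {e} := by
  have h3 := Ok.h3 (n := n) (F := F)
  let L := (a.prod b).prod (c.prod d)
  have h1 := L.finrank_range_add_finrank_ker
  have h2 : Module.finrank F (LinearMap.range L) ≤ 4 := (Submodule.finrank_le _).trans (by simp)
  have h4 : Module.finrank F (Submodule.span F {e}) ≤ 1 := (finrank_span_le_card _).trans (by simp)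
  have h5 : Module.finrank F V = n + 3 := by simp
  obtain ⟨v, hv, ne⟩ := SetLike.not_le_iff_exists.1 fun h : LinearMap.ker L ≤ Submodule.span F {e} => by
    have := Submodule.finrank_mono h
    omega
  have hv' : ((a v, b v), (c v, d v)) = 0 := hv
  simp only [Prod.mk_eq_zero] at hv'
  exact ⟨v, hv'.1.1, hv'.1.2, hv'.2.1, hv'.2.2, ne⟩

theorem sh_add {u u' v : V} (hu : bt u u = 0) (hu' : bt u' u' = 0) (hv : bt v v = 0) (h1 : bt u u' = 0)
    (h2 : bt u v = 0) (h3 : bt u' v = 0) : sh (u + u') v = sh u v * sh u' v := by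
  have s : ∀ {a b : V}, bt a b = 0 → bt b a = 0 := fun h => by rw [bt_symm, h, map_zero]
  refine ac_ext fun w => ?_
  rw [ac_mul, ac_sh hu' hv h3, ac_sh hu hv h2,
    ac_sh (by simp only [bt_add_l, bt_add_r, hu, hu', h1, s h1, add_zero]) hv (by rw [bt_add_l, h2, h3, add_zero])]
  simp only [bt_add_l, bt_add_r, bt_smul_l, hv, h3, s h1, s h2, mul_zero, add_zero, smul_add, add_smul]
  abel

namespace Sm
variable {α : XU n F →* XU n F} {s : VV n F → VV n F} (h : Sm α s)
include h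

theorem shh {u v : V} (hu : UMS.bt u u = 0) (hv : UMS.bt v v = 0) (k : UMS.bt u v = 0) :
    α (UMS.sh u v) = UMS.sh (s u) (s v) := ac_ext fun w => by
  rw [← h.ss w, h.ha, ac_sh hu hv k, ac_sh (by rw [h.hb, hu]) (by rw [h.hb, hv])
    (by rw [h.hb, bt_symm, k, map_zero]), h.add, h.add, h.smul, h.smul, h.hb (s w), h.hb (s w), ← bt_symm, ← bt_symm]

theorem tcc {v : V} (hv : UMS.bt v v = 0) (c : K0 F) : α (UMS.tc v c) = UMS.tc (s v) c := ac_ext fun w => by
  rw [← h.ss w, h.ha, ac_tc hv, ac_tc (by rw [h.hb, hv]), h.add, h.smul, h.hb (s w), map_mul, ← bt_symm,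
    mem_K0.1 c.2]

theorem hb' (u v : V) : UMS.bt (s u) v = σ (UMS.bt u (s v)) := by
  rw [← bt_symm, ← h.hb, h.ss]

/-- the square root of the quadratic form `β(v, s v)` -/
theorem ex_l : ∃ l : V →ₗ[F] F, ∀ v, l v * l v = UMS.bt v (s v) := by
  have sy : ∀ u v, UMS.bt u (s v) = UMS.bt v (s u) := fun u v => by rw [← h.hb, h.ss]
  have inj : ∀ {a b : F}, a * a = b * b → a = b := fun {a b} e => by
    have : (a + b) * (a + b) = 0 := by linear_combination e + (a * b + b * b) * CharTwo.two_eq_zero (R := F)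
    exact CharTwo.add_eq_zero.1 (mul_self_eq_zero.1 this)
  have sur : ∀ a : F, ∃ b, b * b = a :=
    (Finite.injective_iff_surjective (f := fun b : F => b * b)).1 fun _ _ e => inj e
  choose r hr using sur
  refine ⟨⟨⟨fun v => r (UMS.bt v (s v)), fun u v => inj ?_⟩, fun a v => inj ?_⟩, fun v => hr _⟩
  · rw [hr, h.add, bt_add_l, bt_add_r, bt_add_r, sy v u]
    linear_combination -hr (UMS.bt u (s u)) - hr (UMS.bt v (s v)) +
      (UMS.bt u (s v) - r (UMS.bt u (s u)) * r (UMS.bt v (s v))) * CharTwo.two_eq_zero (R := F)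
  · simp only [RingHom.id_apply, smul_eq_mul]
    rw [hr, h.smul, bt_smul_l, bt_smul_r, H12.ss]
    linear_combination -(a * a) * hr (UMS.bt v (s v))

/-- every vector of an invariant subspace is a combination of fixed vectors of it -/
theorem dec {W : Submodule F V} (hW : ∀ v ∈ W, s v ∈ W) {v : V} (hv : v ∈ W) :
    ∃ a ∈ W, ∃ b ∈ W, s a = a ∧ s b = b ∧ ∃ c : F, v = c • a + b := by
  obtain ⟨c, hc⟩ := ex_tr (F := F)
  refine ⟨v + s v, add_mem hv (hW v hv), c • v + σ c • s v, add_mem (W.smul_mem _ hv) (W.smul_mem _ (hW v hv)),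
    by rw [h.add, h.ss, add_comm], by rw [h.add, h.smul, h.smul, h.ss, H12.ss, add_comm], σ c, ?_⟩
  ext j
  simp only [Pi.add_apply, Pi.smul_apply, smul_eq_mul]
  linear_combination -(v j) * hc - (σ c * s v j) * CharTwo.two_eq_zero (R := F)

/-- fixed isotropic vectors -/
theorem ex_fix {a b c : V} (ha : s a = a) (hb : s b = b) (hc : s c = c) (e : V) :
    ∃ v, s v = v ∧ UMS.bt v v = 0 ∧ UMS.bt v a = 0 ∧ UMS.bt v b = 0 ∧ UMS.bt v c = 0 ∧
      v ∉ Submodule.span F {e} := by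
  obtain ⟨l, hl⟩ := h.ex_l
  obtain ⟨v, h1, h2, h3, h4, h5⟩ := ex_ker l (bl a) (bl b) (bl c) e
  let W := LinearMap.ker l ⊓ (LinearMap.ker (bl a) ⊓ (LinearMap.ker (bl b) ⊓ LinearMap.ker (bl c)))
  have k : ∀ {a v : V}, s a = a → bl a v = 0 → bl a (s v) = 0 := fun {a v} ha e => by
    change UMS.bt _ _ = 0 at e ⊢
    rw [h.hb', ha, e, map_zero]
  obtain ⟨p, hp, q, hq, sp, sq, r, er⟩ := h.dec (W := W) (fun v hv => ⟨by
    have := hl (s v)
    rw [h.hb, bt_symm, ← hl, show l v = 0 from hv.1, mul_zero, map_zero] at this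
    exact mul_self_eq_zero.1 this, k ha hv.2.1, k hb hv.2.2.1, k hc hv.2.2.2⟩) (v := v) ⟨h1, h2, h3, h4⟩
  have iso : ∀ w ∈ W, s w = w → UMS.bt w w = 0 := fun w hw sw => by
    have := hl w
    rwa [sw, show l w = 0 from hw.1, mul_zero, eq_comm] at this
  by_cases m : p ∈ Submodule.span F {e}
  · exact ⟨q, sq, iso q hq sq, hq.2.1, hq.2.2.1, hq.2.2.2,
      fun m' => h5 (er ▸ add_mem (Submodule.smul_mem _ _ m) m')⟩
  · exact ⟨p, sp, iso p hp sp, hp.2.1, hp.2.2.1, hp.2.2.2, m⟩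

theorem zero : s 0 = 0 := by simpa using h.smul 0 0

/-- a fixed hyperbolic pair -/
theorem ex_hyp : ∃ e f, s e = e ∧ s f = f ∧ UMS.bt e e = 0 ∧ UMS.bt f f = 0 ∧ UMS.bt e f = 1 := by
  obtain ⟨l, hl⟩ := h.ex_l
  have iso : ∀ w, l w = 0 → s w = w → UMS.bt w w = 0 := fun w hw sw => by
    have := hl w
    rwa [sw, hw, mul_zero, eq_comm] at this
  have inv : ∀ v ∈ LinearMap.ker l, s v ∈ LinearMap.ker l := fun v hv => by
    have := hl (s v)
    rw [h.hb, bt_symm, ← hl, show l v = 0 from hv, mul_zero, map_zero] at this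
    exact mul_self_eq_zero.1 this
  by_cases k : ∃ e f, s e = e ∧ s f = f ∧ l e = 0 ∧ l f = 0 ∧ UMS.bt e f ≠ 0
  · obtain ⟨e, f, se, sf, le, lf, ne⟩ := k
    have fx : σ (UMS.bt e f) = UMS.bt e f := by rw [← bt_symm, ← h.hb, se, sf]
    refine ⟨(UMS.bt e f)⁻¹ • e, f, by rw [h.smul, map_inv₀, fx, se], sf, ?_, iso f lf sf, ?_⟩
    · rw [bt_smul_l, bt_smul_r, iso e le se, mul_zero, mul_zero]
    · rw [bt_smul_l, inv_mul_cancel₀ ne]
  push Not at k
  have o : ∀ u v, l u = 0 → l v = 0 → UMS.bt u v = 0 := fun u v hu hv => by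
    obtain ⟨p, hp, q, hq, sp, sq, r, rfl⟩ := h.dec inv (v := u) hu
    obtain ⟨p', hp', q', hq', sp', sq', r', rfl⟩ := h.dec inv (v := v) hv
    simp only [bt_add_l, bt_add_r, bt_smul_l, bt_smul_r, k _ _ sp sp' hp hp', k _ _ sp sq' hp hq',
      k _ _ sq sp' hq hp', k _ _ sq sq' hq hq', mul_zero, add_zero]
  obtain ⟨u, hu⟩ : ∃ u, ∀ v, l (v - l v • u) = 0 := by
    by_cases z : ∃ u, l u ≠ 0
    · obtain ⟨u, hu⟩ := z
      exact ⟨(l u)⁻¹ • u, fun v => by
        rw [map_sub, map_smul, map_smul, smul_eq_mul, smul_eq_mul, inv_mul_cancel₀ hu, mul_one, sub_self]⟩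
    · push Not at z
      exact ⟨0, fun v => z _⟩
  obtain ⟨v, h1, h2, -, -, h5⟩ := ex_ker l (bl u) l l 0
  refine absurd (H76.bt_nd (u := v) fun w => ?_) fun e => h5 (by rw [e]; exact zero_mem _)
  rw [← sub_add_cancel w (l w • u), bt_add_r, o _ _ h1 (hu w), bt_smul_r, show UMS.bt v u = 0 from h2, mul_zero,
    add_zero]

end Sm

theorem sh_ne {u v : V} (hu : bt u u = 0) (hv : bt v v = 0) (k : bt u v = 0) (u0 : u ≠ 0)
    (h : v ∉ Submodule.span F {u}) : (sh u v : X) ≠ 1 := fun e => by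
  obtain ⟨w, hw⟩ : ∃ w, bt w u ≠ 0 := not_forall.1 fun z => u0 (H76.bt_nd' z)
  have := ac_sh hu hv k w
  rw [e, ac_one, add_assoc, left_eq_add, add_eq_zero_iff_eq_neg'] at this
  refine h ((Submodule.smul_mem_iff _ hw).1 ?_)
  rw [this]
  exact neg_mem (Submodule.smul_mem _ _ (Submodule.mem_span_singleton_self _))

theorem isP_pair {Γ : Type*} [Group Γ] [Finite Γ] {a b : Γ} (ha : a * a = 1) (hb : b * b = 1) (p : P2 (a * b)) :
    IsPGroup 2 (closure {a, b}) := by
  have hn : zpowers a ≤ 𝐍(zpowers (a * b)) := by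
    refine zpowers_le.2 (mem_normalizer_of_cj_le ?_)
    rw [cj_zpowers, zpowers_le]
    have e2 : a * (a * b) * a⁻¹ = (a * b)⁻¹ := by
      rw [← mul_assoc, ha, one_mul, _root_.mul_inv_rev, inv_eq_of_mul_eq_one_right hb]
    rw [e2]
    exact inv_mem (mem_zpowers _)
  refine (isPGroup_sup_of_le_normalizer_right (el_zpowers ha).isP p.isP hn).to_le ?_
  rw [closure_le]
  rintro y (rfl | rfl)
  · exact mem_sup_left (mem_zpowers _)
  · have : y = a * (a * y) := by rw [← mul_assoc, ha, one_mul]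
    rw [this]
    exact mul_mem (mem_sup_left (mem_zpowers _)) (mem_sup_right (this ▸ mem_zpowers _))

/-- a short root element on fixed vectors is a twisted commutator -/
theorem Sm.tww {α : X →* X} {s : V → V} (h : Sm α s) {u v : V} (su : s u = u) (sv : s v = v) (hu : bt u u = 0)
    (hv : bt v v = 0) (k : bt u v = 0) : Tw α (sh u v) := by
  obtain ⟨c, hc⟩ := ex_tr (F := F)
  have i : ∀ a b : F, bt (a • u) (b • u) = 0 := fun a b => by rw [bt_smul_l, bt_smul_r, hu, mul_zero, mul_zero]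
  have j : ∀ a : F, bt (a • u) v = 0 := fun a => by rw [bt_smul_l, k, mul_zero]
  refine ⟨sh (c • u) v, ?_⟩
  rw [h.shh (i _ _) hv (j _), h.smul, su, sv, inv_eq_of_mul_eq_one_right (sh_sq (i _ _) hv (j _)),
    ← sh_add (i _ _) (i _ _) hv (i _ _) (j _) (j _), ← add_smul, hc, one_smul]

theorem gd_out {α : X →* X} (o : Ou α) : Gd α := by
  obtain ⟨s, h⟩ := ex_s o
  obtain ⟨e, f, se, sf, ee, ff, ef⟩ := h.ex_hyp
  obtain ⟨u, su, uu, ue, uf, -, u0⟩ := h.ex_fix se sf sf 0
  obtain ⟨v, sv, vv, ve, vf, vu, vn⟩ := h.ex_fix se sf su u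
  have sy : ∀ {a b : V}, bt a b = 0 → bt b a = 0 := fun h => by rw [bt_symm, h, map_zero]
  have a2 := sh_sq uu ff uf
  have b2 := sh_sq ee vv (sy ve)
  have y2 := sh_sq uu vv (sy vu)
  have cm : ⁅(sh u f : X), sh e v⁆ = sh u v := by
    rw [commutatorElement_def, cj_sh _ ee vv (sy ve), ac_sh uu ff uf, ac_sh uu ff uf, ef, sy ue, vf, vu, one_smul,
      zero_smul, zero_smul, add_zero, add_zero, add_zero, add_comm e u, sh_add uu ee vv ue (sy vu) (sy ve),
      mul_inv_cancel_right]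
  refine ⟨closure {sh u f, sh e v}, isP_pair a2 b2 ⟨2, ?_⟩, fun p hp => ?_, sh u v, cm ▸
    commutator_mem_commutator (subset_closure (by simp)) (subset_closure (by simp)), y2,
    sh_ne uu vv (sy vu) (fun z => u0 (by rw [z]; exact zero_mem _)) vn, h.tww su sv uu vv (sy vu)⟩
  · rw [commutatorElement_def, inv_eq_of_mul_eq_one_right a2, inv_eq_of_mul_eq_one_right b2] at cm
    rw [← y2, ← cm, show 2 ^ 2 = 4 from rfl]
    simp only [pow_succ, pow_zero, one_mul, mul_assoc]
  · refine (closure_le (α.eqLocus (MonoidHom.id _))).2 ?_ hp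
    rintro _ (rfl | rfl)
    · exact (h.shh uu ff uf).trans (by rw [su, sf]; rfl)
    · exact (h.shh ee vv (sy ve)).trans (by rw [se, sv]; rfl)

end UMS.H13
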