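import Cfsg.Agent.Lib.UMS.B1b
import Cfsg.Agent.S0780
import Cfsg.Agent.Lib.LMS.NFa
import Cfsg.Agent.Lib.Unitary.Gen

set_option autoImplicit false
set_option linter.unusedSectionVars false

namespace UMS

open Subgroup H69 Cfsg Matrix U4S
open LMS (XX GX iL kk MM au tw Sg)
open scoped MatrixGroups commutatorElement

universe u
variable {G : Type*} [Group G] [Finite G] {F : Type u} [Field F] [CharP F 2] [Fintype F] [Hs F] {n : ℕ} [Ok n F]
  {ι ψ χ : XU n F →* G} {t : G} {E : Subgroup G}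

local notation "X" => XU n F
local notation "V" => VV n F
local notation "𝐪" => Nat.card (K0 F)
local notation "I" => Fin (n + 3)
local notation "Mx" => Matrix (Fin (n + 3)) (Fin (n + 3)) F

namespace GEN

variable {d : ℕ}

/-- the adjoint of a family of vectors -/
def dag (C : Matrix I (Fin d) F) : Matrix (Fin d) I F := Matrix.of fun a i => σ (C i.rev a)

/-- the standard form -/
def hf (u v : Fin d → F) : F := ∑ a, u a * σ (v a)

theorem bt_C (C : Matrix I (Fin d) F) (u : V) (w : Fin d → F) : bt u (C *ᵥ w) = hf (dag C *ᵥ u) w := by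
  simp only [bt, hf, dag, mulVec, dotProduct, of_apply, map_sum, map_mul, Finset.mul_sum, Finset.sum_mul]
  rw [Finset.sum_comm]
  exact Finset.sum_congr rfl fun a _ => Finset.sum_congr rfl fun i _ => by ring

theorem hf_symm (u v : Fin d → F) : hf v u = σ (hf u v) := by
  simp [hf, sg_sg, mul_comm]

theorem hf_eq (u v : Fin d → F) : hermForm d F 𝐪 u v = hf u v := by simp [hermForm, hf, sg_pow]

theorem exC (s : Finset I) (hs : ∀ i ∈ s, i.rev ∈ s) : ∃ C : Matrix I (Fin s.card) F, dag C * C = 1 ∧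
    C * dag C = diagonal (fun i => if i ∈ s then 1 else 0) := by
  let e : Fin s.card ≃ s := s.equivFin.symm
  let B : Matrix I (Fin s.card) F := Matrix.of fun i a => if i = e a then 1 else 0
  have hB : ∀ a i, dag B a i = if i.rev = e a then 1 else 0 := fun a i => by simp [dag, B, apply_ite (σ : RingAut F)]
  have hΓ : ∀ a b, (dag B * B) a b = if (e b).1.rev = e a then 1 else 0 := fun a b => by
    simp [mul_apply, hB, B]
  have mB : ∀ (M : Matrix I I F) i a, (M * B) i a = M i (e a) := fun M i a => by simp [mul_apply, B]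
  have BB : B * dag B = Matrix.of fun i j => if i = j.rev ∧ i ∈ s then 1 else 0 := by
    ext i j
    simp only [mul_apply, hB, B, of_apply]
    by_cases h : i ∈ s
    · rw [Finset.sum_eq_single (e.symm ⟨i, h⟩) (fun b _ hb => by
        rw [if_neg (fun k => hb (by rw [Equiv.eq_symm_apply]; exact Subtype.ext k.symm)), zero_mul]) (by simp)]
      simp [h, eq_comm]
    · rw [if_neg (fun k => h k.2)]
      exact Finset.sum_eq_zero fun a _ => by rw [if_neg (fun k : i = e a => h (k ▸ (e a).2)), zero_mul]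
  have P : B * dag B * (B * dag B) = diagonal (fun i => if i ∈ s then 1 else 0) := by
    ext i j
    rw [BB, mul_apply, Finset.sum_eq_single i.rev (fun b _ hb => by
      rw [of_apply, if_neg (fun k => hb (by rw [k.1, Fin.rev_rev])), zero_mul]) (by simp), diagonal_apply]
    by_cases h : i ∈ s
    · simp [h, hs i h]
    · simp [h]
  have Γ2 : dag B * B * (dag B * B) = 1 := by
    rw [Matrix.mul_assoc, ← Matrix.mul_assoc B]
    ext a b
    rw [mul_apply, Finset.sum_eq_single (e a).1.rev (fun i _ hi => by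
      rw [hB, if_neg (fun k => hi (by rw [← k, Fin.rev_rev])), zero_mul]) (by simp), hB, mB, BB, one_apply]
    simp [hs _ (e a).2, Subtype.val_inj]
  obtain ⟨D, hD⟩ := LMS.her (Hs.sg (F := F)) (⟨dag B * B, dag B * B, Γ2, Γ2⟩ : GL (Fin s.card) F) (by
    ext a b
    change σ ((dag B * B) b a) = (dag B * B) a b
    rw [hΓ, hΓ, apply_ite (σ : RingAut F), map_one, map_zero]
    exact if_congr (Fin.rev_eq_iff.trans eq_comm |>.trans (by rw [eq_comm, eq_comm (a := (e a).1)])) rfl rfl)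
  change dag B * B = D.1 * D.1ᵀ.map σ at hD
  have dD : dag (B * D.1) = D.1ᵀ.map σ * dag B := by
    ext a i
    simp [dag, mul_apply, mul_comm]
  refine ⟨B * D.1, ?_, ?_⟩
  · rw [dD, Matrix.mul_assoc, ← Matrix.mul_assoc (dag B), ← Matrix.mul_assoc, mul_eq_one_comm, ← Matrix.mul_assoc, ← hD, Γ2]
  · rw [dD, Matrix.mul_assoc, ← Matrix.mul_assoc D.1, ← hD, ← P]
    simp only [Matrix.mul_assoc]

variable {C : Matrix (Fin (n + 3)) (Fin d) F}

/-- the block matrix -/
def bl (C : Matrix I (Fin d) F) (A : Matrix (Fin d) (Fin d) F) : Mx := 1 + C * ((A - 1) * dag C)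

theorem bl_det (h : dag C * C = 1) (A : Matrix (Fin d) (Fin d) F) : (bl C A).det = A.det := by
  rw [bl, det_one_add_mul_comm, Matrix.mul_assoc, h, Matrix.mul_one, add_sub_cancel]

theorem bl_vec (A : Matrix (Fin d) (Fin d) F) (v : V) :
    bl C A *ᵥ v = v + C *ᵥ (A *ᵥ (dag C *ᵥ v) - dag C *ᵥ v) := by
  rw [bl, add_mulVec, one_mulVec, ← mulVec_mulVec, ← mulVec_mulVec, sub_mulVec, one_mulVec]

theorem dC (h : dag C * C = 1) (w : Fin d → F) : dag C *ᵥ (C *ᵥ w) = w := by rw [mulVec_mulVec, h, one_mulVec]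

theorem bl_mul (h : dag C * C = 1) (A B : Matrix (Fin d) (Fin d) F) : bl C (A * B) = bl C A * bl C B :=
  Matrix.ext_of_mulVec_single fun i => by
    generalize (Pi.single i 1 : V) = v
    simp only [← mulVec_mulVec, bl_vec, mulVec_add, mulVec_sub, dC h]
    abel

theorem hf_add (u v w : Fin d → F) : hf (u + v) w = hf u w + hf v w := by simp [hf, add_mul, Finset.sum_add_distrib]
theorem hf_sub (u v w : Fin d → F) : hf (u - v) w = hf u w - hf v w := by simp [hf, sub_mul]
theorem hf_sub' (u v w : Fin d → F) : hf w (u - v) = hf w u - hf w v := by simp [hf, mul_sub]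

theorem C_bt (w : Fin d → F) (u : V) : bt (C *ᵥ w) u = hf w (dag C *ᵥ u) := by rw [bt_symm, bt_C, ← hf_symm]

theorem bl_iso (h : dag C * C = 1) {A : Matrix (Fin d) (Fin d) F} (k : ∀ u v, hf (A *ᵥ u) (A *ᵥ v) = hf u v) (u v : V) :
    bt (bl C A *ᵥ u) (bl C A *ᵥ v) = bt u v := by
  rw [bl_vec, bl_vec, bt_add_left, bt_add_right, bt_add_right, bt_C, C_bt, bt_C, dC h]
  simp only [hf_sub, hf_sub', k]
  ring

end GEN

open GEN

theorem gen (s : Finset I) (hs : ∀ i ∈ s, i.rev ∈ s) (h4 : 4 ≤ s.card) {x : X} (h : ∀ j, j ∉ s → ac x (ee j) = ee j) :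
    x ∈ closure {y : X | ∃ v c, bt v v = 0 ∧ (∀ j, j ∉ s → v j = 0) ∧ y = tc v c} := by
  have : H11.U.IsSq F 𝐪 := ⟨by rw [← Nat.card_eq_fintype_card, card_F]⟩
  obtain ⟨C, h1, h2⟩ := exC (F := F) s hs
  have pr : ∀ (v : V) i, (C *ᵥ (dag C *ᵥ v)) i = if i ∈ s then v i else 0 := fun v i => by
    rw [mulVec_mulVec, h2, mulVec_diagonal, ite_mul, one_mul, zero_mul]
  let Φ : SU s.card F 𝐪 →* X := MonoidHom.mk' (fun A => ⟨⟨bl C A.1.1, (bl_det h1 _).trans A.1.2⟩,
    mem_XU.2 (bl_iso h1 fun u v => by rw [← hf_eq, ← hf_eq]; exact A.2 u v)⟩)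
    fun A B => Subtype.ext (Subtype.ext (bl_mul h1 _ _))
  have aΦ : ∀ A v, ac (Φ A) v = v + C *ᵥ (A.1.1 *ᵥ (dag C *ᵥ v) - dag C *ᵥ v) := fun A v => bl_vec _ _
  have top := H11.U.eq_top_of_tv_mem (Or.inl (by omega)) (H := (closure
      {y : X | ∃ v c, bt v v = 0 ∧ (∀ j, j ∉ s → v j = 0) ∧ y = tc v c}).comap Φ) fun w _ hw c hc => by
    have c0 : c ∈ K0 F := by rw [mem_K0 (F := F), sg_pow, ← H11.U.cj_apply, hc, CharTwo.neg_eq]
    have i0 : bt (C *ᵥ w) (C *ᵥ w) = 0 := by rw [bt_C, dC h1, ← hf_eq, hw]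
    refine subset_closure ⟨C *ᵥ w, ⟨c, c0⟩, i0, fun j hj => by rw [← dC h1 w, pr, if_neg hj], ac_ext fun v => ?_⟩
    change ac (Φ _) v = _
    rw [aΦ, H11.U.tv_mulVec hw hc, add_sub_cancel_left, mulVec_smul, ac_tc i0, bt_C, hf_eq]
  have im : ∀ v : V, C *ᵥ (dag C *ᵥ (ac x v - v)) = ac x v - v := fun v => funext fun i => by
    rw [pr]
    split_ifs with k
    · rfl
    · have := bt_ac x v (ee i.rev)
      rw [h _ fun m => k (by simpa using hs _ m), bt_ee, bt_ee, Fin.rev_rev] at this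
      rw [Pi.sub_apply, this, sub_self]
  have xv : ∀ v : V, (x.1.1 - 1) *ᵥ v = ac x v - v := fun v => by rw [sub_mulVec, one_mulVec, ac]
  have ke : (x.1.1 - 1) * (C * dag C) = x.1.1 - 1 := by
    ext i j
    rw [h2, mul_diagonal]
    split_ifs with k
    · rw [mul_one]
    · have := congrFun (xv (ee j)) i
      rw [h j k, sub_self, ee, mulVec_single_one] at this
      rw [mul_zero]; exact this.symm
  have e : bl C (1 + dag C * (x.1.1 - 1) * C) = x.1.1 := Matrix.ext_of_mulVec_single fun i => by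
    generalize (Pi.single i 1 : V) = v
    rw [bl_vec, add_mulVec, one_mulVec, add_sub_cancel_left, mulVec_mulVec (M := _ * _ * _), Matrix.mul_assoc, Matrix.mul_assoc, ke,
      ← mulVec_mulVec, xv, im, add_sub_cancel, ac]
  have cA : ∀ w, C *ᵥ ((1 + dag C * (x.1.1 - 1) * C) *ᵥ w) = ac x (C *ᵥ w) := fun w => by
    rw [ac, ← e, bl_vec, e, dC h1, mulVec_sub, add_sub_cancel]
  have m : (H11.U.toSU (1 + dag C * (x.1.1 - 1) * C) (fun u v => by
      rw [hf_eq, hf_eq, ← dC h1 (_ *ᵥ u), ← bt_C, cA, cA, bt_ac, bt_C, dC h1])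
      (by rw [← bl_det h1, e, x.1.2]) : SU s.card F 𝐪) ∈ (⊤ : Subgroup _) := mem_top _
  rw [← top, mem_comap] at m
  convert m using 1
  exact Subtype.ext (Subtype.ext e.symm)

end UMS
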