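import Cfsg.Agent.Lib.UMS.GD13

/-! Elementary abelian subgroups fixed by an involutory outer automorphism of `XU`. -/

set_option autoImplicit false
set_option linter.unusedSectionVars false

namespace UMS.H13

open Subgroup H69 Cfsg Matrix U4S UMS.H12
open LMS (XX GX iL kk MM au tw Sg)
open scoped MatrixGroups commutatorElement

universe u
variable {F : Type u} [Field F] [CharP F 2] [Fintype F] [Hs F] {n : ℕ} [Ok n F]
variable {α : XU n F →* XU n F} {s : VV n F → VV n F}

local notation "X" => XU n F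
local notation "V" => VV n F
local notation "Mx" => Matrix (Fin (n + 3)) (Fin (n + 3)) F

/-- a maximal totally isotropic subspace with a fixed basis -/
theorem ex_ti (h : Sm α s) (j : ℕ) (hj : 2 * j ≤ n + 3) : ∃ w : Fin j → V, LinearIndependent F w ∧
    (∀ i, s (w i) = w i) ∧ ∀ i i', bt (w i) (w i') = 0 := by
  induction j with
  | zero => exact ⟨Fin.elim0, linearIndependent_empty_type, fun i => i.elim0, fun i => i.elim0⟩
  | succ j ih =>
    obtain ⟨w, w1, w2, w3⟩ := ih (by omega)
    obtain ⟨l, hl⟩ := h.ex_l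
    let L := l.prod (LinearMap.pi fun i => bl (w i))
    have h1 := L.finrank_range_add_finrank_ker
    have h2 : Module.finrank F (LinearMap.range L) ≤ 1 + j := (Submodule.finrank_le _).trans (by simp)
    have h4 : Module.finrank F (Submodule.span F (Set.range w)) ≤ j :=
      (finrank_range_le_card w).trans (by simp)
    have h5 : Module.finrank F V = n + 3 := by simp
    obtain ⟨v, hv, ne⟩ := SetLike.not_le_iff_exists.1
      fun h : LinearMap.ker L ≤ Submodule.span F (Set.range w) => by
        have := Submodule.finrank_mono h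
        omega
    have mem : ∀ v, v ∈ LinearMap.ker L ↔ l v = 0 ∧ ∀ i, bt v (w i) = 0 := fun v =>
      (show _ ↔ (l v, fun i => bt v (w i)) = 0 from Iff.rfl).trans (by rw [Prod.mk_eq_zero, funext_iff]; rfl)
    obtain ⟨p, hp, q, hq, sp, sq, r, er⟩ := h.dec (W := LinearMap.ker L) (fun v hv => (mem _).2 ⟨by
      have := hl (s v)
      rw [h.hb, bt_symm, ← hl, ((mem v).1 hv).1, mul_zero, map_zero] at this
      exact mul_self_eq_zero.1 this, fun i => by rw [h.hb', w2, ((mem v).1 hv).2, map_zero]⟩) hv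
    obtain ⟨u, hu, su, nu⟩ : ∃ u ∈ LinearMap.ker L, s u = u ∧ u ∉ Submodule.span F (Set.range w) := by
      by_cases m : p ∈ Submodule.span F (Set.range w)
      · exact ⟨q, hq, sq, fun m' => ne (er ▸ add_mem (Submodule.smul_mem _ _ m) m')⟩
      · exact ⟨p, hp, sp, m⟩
    obtain ⟨u1, u2⟩ := (mem u).1 hu
    refine ⟨Fin.cons u w, w1.finCons nu, fun i => ?_, fun i i' => ?_⟩
    · refine Fin.cases ?_ (fun i => ?_) i
      exacts [su, w2 i]
    · refine Fin.cases ?_ (fun i => ?_) i <;> refine Fin.cases ?_ (fun i' => ?_) i'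
      · have := hl u
        rwa [su, u1, mul_zero, eq_comm] at this
      · exact u2 i'
      · exact (bt_symm u (w i)).trans (by rw [u2, map_zero])
      · exact w3 i i'

theorem bt_sum_l {κ : Type*} (T : Finset κ) (f : κ → V) (v : V) : bt (∑ i ∈ T, f i) v = ∑ i ∈ T, bt (f i) v :=
  map_sum (bl v) f T

theorem bt_sum_r {κ : Type*} (T : Finset κ) (f : κ → V) (v : V) : bt v (∑ i ∈ T, f i) = ∑ i ∈ T, bt v (f i) := by
  rw [bt_symm, bt_sum_l, map_sum]
  exact Finset.sum_congr rfl fun i _ => (bt_symm _ _).symm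

/-- the element of `XU` with a given hermitian matrix on a totally isotropic family -/
theorem ex_el {k : ℕ} {w : Fin k → V} (w3 : ∀ i i', bt (w i) (w i') = 0) (a : Fin k → Fin k → F)
    (ha : ∀ i j, σ (a i j) = a j i) : ∃ x : X, ∀ v, ac x v = v + ∑ i, (∑ j, a i j * bt v (w j)) • w i := by
  let N : Mx := ∑ i, ∑ j, a i j • hm (w i) (w j)
  have hN : ∀ v, N *ᵥ v = ∑ i, (∑ j, a i j * bt v (w j)) • w i := fun v => by
    simp only [N, sum_mulVec, smul_mulVec, hm_mulVec, smul_smul, Finset.sum_smul]
  have NN : N * N = 0 := Matrix.mulVec_injective (funext fun v => by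
    rw [← mulVec_mulVec, hN, zero_mulVec]
    simp only [hN, bt_sum_l, bt_smul_l, w3, mul_zero, Finset.sum_const_zero, zero_smul])
  have aN : ad N = N := by
    have z : ad (0 : Mx) = 0 := by simpa using ad_smul (n := n) (0 : F) 0
    let A : Mx →+ Mx := ⟨⟨ad, z⟩, ad_add⟩
    have : ad N = ∑ i, ∑ j, ad (a i j • hm (w i) (w j)) := by
      change A N = _
      simp only [N, map_sum]; rfl
    rw [this, Finset.sum_comm]
    simp only [ad_smul, ad_hm, ha, N]
  have sq : (1 + N) * (1 + N) = 1 := by
    rw [mul_add, add_mul, add_mul, NN, mul_one, mul_one, one_mul, add_zero, add_assoc, mm, add_zero]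
  have d : (1 + N).det = 1 := by
    have := congrArg det sq
    rw [det_mul, det_one] at this
    have e : ((1 + N).det + 1) * ((1 + N).det + 1) = 0 := by
      linear_combination this + ((1 + N).det + 1) * CharTwo.two_eq_zero (R := F)
    rw [← add_left_inj 1, CharTwo.add_self_eq_zero, mul_self_eq_zero.1 e]
  refine ⟨⟨⟨1 + N, d⟩, mem_XU.2 (by change ad (1 + N) * (1 + N) = 1; rw [ad_add, ad_one, aN, sq])⟩, fun v => ?_⟩
  change (1 + N) *ᵥ v = _
  rw [add_mulVec, one_mulVec, hN]

theorem hf (o : Ou α) : ∃ B : Subgroup X, El B ∧ (∀ b ∈ B, α b = b) ∧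
    Nat.card (K0 F) ^ (kk n * kk n + kk n) ≤ Nat.card B ^ 2 := by
  obtain ⟨s, h⟩ := ex_s o
  obtain ⟨w, w1, w2, w3⟩ := ex_ti h (kk n) (by unfold kk; omega)
  let W := Submodule.span F (Set.range w)
  let B : Subgroup X :=
    { carrier := {x | α x = x ∧ (∀ v, ac x v - v ∈ W) ∧ ∀ u ∈ W, ac x u = u}
      one_mem' := ⟨map_one _, fun v => by rw [ac_one, sub_self]; exact zero_mem _, fun u _ => ac_one u⟩
      mul_mem' := fun {x y} hx hy => ⟨by rw [map_mul, hx.1, hy.1], fun v => by
        rw [ac_mul, ← sub_add_sub_cancel _ (ac y v)]; exact add_mem (hx.2.1 _) (hy.2.1 _),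
        fun u hu => by rw [ac_mul, hy.2.2 u hu, hx.2.2 u hu]⟩
      inv_mem' := fun {x} hx => ⟨by rw [map_inv, hx.1], fun v => by
        have := neg_mem (hx.2.1 (ac x⁻¹ v))
        rwa [ac_inv', neg_sub] at this, fun u hu => by
        conv_lhs => rw [← hx.2.2 u hu, ac_inv]⟩ }
  refine ⟨B, fun x hx => ac_ext fun v => ?_, fun b hb => hb.1, ?_⟩
  · have := hx.2.2 _ (hx.2.1 v)
    rw [ac_mul, ac_one, ← sub_add_cancel (ac x v) v, ac_add, this]
    ext j
    simp only [Pi.add_apply, Pi.sub_apply]
    linear_combination (ac x v j - v j) * CharTwo.two_eq_zero (R := F)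
  choose f hf using fun a : Sym2 (Fin (kk n)) → K0 F => ex_el w3 (fun i j => (a s(i, j) : F)) fun i j => by
    rw [Sym2.eq_swap]; exact mem_K0.1 (a _).2
  have fB : ∀ a, f a ∈ B := fun a => by
    refine ⟨ac_ext fun v => ?_, fun v => ?_, fun u hu => ?_⟩
    · let S : V →+ V := AddMonoidHom.mk' s h.add
      rw [← h.ss v, h.ha, hf, hf, h.add]
      congr 1
      change S _ = _
      rw [map_sum]
      refine Finset.sum_congr rfl fun i _ => ?_
      change s _ = _
      rw [h.smul, w2, map_sum]
      congr 1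
      refine Finset.sum_congr rfl fun j _ => ?_
      rw [map_mul, mem_K0.1 (a _).2, h.hb' (s v), w2]
    · rw [hf, add_sub_cancel_left]
      exact Submodule.sum_mem _ fun i _ => Submodule.smul_mem _ _ (Submodule.subset_span ⟨i, rfl⟩)
    · have : ∀ j, bt u (w j) = 0 := fun j =>
        (Submodule.span_le (p := LinearMap.ker (bl (w j)))).2 (by rintro _ ⟨i, rfl⟩; exact w3 i j) hu
      simp only [hf, this, mul_zero, Finset.sum_const_zero, zero_smul, add_zero]
  have inj : Function.Injective fun a => (⟨f a, fB a⟩ : B) := fun a b e => by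
    have e' : f a = f b := congrArg Subtype.val e
    have li := Fintype.linearIndependent_iff.1 w1
    have k : ∀ i j, σ ((a s(i, j) : F) - b s(i, j)) = 0 := fun i => li _ (H76.bt_nd' fun v => by
      have := (hf a v).symm.trans (e' ▸ hf b v)
      rw [add_right_inj, ← sub_eq_zero, ← Finset.sum_sub_distrib] at this
      simp only [← sub_smul] at this
      rw [bt_sum_r, ← li _ this i, ← Finset.sum_sub_distrib]
      exact Finset.sum_congr rfl fun j _ => by rw [bt_smul_r, H12.ss, sub_mul])
    funext z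
    induction z using Sym2.ind with
    | _ i j => exact Subtype.ext (sub_eq_zero.1 ((map_eq_zero _).1 (k i j)))
  have c := Nat.card_le_card_of_injective _ inj
  rw [Nat.card_fun, Nat.card_eq_fintype_card (α := Sym2 _), Sym2.card, Fintype.card_fin] at c
  refine le_trans (le_of_eq ?_) (Nat.pow_le_pow_left c 2)
  rw [← pow_mul, Nat.choose_two_right, Nat.add_sub_cancel, mul_comm (kk n + 1),
    Nat.div_mul_cancel (Nat.even_mul_succ_self _).two_dvd, mul_add, mul_one]

end UMS.H13
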