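import Cfsg.Agent.Lib.UMS.Defs
import Cfsg.Agent.Lib.Forms.Witt

/-! Matrix tools for the special unitary group of the antidiagonal form. -/

set_option autoImplicit false
set_option linter.unusedSectionVars false

namespace UMS.H12

open Subgroup H69 Cfsg Matrix U4S
open LMS (XX GX iL kk MM au tw Sg)
open scoped MatrixGroups commutatorElement

variable {n : ℕ} {F : Type*} [Field F] [CharP F 2] [Hs F]

local notation "I" => Fin (n + 3)
local notation "Mx" => Matrix (Fin (n + 3)) (Fin (n + 3)) F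

theorem ss (a : F) : σ (σ a) = a := Hs.sg.2 a

/-- adjoint -/
def ad (M : Mx) : Mx := Matrix.of fun i j => σ (M j.rev i.rev)

theorem ad_apply (M : Mx) (i j : I) : ad M i j = σ (M j.rev i.rev) := rfl

theorem ad_ad (M : Mx) : ad (ad M) = M := by
  ext i j; simp [ad_apply, ss]

theorem ad_mul (M N : Mx) : ad (M * N) = ad N * ad M := by
  ext i j
  simp only [ad_apply, Matrix.mul_apply, map_sum, map_mul]
  rw [← Equiv.sum_comp Fin.revPerm]
  exact Finset.sum_congr rfl fun k _ => by simp [mul_comm]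

theorem ad_add (M N : Mx) : ad (M + N) = ad M + ad N := by
  ext i j; simp [ad_apply]

theorem ad_one : ad (1 : Mx) = 1 := by
  ext i j
  simp only [ad_apply, Matrix.one_apply, Fin.rev_inj]
  by_cases h : i = j
  · simp [h]
  · simp [h, Ne.symm h]

theorem ad_smul (c : F) (M : Mx) : ad (c • M) = σ c • ad M := by
  ext i j; simp [ad_apply]

theorem ad_hm (u v : VV n F) : ad (hm u v) = hm v u := by
  ext i j; simp [ad_apply, hm, vecMulVec_apply, ss, mul_comm]

theorem tau_val (x : XX n F) : (τ x).1 = ad (x⁻¹).1 := by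
  ext i j
  change ((pmL Fin.revPerm : XX n F) * LMS.it (fr σ x) * (pmL Fin.revPerm : XX n F)⁻¹).1 i j = _
  rw [← map_inv, Matrix.SpecialLinearGroup.coe_mul, Matrix.SpecialLinearGroup.coe_mul, LMS.it_val, ← map_inv,
    fr_val, pmL_val, pmL_val, ad_apply]
  simp [Equiv.Perm.permMatrix, PEquiv.toMatrix_toPEquiv_mul, PEquiv.mul_toMatrix_toPEquiv]

theorem mem_XU {x : XX n F} : x ∈ XU n F ↔ ad x.1 * x.1 = 1 := by
  have e0 : x ∈ XU n F ↔ ad (x⁻¹).1 = x.1 :=
    ⟨fun h => (tau_val x).symm.trans (congrArg Subtype.val (show τ x = x from h)),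
      fun h => show τ x = x from Subtype.ext ((tau_val x).trans h)⟩
  rw [e0]
  have e : (x⁻¹).1 * x.1 = 1 := by rw [← Matrix.SpecialLinearGroup.coe_mul, inv_mul_cancel]; rfl
  have e' : x.1 * (x⁻¹).1 = 1 := by rw [← Matrix.SpecialLinearGroup.coe_mul, mul_inv_cancel]; rfl
  constructor
  · intro h
    rw [← congrArg ad h, ad_ad, e]
  · intro h
    have : ad x.1 = (x⁻¹).1 := by rw [← mul_one (ad x.1), ← e', ← mul_assoc, h, one_mul]
    rw [← this, ad_ad]

theorem bt_ad (M : Mx) (u v : VV n F) : bt (M *ᵥ u) v = bt u (ad M *ᵥ v) := by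
  simp only [bt, mulVec, dotProduct, ad_apply, map_sum, map_mul, ss, Finset.sum_mul, Finset.mul_sum, Fin.rev_rev]
  rw [Finset.sum_comm]
  refine Finset.sum_congr rfl fun j _ => ?_
  rw [← Equiv.sum_comp Fin.revPerm]
  exact Finset.sum_congr rfl fun k _ => by simp; ring

theorem bt_ac (x : XU n F) (u v : VV n F) : bt (ac x u) (ac x v) = bt u v := by
  rw [ac, ac, bt_ad, mulVec_mulVec, mem_XU.1 x.2, one_mulVec]

theorem bt_symm (u v : VV n F) : bt v u = σ (bt u v) := by
  simp only [bt, map_sum, map_mul, ss]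
  rw [← Equiv.sum_comp Fin.revPerm]
  exact Finset.sum_congr rfl fun k _ => by simp [mul_comm]

theorem hm_mulVec (u v x : VV n F) : hm u v *ᵥ x = bt x v • u := by
  ext i
  simp only [hm, mulVec, dotProduct, vecMulVec_apply, bt, Pi.smul_apply, smul_eq_mul, Finset.sum_mul]
  exact Finset.sum_congr rfl fun k _ => by ring

theorem hm_mul (u v u' v' : VV n F) : hm u v * hm u' v' = bt u' v • hm u v' := by
  ext i j
  simp only [hm, Matrix.mul_apply, vecMulVec_apply, bt, Matrix.smul_apply, smul_eq_mul, Finset.sum_mul]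
  exact Finset.sum_congr rfl fun k _ => by ring

theorem det_hm (u v : VV n F) : (1 + hm u v).det = 1 + bt u v := by
  rw [hm, vecMulVec_eq Unit, det_one_add_replicateCol_mul_replicateRow, bt, dotProduct]
  congr 1
  exact Finset.sum_congr rfl fun k _ => by ring

theorem mk_val {M : Mx} (h1 : M.det = 1) (h2 : ad M * M = 1) : (mk M : XU n F).1.1 = M := by
  have e : (mx M : XX n F) = ⟨M, h1⟩ := dif_pos h1
  have m : mx M ∈ XU n F := by rw [e]; exact mem_XU.2 h2
  rw [mk, dif_pos m]
  exact congrArg Subtype.val e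

theorem mm (M : Mx) : M + M = 0 := by
  ext i j; simp [CharTwo.add_self_eq_zero]

theorem tc_val {v : VV n F} (hv : bt v v = 0) (c : K0 F) : (tc v c).1.1 = 1 + (c : F) • hm v v := by
  refine mk_val ?_ ?_
  · have : (c : F) • hm v v = hm ((c : F) • v) v := by
      ext i j; simp [hm, vecMulVec_apply, mul_assoc]
    rw [this, det_hm]
    have : bt ((c : F) • v) v = c * bt v v := by simp [bt, Finset.mul_sum, mul_assoc]
    rw [this, hv, mul_zero, add_zero]
  · rw [ad_add, ad_one, ad_smul, ad_hm, mem_K0.1 c.2, add_mul, mul_add, mul_add, one_mul, one_mul, mul_one,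
      smul_mul_smul_comm, hm_mul, hv, zero_smul, smul_zero, add_zero, add_assoc, mm, add_zero]

theorem sh_val {u v : VV n F} (hu : bt u u = 0) (hv : bt v v = 0) (h : bt u v = 0) :
    (sh u v).1.1 = 1 + hm u v + hm v u := by
  have h' : bt v u = 0 := by rw [bt_symm, h, map_zero]
  have e : (1 + hm u v) * (1 + hm v u) = 1 + hm u v + hm v u := by
    rw [add_mul, mul_add, mul_add, hm_mul, hv, zero_smul]; simp; abel
  refine mk_val ?_ ?_
  · rw [← e, det_mul, det_hm, det_hm, h, h']; simp
  · simp only [ad_add, ad_one, ad_hm, add_mul, mul_add, one_mul, mul_one, hm_mul, hu, hv, h, h', zero_smul, add_zero]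
    calc _ = 1 + (hm u v + hm u v) + (hm v u + hm v u) := by abel
      _ = 1 := by rw [mm, mm, add_zero, add_zero]

theorem bt_add_l (u u' v : VV n F) : bt (u + u') v = bt u v + bt u' v := by
  simp [bt, add_mul, Finset.sum_add_distrib]
theorem bt_add_r (u v v' : VV n F) : bt u (v + v') = bt u v + bt u v' := by
  simp [bt, mul_add, Finset.sum_add_distrib]
theorem bt_smul_l (c : F) (u v : VV n F) : bt (c • u) v = c * bt u v := by
  simp [bt, Finset.mul_sum, mul_assoc]
theorem bt_smul_r (c : F) (u v : VV n F) : bt u (c • v) = σ c * bt u v := by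
  simp [bt, Finset.mul_sum, mul_left_comm]
theorem bt_ee_r (u : VV n F) (i : I) : bt u (ee i) = u i.rev := by
  simp only [bt, ee]
  rw [Finset.sum_eq_single i.rev]
  · simp
  · intro j _ hj
    rw [Pi.single_eq_of_ne (fun e => hj (by rw [← e, Fin.rev_rev])), map_zero, mul_zero]
  · simp
theorem bt_ee_l (i : I) (v : VV n F) : bt (ee i) v = σ (v i.rev) := by
  rw [bt_symm, bt_ee_r]

theorem ex_tr : ∃ c : F, c + σ c = 1 := by
  obtain ⟨a, ha⟩ : ∃ a : F, σ a ≠ a := by
    by_contra k
    push Not at k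
    exact Hs.sg.1 (RingEquiv.ext k)
  have h : a + σ a ≠ 0 := fun e => ha (by
    have := CharTwo.add_eq_zero.1 e
    exact this.symm)
  refine ⟨a / (a + σ a), ?_⟩
  rw [map_div₀, map_add, ss, add_comm (σ a) a, ← add_div, div_self h]

/-- the form as a sesquilinear map -/
def BB : VV n F →ₛₗ[((σ : RingAut F) : F →+* F)] VV n F →ₗ[F] F :=
  LinearMap.mk₂'ₛₗ _ _ (fun x y => bt y x) (fun _ _ _ => bt_add_r _ _ _) (fun _ _ _ => bt_smul_r _ _ _)
    (fun _ _ _ => bt_add_l _ _ _) (fun _ _ _ => bt_smul_l _ _ _)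

theorem BB_apply (x y : VV n F) : BB x y = bt y x := rfl

theorem ad_det (M : Mx) : (ad M).det = σ M.det := by
  have : ad M = ((M.map ((σ : RingAut F) : F →+* F))ᵀ).submatrix Fin.revPerm Fin.revPerm := by
    ext i j; rfl
  rw [this, det_submatrix_equiv_self, det_transpose, ← RingHom.mapMatrix_apply, ← RingHom.map_det]
  rfl

theorem iso_ad {M : Mx} (h : ∀ u v : VV n F, bt (M *ᵥ u) (M *ᵥ v) = bt u v) : ad M * M = 1 := by
  ext i j
  have := h (ee i.rev) (ee j)
  rw [bt_ad, mulVec_mulVec, bt_ee_l, bt_ee_l, Fin.rev_rev] at this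
  have := (σ : RingAut F).injective this
  rw [ee, mulVec_single_one] at this
  rw [Matrix.one_apply, ← Pi.single_apply j (1 : F) i]
  exact this

theorem witt {κ : Type*} [Finite κ] (u v : κ → VV n F) (hu : LinearIndependent F u) (hv : LinearIndependent F v)
    (h : ∀ i j, bt (v i) (v j) = bt (u i) (u j)) {w : VV n F} (hw : bt w w ≠ 0) (hw' : ∀ i, bt (u i) w = 0) :
    ∃ x : XU n F, ∀ i, ac x (u i) = v i := by
  obtain ⟨g, g1, g2⟩ := H28.witt_herm_family (σ := ((σ : RingAut F) : F →+* F)) ss ex_tr (BB (n := n))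
    (fun x y => (bt_symm _ _).symm) (fun x hx => by
      ext i
      have := hx (ee i.rev)
      rw [BB_apply, bt_ee_l, Fin.rev_rev] at this
      exact (map_eq_zero_iff _ (σ : RingAut F).injective).1 this) u v hu hv (fun i j => h j i)
  set M : Mx := LinearMap.toMatrix' g.toLinearMap
  have hM : ∀ x, M *ᵥ x = g x := fun x => LinearMap.toMatrix'_mulVec _ _
  have hA : ad M * M = 1 := iso_ad fun a b => by rw [hM, hM]; exact g1 b a
  have hd : σ M.det * M.det = 1 := by rw [← ad_det, ← det_mul, hA, det_one]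
  have ws : σ (bt w w) = bt w w := (bt_symm _ _).symm
  set c : F := (σ M.det + 1) / bt w w
  have e : c • hm w w = hm (c • w) w := by
    ext i j; simp [hm, vecMulVec_apply, mul_assoc]
  have hc : c * bt w w = σ M.det + 1 := div_mul_cancel₀ _ hw
  have hc' : σ c * bt w w = M.det + 1 := by
    have := congrArg σ hc
    rwa [map_mul, ws, map_add, ss, map_one] at this
  have h2 : (2 : F) = 0 := CharTwo.two_eq_zero
  have dR : (1 + c • hm w w).det = σ M.det := by
    rw [e, det_hm, bt_smul_l, hc]; linear_combination h2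
  have aR : ad (1 + c • hm w w) * (1 + c • hm w w) = 1 := by
    rw [ad_add, ad_one, ad_smul, ad_hm, add_mul, mul_add, mul_add, one_mul, one_mul, mul_one,
      smul_mul_smul_comm, hm_mul, smul_smul, add_assoc, ← add_smul, ← add_smul]
    have : c + (σ c + σ c * c * bt w w) = 0 := by
      refine mul_right_cancel₀ hw ?_
      linear_combination hc + hc' + (σ c * bt w w) * hc + (σ M.det + 1) * hc' + hd + (σ M.det + M.det + 2) * h2
    rw [this, zero_smul, add_zero]
  refine ⟨mk (M * (1 + c • hm w w)), fun i => ?_⟩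
  rw [ac, mk_val (by rw [det_mul, dR, mul_comm, hd])
    (by rw [ad_mul, mul_assoc, ← mul_assoc (ad M), hA, one_mul, aR]), ← mulVec_mulVec, add_mulVec, one_mulVec,
    smul_mulVec, hm_mulVec, hw', zero_smul, smul_zero, add_zero, hM, g2]

theorem xext {x y : XU n F} (h : x.1.1 = y.1.1) : x = y := Subtype.ext (Subtype.ext h)

theorem mul_val (x y : XU n F) : (x * y).1.1 = x.1.1 * y.1.1 := rfl
theorem one_val : (1 : XU n F).1.1 = 1 := rfl

theorem inv_val (x : XU n F) : (x⁻¹).1.1 = ad x.1.1 := by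
  have e' : x.1.1 * (x⁻¹).1.1 = 1 := by rw [← mul_val, mul_inv_cancel, one_val]
  rw [← one_mul (x⁻¹).1.1, ← mem_XU.1 x.2, mul_assoc, e', mul_one]

theorem ac_mul (x y : XU n F) (v : VV n F) : ac (x * y) v = ac x (ac y v) := by
  rw [ac, ac, ac, mulVec_mulVec, mul_val]
theorem ac_one (v : VV n F) : ac 1 v = v := one_mulVec v
theorem ac_inv (x : XU n F) (v : VV n F) : ac x⁻¹ (ac x v) = v := by rw [← ac_mul, inv_mul_cancel, ac_one]
theorem ac_inv' (x : XU n F) (v : VV n F) : ac x (ac x⁻¹ v) = v := by rw [← ac_mul, mul_inv_cancel, ac_one]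
theorem ac_add (x : XU n F) (u v : VV n F) : ac x (u + v) = ac x u + ac x v := mulVec_add _ _ _
theorem ac_smul (x : XU n F) (c : F) (v : VV n F) : ac x (c • v) = c • ac x v := mulVec_smul _ _ _
theorem ac_zero (x : XU n F) : ac x 0 = 0 := mulVec_zero _
theorem ac_inj (x : XU n F) {u v : VV n F} (h : ac x u = ac x v) : u = v := by
  rw [← ac_inv x u, h, ac_inv]
theorem ac_ext {x y : XU n F} (h : ∀ v, ac x v = ac y v) : x = y := by
  refine xext (Matrix.ext fun i j => ?_)
  have := congrFun (h (Pi.single j 1)) i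
  simpa [ac] using this

theorem mul_hm (M : Mx) (u v : VV n F) : M * hm u v = hm (M *ᵥ u) v := by
  ext i j
  simp only [hm, Matrix.mul_apply, vecMulVec_apply, mulVec, dotProduct, Finset.sum_mul, mul_assoc]

theorem hm_mul_ad (M : Mx) (u v : VV n F) : hm u v * ad M = hm u (M *ᵥ v) := by
  rw [← ad_hm v u, ← ad_mul, mul_hm, ad_hm]

theorem cj_hm (x : XU n F) (u v : VV n F) : x.1.1 * hm u v * (x⁻¹).1.1 = hm (ac x u) (ac x v) := by
  rw [inv_val, mul_hm, hm_mul_ad]; rfl

theorem cj_one (x : XU n F) : x.1.1 * 1 * (x⁻¹).1.1 = 1 := by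
  rw [mul_one, ← mul_val, mul_inv_cancel, one_val]

theorem cj_tc (x : XU n F) {v : VV n F} (hv : bt v v = 0) (c : K0 F) : x * tc v c * x⁻¹ = tc (ac x v) c := by
  refine xext ?_
  rw [mul_val, mul_val, tc_val hv, tc_val ((bt_ac x v v).trans hv), mul_add, add_mul, cj_one, Matrix.mul_smul,
    Matrix.smul_mul, cj_hm]

theorem cj_sh (x : XU n F) {u v : VV n F} (hu : bt u u = 0) (hv : bt v v = 0) (h : bt u v = 0) :
    x * sh u v * x⁻¹ = sh (ac x u) (ac x v) := by
  refine xext ?_
  rw [mul_val, mul_val, sh_val hu hv h, sh_val ((bt_ac x u u).trans hu) ((bt_ac x v v).trans hv)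
    ((bt_ac x u v).trans h), mul_add, mul_add, add_mul, add_mul, cj_one, cj_hm, cj_hm]

theorem ac_tc {v : VV n F} (hv : bt v v = 0) (c : K0 F) (y : VV n F) :
    ac (tc v c) y = y + ((c : F) * bt y v) • v := by
  rw [ac, tc_val hv, add_mulVec, one_mulVec, smul_mulVec, hm_mulVec, smul_smul]

theorem ac_sh {u v : VV n F} (hu : bt u u = 0) (hv : bt v v = 0) (h : bt u v = 0) (y : VV n F) :
    ac (sh u v) y = y + bt y v • u + bt y u • v := by
  rw [ac, sh_val hu hv h, add_mulVec, add_mulVec, one_mulVec, hm_mulVec, hm_mulVec]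

theorem tc_mul {v : VV n F} (hv : bt v v = 0) (c d : K0 F) : tc v c * tc v d = tc v (c + d) := by
  refine xext ?_
  rw [mul_val, tc_val hv, tc_val hv, tc_val hv, add_mul, mul_add, mul_add, one_mul, one_mul, mul_one,
    smul_mul_smul_comm, hm_mul, hv, zero_smul, smul_zero, add_zero, Subfield.coe_add, add_smul]
  abel

theorem tc_zero {v : VV n F} (hv : bt v v = 0) : tc v 0 = 1 := by
  refine xext ?_
  rw [tc_val hv, one_val, Subfield.coe_zero, zero_smul, add_zero]

theorem tc_sq {v : VV n F} (hv : bt v v = 0) (c : K0 F) : tc v c * tc v c = 1 := by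
  rw [tc_mul hv, show c + c = 0 from Subtype.ext (CharTwo.add_self_eq_zero (c : F)), tc_zero hv]

theorem sh_sq {u v : VV n F} (hu : bt u u = 0) (hv : bt v v = 0) (h : bt u v = 0) : sh u v * sh u v = 1 := by
  have h' : bt v u = 0 := by rw [bt_symm, h, map_zero]
  refine xext ?_
  rw [mul_val, sh_val hu hv h, one_val]
  simp only [add_mul, mul_add, one_mul, mul_one, hm_mul, hu, hv, h, h', zero_smul, add_zero]
  calc _ = 1 + (hm u v + hm u v) + (hm v u + hm v u) := by abel
    _ = 1 := by rw [mm, mm, add_zero, add_zero]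

theorem hm_smul_l (c : F) (u v : VV n F) : hm (c • u) v = c • hm u v := by
  ext i j; simp [hm, vecMulVec_apply, mul_assoc]
theorem hm_smul_r (c : F) (u v : VV n F) : hm u (c • v) = σ c • hm u v := by
  ext i j; simp [hm, vecMulVec_apply, mul_left_comm]
theorem hm_add_l (u u' v : VV n F) : hm (u + u') v = hm u v + hm u' v := by
  ext i j; simp [hm, vecMulVec_apply, add_mul]
theorem hm_add_r (u v v' : VV n F) : hm u (v + v') = hm u v + hm u v' := by
  ext i j; simp [hm, vecMulVec_apply, mul_add]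
theorem hm_ee (i j : I) : hm (ee i : VV n F) (ee j) = single i j.rev 1 := by
  ext a b
  simp only [hm, ee, vecMulVec_apply, Pi.single_apply, Matrix.single_apply]
  by_cases h1 : a = i
  · by_cases h2 : b.rev = j
    · simp [h1, ← h2]
    · have : ¬ j.rev = b := fun e => h2 (by rw [← e, Fin.rev_rev])
      simp [h2, this]
  · simp [h1, Ne.symm h1]

theorem tc_smul {v : VV n F} (hv : bt v v = 0) (a : F) (c : K0 F) : tc (a • v) c = tc v (c * nm a) := by
  refine xext ?_
  rw [tc_val hv, tc_val (by rw [bt_smul_l, bt_smul_r, hv, mul_zero, mul_zero]), hm_smul_l, hm_smul_r,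
    smul_smul, smul_smul, mul_assoc]
  rfl

/-- a subspace of small codimension contains a non-isotropic vector: a vector-wise isotropic set closed under
`x + c y` is totally isotropic -/
theorem tot {u v : VV n F} (hu : bt u u = 0) (hv : bt v v = 0) (h : ∀ c : F, bt (u + c • v) (u + c • v) = 0) :
    bt u v = 0 := by
  by_contra k
  obtain ⟨c, hc⟩ := ex_tr (F := F)
  have := h (σ (c / bt u v))
  rw [bt_add_l, bt_add_r, bt_add_r, bt_smul_l, bt_smul_r, bt_smul_l, bt_smul_r, hu, hv, ss, bt_symm u v,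
    ← map_mul, div_mul_cancel₀ _ k, mul_zero, mul_zero, zero_add, add_zero, hc] at this
  exact one_ne_zero this

end UMS.H12
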