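import Cfsg.Agent.Lib.UMS.B1b
import Cfsg.Agent.Lib.UMS.H12b

set_option autoImplicit false
set_option linter.unusedSectionVars false

namespace UMS

open Subgroup H69 Cfsg Matrix U4S
open LMS (XX GX iL kk MM au tw Sg)
open scoped MatrixGroups commutatorElement

universe u
variable {G : Type*} [Group G] [Finite G] {F : Type u} [Field F] [CharP F 2] [Fintype F] [Hs F] {n : ℕ} [Ok n F]
  {ι ψ χ : XU n F →* G} {t : G} {E : Subgroup G}

local notation "X" => XU n F
local notation "V" => VV n F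
local notation "𝐪" => Nat.card (K0 F)
local notation "I" => Fin (n + 3)
local notation "Mx" => Matrix (Fin (n + 3)) (Fin (n + 3)) F

theorem lin (θ : V → V) (hm : ∀ w, Mi w → Mi (θ w)) (ha : ∀ v w, Mi v → Mi w → θ (v + w) = θ v + θ w)
    (hc : ∀ v w, Mi v → Mi w → bt v v = 0 → θ (w + bt w v • v) = θ w + bt (θ w) v • v) :
    ∃ a : F, ∀ w, Mi w → θ w = a • w := by
  have hn : 3 ≤ n := Ok.h3 F
  have ms : ∀ (c : F) (v : V), Mi v → Mi (c • v) := fun c v h => ⟨by simp [h.1], by simp [h.2]⟩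
  have ma : ∀ u v : V, Mi u → Mi v → Mi (u + v) := fun u v h k => ⟨by simp [h.1, k.1], by simp [h.2, k.2]⟩
  have me : ∀ i : I, 0 < i.1 → i.1 < n + 2 → Mi (ee i : V) := fun i h k =>
    ⟨Pi.single_eq_of_ne (fun e => by rw [← e] at h; simp at h) _,
      Pi.single_eq_of_ne (fun e => by rw [← e] at k; simp at k) _⟩
  have k1 : ∀ v w, Mi v → Mi w → bt v v = 0 → θ (bt w v • v) = bt (θ w) v • v := fun v w hv hw e => by
    have := hc v w hv hw e
    rw [ha _ _ hw (ms _ _ hv)] at this
    exact add_left_cancel this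
  have k2 : ∀ v : V, Mi v → v ≠ 0 → ∀ c : F, ∃ w, Mi w ∧ bt w v = c := fun v hv v0 c => by
    obtain ⟨j, hj⟩ := Function.ne_iff.1 v0
    have j0 : j ≠ 0 := fun e => hj (e ▸ hv.1)
    have jL : j ≠ iL := fun e => hj (e ▸ hv.2)
    have s0 : σ (v j) ≠ 0 := (map_ne_zero_iff _ (σ : RingAut F).injective).2 hj
    rw [ne_eq, Fin.ext_iff] at j0 jL
    simp only [Fin.val_zero, Fin.val_last] at j0 jL
    refine ⟨(c * (σ (v j))⁻¹) • ee j.rev, ms _ _ (me _ ?_ ?_), ?_⟩
    · rw [Fin.val_rev]; omega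
    · rw [Fin.val_rev]; omega
    · rw [H12.bt_smul_l, H12.bt_ee_l, Fin.rev_rev, inv_mul_cancel_right₀ s0]
  have k3 : ∀ v : V, Mi v → bt v v = 0 → v ≠ 0 → ∀ c : F, ∃ l : F, θ (c • v) = l • v := fun v hv e v0 c => by
    obtain ⟨w, hw, rfl⟩ := k2 v hv v0 c
    exact ⟨_, k1 v w hv hw e⟩
  have k4 : ∀ u v : V, Mi u → Mi v → bt u u = 0 → bt v v = 0 → bt u v = 0 →
      (∀ x y : F, x • u + y • v = 0 → x = 0 ∧ y = 0) →
      ∃ a : F, (∀ w, Mi w → bt (θ w) u = a * bt w u) ∧ ∀ w, Mi w → bt (θ w) v = a * bt w v := by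
    intro u v hu hv uu vv uv li
    have u0 : u ≠ 0 := fun e => one_ne_zero (li 1 0 (by simp [e])).1
    have v0 : v ≠ 0 := fun e => one_ne_zero (li 0 1 (by simp [e])).2
    choose p hp using k3 u hu uu u0
    choose q hq using k3 v hv vv v0
    have key : ∀ c b : F, q (c * b) = p c * b := fun c b => by
      obtain ⟨l, hl⟩ := k3 (u + b • v) (ma _ _ hu (ms _ _ hv))
        (by simp [H12.bt_add_l, H12.bt_add_r, H12.bt_smul_l, H12.bt_smul_r, uu, vv, uv, H12.bt_sw uv])
        (fun e => one_ne_zero (li 1 b (by simpa using e)).1) c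
      rw [smul_add, smul_smul, ha _ _ (ms _ _ hu) (ms _ _ hv), hp, hq] at hl
      obtain ⟨e1, e2⟩ := li (p c - l) (q (c * b) - l * b) (by linear_combination (norm := module) hl)
      rw [sub_eq_zero] at e1 e2
      rw [e2, e1]
    have q1 : ∀ b, q b = p 1 * b := fun b => by simpa using key 1 b
    have p1 : ∀ c, p c = p 1 * c := fun c => by simpa [q1] using (key c 1).symm
    refine ⟨p 1, fun w hw => ?_, fun w hw => ?_⟩
    · have := k1 u w hu hw uu
      rw [hp, p1] at this
      exact (smul_left_injective F u0 this).symm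
    · have := k1 v w hv hw vv
      rw [hq, q1] at this
      exact (smul_left_injective F v0 this).symm
  have z : ∀ i j : I, i.1 + j.1 ≠ n + 2 → bt (ee i : V) (ee j) = 0 := fun i j e => by
    rw [H12.bt_ee, if_neg]
    intro e'
    have := congrArg Fin.val e'
    rw [Fin.val_rev] at this
    omega
  have li : ∀ (i : I) (v : V), v i = 0 → v ≠ 0 → ∀ x y : F, x • ee i + y • v = 0 → x = 0 ∧ y = 0 := by
    intro i v h v0 x y e
    have x0 : x = 0 := by simpa [ee, h] using congrFun e i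
    rw [x0, zero_smul, zero_add] at e
    exact ⟨x0, (smul_eq_zero.1 e).resolve_right v0⟩
  have en : ∀ i j : I, i.1 ≠ j.1 → (ee j : V) i = 0 := fun i j h => Pi.single_eq_of_ne (fun e => h (by rw [e])) _
  have v1 : (1 : I).1 = 1 := rfl
  have v2 : (2 : I).1 = 2 := rfl
  have r1 : (1 : I).rev.1 = n + 1 := by rw [Fin.val_rev, v1]; omega
  have m1 := me 1 (by omega) (by omega)
  have m2 := me 2 (by omega) (by omega)
  obtain ⟨a, a1, a2⟩ := k4 (ee 1) (ee 2) m1 m2 (z _ _ (by omega)) (z _ _ (by omega)) (z _ _ (by omega))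
    (li _ _ (en _ _ (by omega)) (H12.ee_ne _))
  have tr : ∀ (i : I) (v : V), Mi (ee i : V) → bt (ee i : V) (ee i) = 0 → (∀ w, Mi w → bt (θ w) (ee i) = a * bt w (ee i)) →
      Mi v → bt v v = 0 → bt (ee i) v = 0 → v i = 0 → v ≠ 0 → ∀ w, Mi w → bt (θ w) v = a * bt w v := by
    intro i v h1 h2 h3 h4 h5 h6 h7 h8
    obtain ⟨b, b1, b2⟩ := k4 (ee i) v h1 h4 h2 h5 h6 (li _ _ h7 h8)
    obtain ⟨w, hw, e⟩ := k2 _ h1 (H12.ee_ne i) 1
    have : b = a := by
      have := (b1 w hw).symm.trans (h3 w hw)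
      rwa [e, mul_one, mul_one] at this
    exact this ▸ b2
  have a3 := tr 2 (ee (1 : I).rev) m2 (z _ _ (by omega)) a2 (me _ (by omega) (by omega)) (z _ _ (by omega))
    (z _ _ (by omega)) (en _ _ (by omega)) (H12.ee_ne _)
  have all : ∀ i : I, 0 < i.1 → i.1 < n + 2 → ∀ w, Mi w → bt (θ w) (ee i) = a * bt w (ee i) := by
    intro i h k
    by_cases i1 : i = 1
    · exact i1 ▸ a1
    by_cases i2 : i = (1 : I).rev
    · exact i2 ▸ a3
    rw [Fin.ext_iff] at i1 i2
    by_cases i3 : i.1 + i.1 = n + 2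
    · obtain ⟨b, hb⟩ := H12.ex_tr (F := F)
      have two : (2 : F) = 0 := CharTwo.two_eq_zero
      have ii : bt (ee i : V) (ee i) = 1 := by
        rw [H12.bt_ee, if_pos (Fin.ext (by rw [Fin.val_rev]; omega))]
      have e1 : bt (ee 1 : V) (ee (1 : I).rev) = 1 := by rw [H12.bt_ee, Fin.rev_rev, if_pos rfl]
      have e2 : bt (ee (1 : I).rev : V) (ee 1) = 1 := by rw [H12.bt_ee, if_pos rfl]
      have := tr 2 (ee i + ee 1 + b • ee (1 : I).rev) m2 (z _ _ (by omega)) a2
        (ma _ _ (ma _ _ (me i h k) m1) (ms _ _ (me _ (by omega) (by omega))))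
        (by
          simp only [H12.bt_add_l, H12.bt_add_r, H12.bt_smul_l, H12.bt_smul_r, ii, e1, e2, z i 1 (by omega),
            z 1 i (by omega), z i (1 : I).rev (by omega), z (1 : I).rev i (by omega), z 1 1 (by omega),
            z (1 : I).rev (1 : I).rev (by omega)]
          linear_combination hb + two)
        (by
          simp only [H12.bt_add_r, H12.bt_smul_r, z 2 i (by omega), z 2 1 (by omega), z 2 (1 : I).rev (by omega)]
          simp)
        (by simp [en 2 i (by omega), en 2 1 (by omega), en 2 (1 : I).rev (by omega)])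
        (fun e => by
          have := congrFun e i
          simp [en i 1 (by omega), en i (1 : I).rev (by omega)] at this
          simp [ee] at this)
      intro w hw
      have q := this w hw
      simp only [H12.bt_add_r, H12.bt_smul_r, a1 w hw, a3 w hw] at q
      linear_combination q
    · exact tr 1 (ee i) m1 (z _ _ (by omega)) a1 (me i h k) (z _ _ i3) (z _ _ (by omega)) (en _ _ (by omega))
        (H12.ee_ne _)
  refine ⟨a, fun w hw => funext fun j => ?_⟩
  by_cases j0 : j = 0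
  · rw [j0, (hm w hw).1, (ms a w hw).1]
  by_cases jL : j = iL
  · rw [jL, (hm w hw).2, (ms a w hw).2]
  rw [Fin.ext_iff] at j0 jL
  simp only [Fin.val_zero, Fin.val_last] at j0 jL
  have := all j.rev (by rw [Fin.val_rev]; omega) (by rw [Fin.val_rev]; omega) w hw
  rwa [H12.bt_ee_r, H12.bt_ee_r, Fin.rev_rev] at this

end UMS
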