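import Cfsg.Agent.Lib.UMS.Defs
import Cfsg.Agent.Lib.LMS.LN

set_option autoImplicit false
set_option linter.unusedSectionVars false

namespace UMS

open Subgroup H69 Cfsg Matrix U4S
open LMS (XX GX iL kk MM au tw Sg)
open scoped MatrixGroups commutatorElement

universe u
variable {G : Type*} [Group G] [Finite G] {F : Type u} [Field F] [CharP F 2] [Fintype F] [Hs F] {n : ℕ} [Ok n F]

local notation "X" => XU n F
local notation "I" => Fin (n + 3)
local notation "Mx" => Matrix (Fin (n + 3)) (Fin (n + 3)) F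
local notation "V" => VV n F

namespace L81

theorem σσ (a : F) : σ (σ a) = a := Hs.sg.2 a

/-- the adjoint -/
def ad (M : Mx) : Mx := fun i j => σ (M j.rev i.rev)

theorem ad_apply (M : Mx) (i j : I) : ad M i j = σ (M j.rev i.rev) := rfl

theorem ad_ad (M : Mx) : ad (ad M) = M := by ext i j; simp [ad_apply, σσ]
theorem ad_add (M N : Mx) : ad (M + N) = ad M + ad N := by ext i j; simp [ad_apply]
theorem ad_zero : ad (0 : Mx) = 0 := by ext i j; simp [ad_apply]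
theorem ad_smul (c : F) (M : Mx) : ad (c • M) = σ c • ad M := by ext i j; simp [ad_apply]
theorem ad_one : ad (1 : Mx) = 1 := by
  ext i j
  simp only [ad_apply, one_apply, Fin.rev_inj, eq_comm (a := j)]
  split_ifs <;> simp
theorem ad_mul (M N : Mx) : ad (M * N) = ad N * ad M := by
  ext i j
  simp only [ad_apply, mul_apply, map_sum, map_mul]
  rw [← Equiv.sum_comp Fin.revPerm]
  simp [mul_comm]
theorem ad_hm (u v : V) : ad (hm u v) = hm v u := by
  ext i j; simp [ad_apply, hm, vecMulVec_apply, σσ, mul_comm]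

theorem τ_val (x : XX n F) : (τ x).1 = ad (x⁻¹).1 := by
  ext i j
  change ((pmL Fin.revPerm : XX n F) * LMS.it (fr σ x) * (pmL Fin.revPerm)⁻¹).1 i j = _
  rw [← map_inv pmL, Matrix.SpecialLinearGroup.coe_mul, Matrix.SpecialLinearGroup.coe_mul, LMS.it_val, ← map_inv,
    fr_val]
  change ((Fin.revPerm⁻¹ : Equiv.Perm I).permMatrix F * ((x⁻¹).1.map (σ : RingAut F))ᵀ *
    (Fin.revPerm⁻¹⁻¹ : Equiv.Perm I).permMatrix F : Mx) i j = _
  rw [Equiv.Perm.permMatrix, Equiv.Perm.permMatrix, PEquiv.toMatrix_toPEquiv_mul, PEquiv.mul_toMatrix_toPEquiv]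
  rfl

theorem mem_XU {x : XX n F} : x ∈ XU n F ↔ ad (x⁻¹).1 = x.1 := by
  rw [← τ_val]
  exact ⟨fun h => congrArg Subtype.val h, fun h => Subtype.ext h⟩

theorem ad_val (x : X) : ad x.1.1 = (x⁻¹).1.1 := by
  have := mem_XU.1 x.2
  rw [← this, ad_ad]; rfl

theorem bt_mv (M : Mx) (u v : V) : bt (M *ᵥ u) v = bt u (ad M *ᵥ v) := by
  simp only [bt, mulVec, dotProduct, ad_apply, map_sum, map_mul, σσ, Fin.rev_rev, Finset.sum_mul, Finset.mul_sum]
  rw [Finset.sum_comm]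
  refine Finset.sum_congr rfl fun j _ => ?_
  rw [← Equiv.sum_comp Fin.revPerm]
  simp [mul_comm, mul_left_comm, mul_assoc]

theorem bt_sym (u v : V) : σ (bt u v) = bt v u := by
  simp only [bt, map_sum, map_mul, σσ]
  rw [← Equiv.sum_comp Fin.revPerm]
  simp [mul_comm]

theorem hm_mv (u v x : V) : hm u v *ᵥ x = bt x v • u := by
  rw [hm, vecMulVec_mulVec, bt, dotProduct]
  ext i; simp [mul_comm]

theorem mul_hm (M : Mx) (u v : V) : M * hm u v = hm (M *ᵥ u) v := by rw [hm, mul_vecMulVec]; rfl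

theorem hm_mul (M : Mx) (u v : V) : hm u v * M = hm u (ad M *ᵥ v) := by
  rw [← ad_ad (hm u v * M), ad_mul, ad_hm, mul_hm, ad_hm]

theorem hm_addl (u u' v : V) : hm (u + u') v = hm u v + hm u' v := by
  ext i j; simp [hm, vecMulVec_apply, add_mul]
theorem hm_addr (u v v' : V) : hm u (v + v') = hm u v + hm u v' := by
  ext i j; simp [hm, vecMulVec_apply, mul_add]
theorem hm_smull (c : F) (u v : V) : hm (c • u) v = c • hm u v := by
  ext i j; simp [hm, vecMulVec_apply, mul_assoc]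
theorem hm_smulr (c : F) (u v : V) : hm u (c • v) = σ c • hm u v := by
  ext i j; simp [hm, vecMulVec_apply, mul_left_comm]
theorem hm_zerol (v : V) : hm 0 v = 0 := by ext i j; simp [hm, vecMulVec_apply]
theorem hm_zeror (v : V) : hm v 0 = 0 := by ext i j; simp [hm, vecMulVec_apply]
theorem hm_hm (a b c d : V) : hm a b * hm c d = bt c b • hm a d := by rw [mul_hm, hm_mv, hm_smull]

theorem bt_addl (u u' v : V) : bt (u + u') v = bt u v + bt u' v := by
  simp [bt, add_mul, Finset.sum_add_distrib]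
theorem bt_addr (u v v' : V) : bt u (v + v') = bt u v + bt u v' := by
  simp [bt, mul_add, Finset.sum_add_distrib]
theorem bt_smull (c : F) (u v : V) : bt (c • u) v = c * bt u v := by
  simp [bt, Finset.mul_sum, mul_assoc]
theorem bt_smulr (c : F) (u v : V) : bt u (c • v) = σ c * bt u v := by
  simp [bt, Finset.mul_sum, mul_left_comm]
theorem bt_zerol (v : V) : bt 0 v = 0 := by simp [bt]
theorem bt_zeror (v : V) : bt v 0 = 0 := by simp [bt]

/-- the element `1 + A` -/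
def el (A : Mx) (h : A * A = 0) (k : ad A = A) : X := ⟨LMS.LN.mk A h, mem_XU.2 (by
  rw [inv_eq_of_mul_eq_one_right (LMS.LN.inv1 (x := LMS.LN.mk A h) h rfl)]
  change ad (1 + A) = 1 + A
  rw [ad_add, ad_one, k])⟩

theorem el_val (A : Mx) (h : A * A = 0) (k : ad A = A) : (el A h k).1.1 = 1 + A := rfl

theorem mk_val {A : Mx} (h : A * A = 0) (k : ad A = A) : (mk (1 + A) : X) = el A h k := by
  have e : (mx (1 + A) : XX n F) = (el A h k).1 := dif_pos (el A h k).1.2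
  rw [mk, dif_pos (e ▸ (el A h k).2)]
  exact Subtype.ext e

local notation "W" => (LMS.LN.Sp (fun i : Fin (n + 3) => Fin.val i < kk n) : Submodule F (Fin (n + 3) → F))
local notation "W'" => (LMS.LN.Sp (fun i : Fin (n + 3) => Fin.val (Fin.rev i) < kk n) : Submodule F (Fin (n + 3) → F))
local notation "J" => JD n F (kk n)

theorem aa (A : Mx) : A + A = 0 := LMS.LN.aa A

variable (F) in
include F in
theorem k3 : 3 ≤ kk n := by have := Ok.h3 (n := n) (F := F); unfold kk; omega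

theorem btW {a b : V} (ha : a ∈ W) (hb : b ∈ W) : bt a b = 0 := by
  refine Finset.sum_eq_zero fun i _ => ?_
  by_cases h : i.1 < kk n
  · rw [hb i.rev (by simp only [Fin.val_rev]; unfold kk at h ⊢; omega), map_zero, mul_zero]
  · rw [ha i h, zero_mul]

theorem btW' {a b : V} (ha : a ∈ W') (hb : b ∈ W') : bt a b = 0 := by
  refine Finset.sum_eq_zero fun i _ => ?_
  by_cases h : i.rev.1 < kk n
  · rw [hb i.rev (by simp only [Fin.rev_rev]; rw [Fin.val_rev] at h; unfold kk at h ⊢; omega), map_zero, mul_zero]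
  · rw [ha i h, zero_mul]

theorem hm_Jm {a b : V} (ha : a ∈ W) (hb : b ∈ W) : hm a b ∈ LMS.LN.Jm F n :=
  LMS.LN.vv_Jm ha fun j hj => by
    rw [hb j.rev (by simp only [Fin.val_rev] at hj ⊢; unfold kk at hj ⊢; omega), map_zero]

variable (F n) in
/-- the matrices of `J` -/
def HJ : AddSubgroup Mx where
  carrier := {N | N ∈ LMS.LN.Jm F n ∧ ad N = N}
  zero_mem' := ⟨zero_mem _, ad_zero⟩
  add_mem' := fun ha hb => ⟨add_mem ha.1 hb.1, by rw [ad_add, ha.2, hb.2]⟩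
  neg_mem' := fun {A} h => by rwa [neg_eq_of_add_eq_zero_right (aa A)]

theorem HJ0 {A B : Mx} (hA : A ∈ HJ F n) (hB : B ∈ HJ F n) : A * B = 0 := LMS.LN.Z0_Jm A hA.1 B hB.1

theorem xext {x y : X} (h : x.1.1 = y.1.1) : x = y := Subtype.ext (Subtype.ext h)
theorem mul_val (x y : X) : (x * y).1.1 = x.1.1 * y.1.1 := rfl

theorem inv1 {x : X} {A : Mx} (h : A * A = 0) (e : x.1.1 = 1 + A) : x * x = 1 :=
  Subtype.ext (LMS.LN.inv1 h e)

theorem mem_J {x : X} : x ∈ J ↔ ∃ N ∈ HJ F n, x.1.1 = 1 + N := by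
  change x.1 ∈ LMS.JJ n F (kk n) ↔ _
  rw [LMS.LN.mem_J]
  refine ⟨fun ⟨N, hN, e⟩ => ⟨N, ⟨hN, ?_⟩, e⟩, fun ⟨N, hN, e⟩ => ⟨N, hN.1, e⟩⟩
  have := ad_val x
  rw [inv_eq_of_mul_eq_one_right (inv1 (LMS.LN.Z0_Jm N hN N hN) e), e, ad_add, ad_one] at this
  exact add_left_cancel this

/-- the element of `J` -/
def eJ (N : Mx) (h : N ∈ HJ F n) : X := el N (HJ0 h h) h.2

theorem eJ_mem {N : Mx} (h : N ∈ HJ F n) : eJ N h ∈ J := mem_J.2 ⟨N, h, rfl⟩

/-- the group `1 + T` -/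
def GS (T : AddSubgroup Mx) (h : ∀ A ∈ T, ∀ B ∈ T, A * B = 0) : Subgroup X where
  carrier := {x | ∃ A ∈ T, x.1.1 = 1 + A}
  one_mem' := ⟨0, T.zero_mem, by simp⟩
  mul_mem' := by
    rintro x y ⟨A, hA, e⟩ ⟨B, hB, f⟩
    exact ⟨A + B, T.add_mem hA hB, by rw [mul_val, e, f, LMS.LN.mul1 (h A hA B hB)]⟩
  inv_mem' := by
    rintro x ⟨A, hA, e⟩
    rw [inv_eq_of_mul_eq_one_right (inv1 (h A hA A hA) e)]
    exact ⟨A, hA, e⟩

theorem el_GS {T : AddSubgroup Mx} (h : ∀ A ∈ T, ∀ B ∈ T, A * B = 0) : El (GS T h) := by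
  rintro x ⟨A, hA, e⟩
  exact inv1 (h A hA A hA) e

theorem card_GS {T : AddSubgroup Mx} (h : ∀ A ∈ T, ∀ B ∈ T, A * B = 0) (k : ∀ A ∈ T, ad A = A) :
    Nat.card (GS T h) = Nat.card T := by
  symm
  refine Nat.card_eq_of_bijective (fun A : T => (⟨el A.1 (h _ A.2 _ A.2) (k _ A.2), A.1, A.2, rfl⟩ : GS T h)) ⟨?_, ?_⟩
  · intro A B e
    have e' : (1 : Mx) + A.1 = 1 + B.1 := congrArg (fun x : GS T h => x.1.1.1) e
    exact Subtype.ext (add_left_cancel e')
  · rintro ⟨x, A, hA, e⟩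
    exact ⟨⟨A, hA⟩, Subtype.ext (xext e.symm)⟩

theorem two_El {B : Subgroup X} (h : El B) : IsPGroup 2 B := fun g =>
  ⟨1, Subtype.ext (by simpa [pow_two] using h g.1 g.2)⟩

theorem el_J : El J := fun x hx => by
  obtain ⟨N, hN, e⟩ := mem_J.1 hx
  exact inv1 (HJ0 hN hN) e

/-- `hm u v + hm v u` -/
def S (u v : V) : Mx := hm u v + hm v u

theorem S_ad (u v : V) : ad (S u v) = S u v := by rw [S, ad_add, ad_hm, ad_hm]; exact add_comm _ _
theorem S_comm (u v : V) : S u v = S v u := add_comm _ _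
theorem S_addr (u v v' : V) : S u (v + v') = S u v + S u v' := by
  simp only [S, hm_addl, hm_addr]; abel
theorem S_addl (u u' v : V) : S (u + u') v = S u v + S u' v := by
  simp only [S, hm_addl, hm_addr]; abel
theorem S_zeror (u : V) : S u 0 = 0 := by rw [S, hm_zerol, hm_zeror, add_zero]
theorem S_zerol (u : V) : S 0 u = 0 := by rw [S, hm_zerol, hm_zeror, add_zero]
theorem S_smul (c : F) (u v : V) : S (c • u) v = S u (σ c • v) := by
  rw [S, S, hm_smull, hm_smulr, hm_smulr, hm_smull, σσ]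
theorem S_self (c : F) (u : V) : S u (c • u) = (c + σ c) • hm u u := by
  rw [S, hm_smull, hm_smulr, add_smul]; exact add_comm _ _
theorem S_HJ {a b : V} (ha : a ∈ W) (hb : b ∈ W) : S a b ∈ HJ F n := ⟨add_mem (hm_Jm ha hb) (hm_Jm hb ha), S_ad a b⟩
theorem hm_HJ {a : V} (ha : a ∈ W) {c : F} (hc : σ c = c) : c • hm a a ∈ HJ F n :=
  ⟨Submodule.smul_mem _ _ (hm_Jm ha ha), by rw [ad_smul, ad_hm, hc]⟩
theorem S_mv (u v x : V) : S u v *ᵥ x = bt x v • u + bt x u • v := by rw [S, add_mulVec, hm_mv, hm_mv]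
theorem S_S {u u' v : V} (h1 : bt u' v = 0) (h2 : bt v v = 0) (h3 : bt u' u = 0) (h4 : bt v u = 0) :
    S u v * S u' v = 0 := by
  simp only [S, add_mul, mul_add, hm_hm, h1, h2, h3, h4, zero_smul, add_zero]

theorem bt0 {u v : V} (h : bt u v = 0) : bt v u = 0 := by rw [← bt_sym, h, map_zero]

theorem ex_ω : ∃ c : F, c + σ c = 1 := by
  obtain ⟨a, ha⟩ : ∃ a : F, σ a ≠ a := by
    by_contra h
    push Not at h
    exact Hs.sg.1 (RingEquiv.ext h)
  have h0 : a + σ a ≠ 0 := fun e => ha (by rw [eq_neg_of_add_eq_zero_right e, CharTwo.neg_eq])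
  refine ⟨a / (a + σ a), ?_⟩
  rw [map_div₀, map_add, σσ, add_comm (σ a), ← add_div, div_self h0]

theorem tr_K (c : F) : σ (c + σ c) = c + σ c := by rw [map_add, σσ, add_comm]

/-- the commutator with `1 + S u v` -/
theorem cm_S {u v : V} (hu : u ∈ W) {N : Mx} (hN : N ∈ HJ F n) {ω : F} (hω : ω + σ ω = 1) :
    S u v * N + N * S u v + S u v * N * S u v = S u (N *ᵥ v + (ω * bt (N *ᵥ v) v) • u) := by
  have e1 : S u v * N = hm u (N *ᵥ v) := by
    rw [S, add_mul, hm_mul, hm_mul, hN.2, LMS.LN.Jm_mv0 hN.1 hu, hm_zeror, add_zero]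
  have e2 : N * S u v = hm (N *ᵥ v) u := by
    rw [S, mul_add, mul_hm, mul_hm, LMS.LN.Jm_mv0 hN.1 hu, hm_zerol, zero_add]
  have k : σ (bt (N *ᵥ v) v) = bt (N *ᵥ v) v := by rw [bt_sym, bt_mv, hN.2]
  rw [e1, e2, S_addr, S_self, S, S, mul_add, hm_hm, hm_hm, btW hu (LMS.LN.Jm_mv hN.1 v), zero_smul, zero_add,
    ← bt_sym (N *ᵥ v) v, k, map_mul, k, ← add_mul, hω, one_mul]

/-- the matrices of a line -/
def Cm (u v : V) : AddSubgroup Mx where
  carrier := {M | ∃ w ∈ W, σ (bt w v) = bt w v ∧ M = S u w}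
  zero_mem' := ⟨0, zero_mem _, by rw [bt_zerol, map_zero], (S_zeror u).symm⟩
  add_mem' := by
    rintro _ _ ⟨w, hw, k, rfl⟩ ⟨w', hw', k', rfl⟩
    exact ⟨w + w', add_mem hw hw', by rw [bt_addl, map_add, k, k'], (S_addr u w w').symm⟩
  neg_mem' := fun {A} h => by rwa [neg_eq_of_add_eq_zero_right (aa A)]

theorem Cm_le {u : V} (hu : u ∈ W) (v : V) : Cm u v ≤ HJ F n := by
  rintro _ ⟨w, hw, -, rfl⟩
  exact S_HJ hu hw

/-- the line -/
def CC {u : V} (hu : u ∈ W) (v : V) : Subgroup X :=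
  GS (Cm u v) fun _ hA _ hB => HJ0 (Cm_le hu v hA) (Cm_le hu v hB)

theorem dualW {u : V} (hu : u ∈ W) (h : u ≠ 0) : ∃ η ∈ W', bt u η = 1 := by
  obtain ⟨j, hj⟩ := Function.ne_iff.1 h
  refine ⟨Pi.single j.rev (σ (u j)⁻¹), LMS.LN.single_Sp (by rw [Fin.rev_rev]; by_contra k; exact hj (hu j k)) _, ?_⟩
  rw [bt, Finset.sum_eq_single j]
  · rw [Pi.single_eq_same, σσ, mul_inv_cancel₀ hj]
  · intro b _ hb
    rw [Pi.single_eq_of_ne (fun e => hb (Fin.rev_injective e)), map_zero, mul_zero]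
  · simp

theorem dualW' {u : V} (hu : u ∈ W') (h : u ≠ 0) : ∃ η ∈ W, bt η u = 1 := by
  obtain ⟨j, hj⟩ := Function.ne_iff.1 h
  refine ⟨Pi.single j.rev (σ (u j)⁻¹), LMS.LN.single_Sp (by by_contra k; exact hj (hu j k)) _, ?_⟩
  rw [bt, Finset.sum_eq_single j.rev]
  · rw [Pi.single_eq_same, Fin.rev_rev, ← map_mul, inv_mul_cancel₀ hj, map_one]
  · intro b _ hb
    rw [Pi.single_eq_of_ne hb, zero_mul]
  · simp

theorem S_eq0 {u w : V} (hu : u ∈ W) (h : u ≠ 0) (hw : w ∈ W) (e : S u w = 0) : ∃ c : F, σ c = c ∧ w = c • u := by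
  obtain ⟨η, -, d⟩ := dualW hu h
  have d' : bt η u = 1 := by rw [← bt_sym, d, map_one]
  have e1 := congrArg (· *ᵥ η) e
  simp only [S_mv, d', one_smul, zero_mulVec] at e1
  have e2 : w = bt η w • u := by
    refine (eq_neg_of_add_eq_zero_right e1).trans ?_
    ext i; simp [CharTwo.neg_eq]
  refine ⟨bt η w, ?_, e2⟩
  rw [bt_sym]
  conv_lhs => rw [e2, bt_smull, d, mul_one]

theorem card_hom {A B : Type*} [AddGroup A] [AddGroup B] (f : A →+ B) :
    Nat.card f.ker * Nat.card f.range = Nat.card A := by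
  rw [← AddSubgroup.index_ker, AddSubgroup.card_mul_index]

/-- the trace -/
def tr : F →+ F where
  toFun a := a + σ a
  map_zero' := by simp
  map_add' a b := by rw [map_add]; abel

theorem tr0 {a : F} : tr a = 0 ↔ σ a = a :=
  ⟨fun e => by rw [eq_neg_of_add_eq_zero_right (show a + σ a = 0 from e), CharTwo.neg_eq], fun e => by
    change a + σ a = 0; rw [e, CharTwo.add_self_eq_zero]⟩

theorem tr_sur {c : F} (h : σ c = c) : ∃ a, tr a = c := by
  obtain ⟨ω, hω⟩ := ex_ω (F := F)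
  exact ⟨ω * c, by change ω * c + σ (ω * c) = c; rw [map_mul, h, ← add_mul, hω, one_mul]⟩

theorem card_F : Nat.card F = Nat.card (K0 F) * Nat.card (K0 F) := by
  rw [← card_hom (tr : F →+ F)]
  congr 1
  · exact Nat.card_congr (Equiv.subtypeEquivRight fun a => tr0)
  · exact Nat.card_congr (Equiv.subtypeEquivRight fun a => ⟨fun ⟨b, e⟩ => e ▸ tr_K b, tr_sur⟩)

/-- `w ↦ tr β(w, v)` -/
def f1 (v : V) : (W) →+ F where
  toFun w := tr (bt w.1 v)
  map_zero' := by simp [bt_zerol]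
  map_add' a b := by rw [Submodule.coe_add, bt_addl, map_add]

/-- `w ↦ S u w` -/
def f2 (u v : V) : (f1 v).ker →+ Mx where
  toFun w := S u w.1.1
  map_zero' := S_zeror u
  map_add' a b := S_addr u _ _

theorem card_Cm {u v w0 : V} (hu : u ∈ W) (h : u ≠ 0) (huv : bt u v = 0) (hw : w0 ∈ W) (d : bt w0 v = 1) :
    Nat.card (Cm u v) = Nat.card (K0 F) ^ (2 * kk n - 2) := by
  have e1 := card_hom (f1 v)
  have e2 := card_hom (f2 u v)
  have a1 : Nat.card (f1 v).range = Nat.card (K0 F) := by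
    refine Nat.card_congr (Equiv.subtypeEquivRight fun a => ⟨fun ⟨b, e⟩ => e ▸ tr_K _, fun k => ?_⟩)
    obtain ⟨b, e⟩ := tr_sur k
    exact ⟨⟨b • w0, Submodule.smul_mem _ _ hw⟩, by change tr (bt (b • w0) v) = a; rw [bt_smull, d, mul_one, e]⟩
  have a2 : Nat.card (f2 u v).range = Nat.card (Cm u v) :=
    Nat.card_congr (Equiv.subtypeEquivRight fun a => ⟨fun ⟨b, e⟩ => ⟨b.1.1, b.1.2, tr0.1 b.2, e.symm⟩,
      fun ⟨w, hw, k, e⟩ => ⟨⟨⟨w, hw⟩, tr0.2 k⟩, e.symm⟩⟩)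
  have a3 : Nat.card (K0 F) = Nat.card (f2 u v).ker := by
    refine Nat.card_eq_of_bijective (fun c => ⟨⟨⟨c.1 • u, Submodule.smul_mem _ _ hu⟩, tr0.2 ?_⟩, ?_⟩) ⟨?_, ?_⟩
    · change σ (bt (c.1 • u) v) = bt (c.1 • u) v
      rw [bt_smull, huv, mul_zero, map_zero]
    · change S u (c.1 • u) = 0
      rw [S_self, show c.1 + σ c.1 = 0 from tr0.2 c.2, zero_smul]
    · intro a b e
      have e' : a.1 • u = b.1 • u := congrArg (fun x : (f2 u v).ker => x.1.1.1) e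
      exact Subtype.ext (smul_left_injective F h e')
    · intro w
      obtain ⟨c, k, e⟩ := S_eq0 hu h w.1.1.2 w.2
      exact ⟨⟨c, k⟩, Subtype.ext (Subtype.ext (Subtype.ext e.symm))⟩
  rw [a1, ← e2, a2, ← a3, LMS.LN.card_Sp, LMS.LN.cW, card_F (F := F), ← pow_two, ← pow_mul] at e1
  have q : 0 < Nat.card (K0 F) := Nat.card_pos
  have := k3 F (n := n)
  obtain ⟨m, hm⟩ : ∃ m, 2 * kk n = m + 2 := ⟨2 * kk n - 2, by omega⟩
  rw [hm] at e1 ⊢
  rw [Nat.add_sub_cancel]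
  refine Nat.eq_of_mul_eq_mul_left (Nat.mul_pos q q) ?_
  rw [← pow_two, ← pow_add, add_comm 2, ← e1]; ring

theorem cj_S {r x : X} {u v : V} (hu : u ∈ W) (h0 : S u v * S u v = 0) (e : r.1.1 = 1 + S u v) {N : Mx} (hN : N ∈ HJ F n)
    (f : x.1.1 = 1 + N) {ω : F} (hω : ω + σ ω = 1) :
    (r * x * r⁻¹).1.1 = 1 + (N + S u (N *ᵥ v + (ω * bt (N *ᵥ v) v) • u)) := by
  rw [← cm_S hu hN hω, ← add_assoc N, ← add_assoc N]
  exact LMS.LN.cj_val h0 e f

theorem nJ_S {r : X} {u v : V} (hu : u ∈ W) (h0 : S u v * S u v = 0) (e : r.1.1 = 1 + S u v) : r ∈ 𝐍(J) := by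
  obtain ⟨ω, hω⟩ := ex_ω (F := F)
  refine mem_normalizer_fintype fun x hx => ?_
  obtain ⟨N, hN, f⟩ := mem_J.1 hx
  exact mem_J.2 ⟨_, add_mem hN (S_HJ hu (add_mem (LMS.LN.Jm_mv hN.1 v) (Submodule.smul_mem _ _ hu))),
    cj_S hu h0 e hN f hω⟩

/-- every admissible vector is a value -/
theorem ex_N {v w w0 : V} (hw : w ∈ W) (k : σ (bt w v) = bt w v) (h0 : w0 ∈ W) (d : bt w0 v = 1) :
    ∃ N ∈ HJ F n, N *ᵥ v = w := by
  have d' : bt v w0 = 1 := by rw [← bt_sym, d, map_one]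
  refine ⟨S w w0 + bt w v • hm w0 w0, add_mem (S_HJ hw h0) (hm_HJ h0 k), ?_⟩
  rw [add_mulVec, S_mv, smul_mulVec, hm_mv, d', one_smul, one_smul, ← bt_sym w v, k, add_assoc, ← add_smul,
    CharTwo.add_self_eq_zero, zero_smul, add_zero]

theorem ln_S {r : X} {u v w0 : V} (hu : u ∈ W) (h : u ≠ 0) (huv : bt u v = 0) (hv : bt v v = 0) (hw : w0 ∈ W)
    (d : bt w0 v = 1) (e : r.1.1 = 1 + S u v) : Ln J r (CC hu v) := by
  obtain ⟨ω, hω⟩ := ex_ω (F := F)
  have h0 := S_S huv hv (btW hu hu) (bt0 huv)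
  have key : ∀ {x : X} {N : Mx}, N ∈ HJ F n → x.1.1 = 1 + N →
      (x * (r * x * r⁻¹)).1.1 = 1 + S u (N *ᵥ v + (ω * bt (N *ᵥ v) v) • u) := fun {x N} hN f => by
    rw [mul_val, cj_S hu h0 e hN f hω, f, LMS.LN.mul1 (HJ0 hN (add_mem hN (S_HJ hu
      (add_mem (LMS.LN.Jm_mv hN.1 v) (Submodule.smul_mem _ _ hu))))), ← add_assoc N, aa, zero_add]
  refine ⟨inv1 h0 e, nJ_S hu h0 e, ?_, ?_, fun y => ⟨?_, ?_⟩⟩
  · rintro x ⟨A, hA, f⟩
    exact mem_J.2 ⟨A, Cm_le hu v hA, f⟩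
  · rw [CC, card_GS _ fun A hA => (Cm_le hu v hA).2, card_Cm hu h huv hw d]
  · rintro ⟨_, ⟨w, hw', k, rfl⟩, f⟩
    have b : bt (w + (ω * bt w v) • u) v = bt w v := by rw [bt_addl, bt_smull, huv, mul_zero, add_zero]
    obtain ⟨N, hN, g⟩ := ex_N (add_mem hw' (Submodule.smul_mem _ (ω * bt w v) hu)) (by rw [b, k]) hw d
    refine ⟨eJ N hN, eJ_mem hN, xext ?_⟩
    rw [key hN rfl, f, g, b, add_assoc, ← add_smul, CharTwo.add_self_eq_zero, zero_smul, add_zero]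
  · rintro ⟨x, hx, rfl⟩
    obtain ⟨N, hN, f⟩ := mem_J.1 hx
    refine ⟨_, ⟨_, add_mem (LMS.LN.Jm_mv hN.1 v) (Submodule.smul_mem _ _ hu), ?_, rfl⟩, key hN f⟩
    rw [bt_addl, bt_smull, huv, mul_zero, add_zero, bt_sym, bt_mv, hN.2]

theorem rk_val {x : X} {M : Mx} (e : x.1.1 = 1 + M) : rk x = M.rank := LMS.LN.rk_val e

theorem rk_S {u w : V} (hu : u ∈ W) (h : u ≠ 0) (hw : w ∈ W) (k : (S u w).rank ≤ 1) : ∃ c : F, w = c • u := by
  obtain ⟨η, -, d⟩ := dualW hu h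
  have d' : bt η u = 1 := by rw [← bt_sym, d, map_one]
  have two : ∀ a : V, a + a = 0 := fun a => by ext i; simp [CharTwo.add_self_eq_zero]
  by_cases h0 : w + bt w η • u = 0
  · refine ⟨bt w η, ?_⟩
    generalize bt w η = c at h0
    rw [← add_zero w, ← two (c • u), ← add_assoc, h0, zero_add]
  obtain ⟨ζ, -, z⟩ := dualW (add_mem hw (Submodule.smul_mem _ _ hu)) h0
  have z' : bt ζ (w + bt w η • u) = 1 := by rw [← bt_sym, z, map_one]
  obtain ⟨a, b, e⟩ := LMS.B4.le_one k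
  have m : ∀ x, ∃ s : F, S u w *ᵥ x = s • a := fun x => ⟨b ⬝ᵥ x, by rw [e, vecMulVec_mulVec]; ext i; simp [mul_comm]⟩
  obtain ⟨s, e1⟩ := m (ζ + bt ζ u • η)
  obtain ⟨s', e2⟩ := m η
  rw [bt_addr, bt_smulr, bt_sym] at z'
  rw [S_mv, bt_addl, bt_addl, bt_smull, bt_smull, d', mul_one, CharTwo.add_self_eq_zero, zero_smul, add_zero,
    mul_comm, z', one_smul] at e1
  rw [S_mv, d', one_smul] at e2
  have s0 : s ≠ 0 := by rintro rfl; exact h (by rw [e1, zero_smul])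
  refine ⟨s' * s⁻¹ + bt η w, ?_⟩
  rw [add_smul, mul_smul, e1, smul_smul s⁻¹, inv_mul_cancel₀ s0, one_smul, ← e1, ← e2, add_comm, ← add_assoc, two,
    zero_add]

/-- the multiples of `hm u u` -/
def Zm (u : V) : AddSubgroup Mx where
  carrier := {M | ∃ c : F, σ c = c ∧ M = c • hm u u}
  zero_mem' := ⟨0, map_zero _, (zero_smul _ _).symm⟩
  add_mem' := by
    rintro _ _ ⟨c, k, rfl⟩ ⟨c', k', rfl⟩
    exact ⟨c + c', by rw [map_add, k, k'], (add_smul _ _ _).symm⟩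
  neg_mem' := fun {A} h => by rwa [neg_eq_of_add_eq_zero_right (aa A)]

theorem Zm_le {u v : V} (hu : u ∈ W) (huv : bt u v = 0) : Zm u ≤ Cm u v := by
  rintro _ ⟨c, k, rfl⟩
  obtain ⟨a, e⟩ := tr_sur k
  exact ⟨a • u, Submodule.smul_mem _ _ hu, by rw [bt_smull, huv, mul_zero, map_zero], by rw [S_self, ← e]; rfl⟩

theorem hm_ne {u : V} (h : u ≠ 0) : hm u u ≠ 0 := fun e =>
  ((vecMulVec_eq_zero (a := u)).1 e).elim h fun k => h (funext fun j => by simpa using congrFun k j.rev)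

theorem r1_C {u v : V} (hu : u ∈ W) (h : u ≠ 0) (huv : bt u v = 0) : R1 (CC hu v) := by
  have l : Zm u ≤ HJ F n := (Zm_le hu huv).trans (Cm_le hu v)
  refine ⟨GS (Zm u) fun _ hA _ hB => HJ0 (l hA) (l hB), ?_, fun x => ⟨?_, ?_⟩⟩
  · rw [card_GS _ fun A hA => (l hA).2]
    symm
    refine Nat.card_eq_of_bijective (fun c => ⟨c.1 • hm u u, c.1, c.2, rfl⟩) ⟨?_, ?_⟩
    · intro a b e
      exact Subtype.ext (smul_left_injective F (hm_ne h) (congrArg Subtype.val e))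
    · rintro ⟨_, c, k, rfl⟩
      exact ⟨⟨c, k⟩, rfl⟩
  · rintro ⟨A, hA, e⟩
    refine ⟨⟨A, Zm_le hu huv hA, e⟩, ?_⟩
    obtain ⟨c, -, rfl⟩ := hA
    rw [rk_val e, ← hm_smull]
    exact rank_vecMulVec_le _ _
  · rintro ⟨⟨_, ⟨w, hw, -, rfl⟩, e⟩, k⟩
    obtain ⟨c, rfl⟩ := rk_S hu h hw (rk_val e ▸ k)
    exact ⟨_, ⟨_, tr_K c, S_self c u⟩, e⟩

theorem bt_ee (w : V) (i : I) : bt w (ee i) = w i.rev := by
  rw [bt, Finset.sum_eq_single i.rev]
  · simp [ee]
  · intro b _ hb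
    rw [ee, Pi.single_eq_of_ne (fun e => hb (by rw [← e, Fin.rev_rev])), map_zero, mul_zero]
  · simp

theorem ee_W {i : I} (h : i.1 < kk n) : (ee i : V) ∈ W := LMS.LN.single_Sp (p := fun i : I => i.1 < kk n) h 1
theorem ee_W' {i : I} (h : i.1 < kk n) : (ee i.rev : V) ∈ W' :=
  LMS.LN.single_Sp (p := fun i : I => i.rev.1 < kk n) (by simpa using h) 1
theorem ee_ne (i : I) : (ee i : V) ≠ 0 := fun e => by simpa [ee] using congrFun e i

theorem cj_val (x : X) {y : X} {u w : V} (e : y.1.1 = 1 + S u w) :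
    (x * y * x⁻¹).1.1 = 1 + S (x.1.1 *ᵥ u) (x.1.1 *ᵥ w) := by
  have k : ad (x⁻¹).1.1 = x.1.1 := by rw [ad_val, inv_inv]
  rw [mul_val, mul_val, e, mul_add, add_mul, mul_one, ← mul_val, mul_inv_cancel, S, mul_add, add_mul, mul_hm, mul_hm,
    hm_mul, hm_mul, k]
  rfl

theorem UU_mv {x : X} (hx : x ∈ UU n F) {w : V} {i : I} (h : ∀ j, i < j → w j = 0) : (x.1.1 *ᵥ w) i = w i := by
  have k := (LMS.mem_UU (x := x.1)).1 hx
  change ∑ j, x.1.1 i j * w j = _
  rw [Finset.sum_eq_single i]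
  · rw [k i i le_rfl, one_apply_eq, one_mul]
  · intro j _ hj
    rcases lt_or_gt_of_ne hj with l | l
    · rw [k i j l.le, one_apply_ne hj.symm, zero_mul]
    · rw [h j l, mul_zero]
  · simp

theorem ln1' : ∃ r C, Ln J r C ∧ R1 C ∧ r ∈ UU n F ∧ ZZ n F ≤ C ∧ UU n F ≤ 𝐍(C) := by
  have k := k3 F (n := n)
  have k' : kk n ≤ n + 3 := LMS.LN.kk_le
  let j : I := ⟨kk n - 1, by omega⟩
  have jk : j.1 < kk n := by simp only [j]; omega
  have j0 : j ≠ 0 := fun e => by have := congrArg Fin.val e; simp only [j, Fin.val_zero] at this; omega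
  have hu : (ee 0 : V) ∈ W := ee_W (by simp only [Fin.val_zero]; omega)
  have huv : bt (ee 0 : V) (ee j.rev) = 0 := by rw [bt_ee, Fin.rev_rev, ee, Pi.single_eq_of_ne j0]
  have hv : bt (ee j.rev : V) (ee j.rev) = 0 := btW' (ee_W' jk) (ee_W' jk)
  have d : bt (ee j : V) (ee j.rev) = 1 := by rw [bt_ee, Fin.rev_rev, ee, Pi.single_eq_same]
  have h0 := S_S huv hv (btW hu hu) (bt0 huv)
  refine ⟨el _ h0 (S_ad _ _), _, ln_S hu (ee_ne 0) huv hv (ee_W jk) d rfl, r1_C hu (ee_ne 0) huv, ?_, ?_, ?_⟩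
  · refine (LMS.mem_UU (x := (el _ h0 (S_ad _ _)).1)).2 fun a b hab => ?_
    rw [el_val, Matrix.add_apply, add_eq_left, S, Matrix.add_apply, hm, hm, vecMulVec_apply, vecMulVec_apply]
    have e1 : (ee 0 : V) a * σ ((ee j.rev : V) b.rev) = 0 := by
      by_cases c : a = 0
      · have : b ≠ j := fun e => j0 (le_antisymm (by rw [← e, ← c]; exact hab) (Fin.zero_le _))
        rw [ee, ee, Pi.single_eq_of_ne (fun e => this (Fin.rev_injective e)), map_zero, mul_zero]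
      · rw [ee, Pi.single_eq_of_ne c, zero_mul]
    have e2 : (ee j.rev : V) a * σ ((ee 0 : V) b.rev) = 0 := by
      by_cases c : b.rev = 0
      · have : a ≠ j.rev := fun e => j0 (le_antisymm (by rw [← c, ← Fin.rev_le_rev, Fin.rev_rev, ← e]; exact hab)
          (Fin.zero_le _))
        rw [ee, Pi.single_eq_of_ne this, zero_mul]
      · rw [ee, ee, Pi.single_eq_of_ne c, map_zero, mul_zero]
    rw [e1, e2, add_zero]
  · refine (closure_le _).2 ?_
    rintro _ ⟨c, rfl⟩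
    have m := hm_HJ hu c.2
    exact ⟨_, Zm_le hu huv ⟨c.1, c.2, rfl⟩, by rw [zz, tc, mk_val (HJ0 m m) m.2]; rfl⟩
  · intro x hx
    refine mem_normalizer_fintype ?_
    rintro y ⟨_, ⟨w, hw, kw, rfl⟩, e⟩
    have x0 : x.1.1 *ᵥ ee 0 = ee 0 := funext fun i => UU_mv hx fun l hl =>
      Pi.single_eq_of_ne (fun e => absurd hl (by rw [e]; exact not_lt.2 (Fin.zero_le _))) _
    refine ⟨_, ⟨_, LMS.LN.UU_W (u := x.1) hx hw, ?_, rfl⟩, by rw [cj_val x e, x0]⟩
    rw [bt_ee, Fin.rev_rev] at kw ⊢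
    rwa [UU_mv hx fun l hl => hw l (by have : kk n - 1 < l.1 := hl; omega)]

/-- the matrices of `J ⊓ D` -/
def DS (D : Subgroup X) : AddSubgroup Mx where
  carrier := {M | M ∈ HJ F n ∧ ∃ x ∈ D, x.1.1 = 1 + M}
  zero_mem' := ⟨zero_mem _, 1, D.one_mem, by simp⟩
  add_mem' := by
    rintro A B ⟨hA, x, hx, e⟩ ⟨hB, y, hy, f⟩
    exact ⟨add_mem hA hB, x * y, D.mul_mem hx hy, by rw [mul_val, e, f, LMS.LN.mul1 (HJ0 hA hB)]⟩
  neg_mem' := fun {A} h => by rwa [neg_eq_of_add_eq_zero_right (aa A)]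

theorem DS.mem {D : Subgroup X} {x : X} {M : Mx} (h : M ∈ DS D) (e : x.1.1 = 1 + M) : x ∈ D := by
  obtain ⟨-, y, hy, f⟩ := h
  rwa [show x = y from xext (e.trans f.symm)]

theorem DS.zero {D D' : Subgroup X} (h : D ⊓ D' ⊓ J = ⊥) {M : Mx} (k : M ∈ DS D) (k' : M ∈ DS D') : M = 0 := by
  have e : eJ M k.1 ∈ D ⊓ D' ⊓ J := ⟨⟨DS.mem k rfl, DS.mem k' rfl⟩, eJ_mem k.1⟩
  rw [h, Subgroup.mem_bot] at e
  have e' : (1 : Mx) + M = 1 := congrArg (fun x : X => x.1.1) e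
  simpa using e'

/-- every matrix of `J` is a sum of elements `S a b` -/
theorem sumS {N : Mx} (hN : N ∈ HJ F n) : ∃ a b : I → V, (∀ i, a i ∈ W) ∧ (∀ i, b i ∈ W) ∧ N = ∑ i, S (a i) (b i) := by
  obtain ⟨ω, hω⟩ := ex_ω (F := F)
  let a : I → V := fun i => if i.1 < kk n then ee i else 0
  let b : I → V := fun i j => σ ω * N j i.rev
  have e : ω • N = ∑ i, hm (a i) (b i) := by
    ext i j
    rw [Matrix.sum_apply, Finset.sum_eq_single i]
    · have := congrFun (congrFun hN.2 i) j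
      rw [ad_apply] at this
      simp only [hm, vecMulVec_apply, a, b, map_mul, σσ, this, Matrix.smul_apply, smul_eq_mul]
      split_ifs with c
      · simp [ee]
      · rw [hN.1 i j fun k => c k.1]; simp
    · intro l _ hl
      simp only [hm, vecMulVec_apply, a]
      split_ifs with c
      · rw [ee, Pi.single_eq_of_ne hl.symm, zero_mul]
      · simp
    · simp
  refine ⟨a, b, fun i => ?_, fun i j hj => ?_, ?_⟩
  · simp only [a]
    split_ifs with c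
    · exact ee_W c
    · exact zero_mem _
  · simp only [b]
    rw [hN.1 j _ fun k => hj k.1, mul_zero]
  · have e' := congrArg ad e
    rw [ad_smul, hN.2] at e'
    have s : ad (∑ i, hm (a i) (b i)) = ∑ i, hm (b i) (a i) := by
      ext i j
      rw [ad_apply, Matrix.sum_apply, Matrix.sum_apply, map_sum]
      exact Finset.sum_congr rfl fun l _ => congrFun (congrFun (ad_hm (a l) (b l)) i) j
    simp only [S, Finset.sum_add_distrib]
    rw [← e, ← s, ← e', ← add_smul, hω, one_smul]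

theorem hm_sq (a b : V) : hm (a + b) (a + b) = hm a a + hm b b + S a b := by
  simp only [S, hm_addl, hm_addr]; abel

theorem rk_add (A B : Mx) : (A + B).rank ≤ A.rank + B.rank := by
  unfold Matrix.rank
  rw [mulVecLin_add]
  exact (Submodule.finrank_mono (LinearMap.range_add_le _ _)).trans (Submodule.finrank_add_le_finrank_add_finrank _ _)

theorem ex_ind {u v : V} (hu : u ∈ W) (h : u ≠ 0) (hv : v ∈ W) (k : v ≠ 0) :
    ∃ w ∈ W, (∀ c : F, w ≠ c • u) ∧ ∀ c : F, w ≠ c • v := by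
  obtain ⟨η, -, d⟩ := dualW hu h
  obtain ⟨ζ, -, z⟩ := dualW hv k
  have r : (hm (ee 0) η + hm (ee 1) ζ : Mx).rank < Fintype.card {i : I // i.1 < kk n} := by
    rw [LMS.LN.cW]
    have := k3 F (n := n)
    have a := rk_add (hm (ee 0) η : Mx) (hm (ee 1) ζ)
    have b : (hm (ee 0) η : Mx).rank ≤ 1 := rank_vecMulVec_le _ _
    have c : (hm (ee 1) ζ : Mx).rank ≤ 1 := rank_vecMulVec_le _ _
    omega
  obtain ⟨w, hw, w0, e⟩ := LMS.LN.ker_Sp _ r
  rw [add_mulVec, hm_mv, hm_mv] at e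
  have e0 : bt w η = 0 := by simpa [ee] using congrFun e 0
  have e1 : bt w ζ = 0 := by simpa [ee] using congrFun e 1
  refine ⟨w, hw, ?_, ?_⟩
  · rintro c rfl
    rw [bt_smull, d, mul_one] at e0
    exact w0 (by rw [e0, zero_smul])
  · rintro c rfl
    rw [bt_smull, z, mul_one] at e1
    exact w0 (by rw [e1, zero_smul])

theorem hm_inj {u w : V} (hu : u ∈ W) (h : u ≠ 0) (e : hm u u = hm w w) : ∃ c : F, u = c • w := by
  obtain ⟨η, -, d⟩ := dualW hu h
  have d' : bt η u = 1 := by rw [← bt_sym, d, map_one]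
  have e1 := congrArg (· *ᵥ η) e
  simp only [hm_mv, d', one_smul] at e1
  exact ⟨_, e1⟩

/-- five elements of rank one with sum zero -/
theorem five {T T' : AddSubgroup Mx} (h0 : ∀ M ∈ T, M ∈ T' → M = 0) (h : ∀ a ∈ W, hm a a ∈ T ∨ hm a a ∈ T')
    {u w : V} (hu : u ∈ W) (u0 : u ≠ 0) (hw : w ∈ W) (k : ∀ c : F, w ≠ c • u) (a : hm u u ∈ T) : hm w w ∈ T := by
  refine (h w hw).resolve_right fun b => ?_
  obtain ⟨ω, hω⟩ := ex_ω (F := F)
  have w0 : w ≠ 0 := fun e => k 0 (by rw [e, zero_smul])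
  have two : (1 : F) + 1 = 0 := CharTwo.add_self_eq_zero 1
  have ω0 : ω ≠ 0 := by rintro rfl; simp at hω
  have ω1 : σ ω ≠ 0 := by simpa using ω0
  have sum : hm u u + hm w w + (hm (u + (1 : F) • w) (u + (1 : F) • w) + hm (u + ω • w) (u + ω • w) +
      hm (u + σ ω • w) (u + σ ω • w)) = 0 := by
    have e : S u ((1 : F) • w) + S u (ω • w) + S u (σ ω • w) = 0 := by
      rw [← S_addr, ← S_addr, ← add_smul, ← add_smul, add_assoc, hω, two, zero_smul, S_zeror]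
    simp only [hm_sq, hm_smull, hm_smulr, σσ, map_one, one_smul, smul_smul] at e ⊢
    rw [mul_comm (σ ω)]
    calc _ = (hm u u + hm u u) + (hm u u + hm u u) + (hm w w + hm w w) + ((ω * σ ω) • hm w w + (ω * σ ω) • hm w w) +
        (S u w + S u (ω • w) + S u (σ ω • w)) := by abel
      _ = 0 := by simp only [aa, e, add_zero]
  have m : ∀ c : F, u + c • w ∈ W := fun c => add_mem hu (Submodule.smul_mem _ _ hw)
  have n1 : ∀ {c : F}, c ≠ 0 → hm u u + hm (u + c • w) (u + c • w) ≠ 0 := fun {c} hc e => by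
    obtain ⟨s, e⟩ := hm_inj hu u0 ((eq_neg_of_add_eq_zero_left e).trans (neg_eq_of_add_eq_zero_right (aa _)))
    have s0 : s ≠ 0 := by rintro rfl; exact u0 (by rw [e, zero_smul])
    refine k (c⁻¹ * (s⁻¹ - 1)) ?_
    have : s⁻¹ • u = u + c • w := by
      conv_lhs => rw [e]
      rw [smul_smul, inv_mul_cancel₀ s0, one_smul]
    rw [mul_smul, sub_smul, this, one_smul, add_sub_cancel_left, smul_smul, inv_mul_cancel₀ hc, one_smul]
  have n2 : ∀ {c : F}, hm w w + hm (u + c • w) (u + c • w) ≠ 0 := fun {c} e => by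
    obtain ⟨s, e⟩ := hm_inj hw w0 ((eq_neg_of_add_eq_zero_left e).trans (neg_eq_of_add_eq_zero_right (aa _)))
    have s0 : s ≠ 0 := by rintro rfl; exact w0 (by rw [e, zero_smul])
    have e' : (1 - s * c) • w = s • u := by
      rw [sub_smul, one_smul, sub_eq_iff_eq_add, mul_smul, ← smul_add]; exact e
    have t0 : 1 - s * c ≠ 0 := fun q => by
      rw [q, zero_smul] at e'
      exact (smul_ne_zero s0 u0) e'.symm
    exact k ((1 - s * c)⁻¹ * s) (by rw [mul_smul, ← e', smul_smul, inv_mul_cancel₀ t0, one_smul])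
  have fin : ∀ {A B : Mx}, A ∈ T → B ∈ T' → A + B = 0 → A = 0 ∧ B = 0 := fun {A B} hA hB e => by
    have : A = B := (eq_neg_of_add_eq_zero_left e).trans (neg_eq_of_add_eq_zero_right (aa _))
    exact ⟨h0 A hA (this ▸ hB), h0 B (this ▸ hA) hB⟩
  have p1 := n1 (one_ne_zero (α := F)); have p2 := n1 ω0; have p3 := n1 ω1
  have q1 := n2 (c := 1); have q2 := n2 (c := ω); have q3 := n2 (c := σ ω)
  have p0 := hm_ne u0; have q0 := hm_ne w0
  have c1 := h _ (m 1); have c2 := h _ (m ω); have c3 := h _ (m (σ ω))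
  generalize hm (u + (1 : F) • w) (u + (1 : F) • w) = P at *
  generalize hm (u + ω • w) (u + ω • w) = Q at *
  generalize hm (u + σ ω • w) (u + σ ω • w) = R at *
  generalize hm u u = A at *
  generalize hm w w = B at *
  rcases c1 with c1 | c1 <;> rcases c2 with c2 | c2 <;> rcases c3 with c3 | c3
  · exact q0 (fin (add_mem a (add_mem (add_mem c1 c2) c3)) b (by rw [← sum]; abel)).2
  · exact q3 (fin (add_mem a (add_mem c1 c2)) (add_mem b c3) (by rw [← sum]; abel)).2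
  · exact q2 (fin (add_mem a (add_mem c1 c3)) (add_mem b c2) (by rw [← sum]; abel)).2
  · exact p1 (fin (add_mem a c1) (add_mem b (add_mem c2 c3)) (by rw [← sum]; abel)).1
  · exact q1 (fin (add_mem a (add_mem c2 c3)) (add_mem b c1) (by rw [← sum]; abel)).2
  · exact p2 (fin (add_mem a c2) (add_mem b (add_mem c1 c3)) (by rw [← sum]; abel)).1
  · exact p3 (fin (add_mem a c3) (add_mem b (add_mem c1 c2)) (by rw [← sum]; abel)).1
  · exact p0 (fin a (add_mem b (add_mem (add_mem c1 c2) c3)) (by rw [← sum]; abel)).1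

theorem ln3a {T T' : AddSubgroup Mx} (h0 : ∀ M ∈ T, M ∈ T' → M = 0) (h : ∀ a ∈ W, hm a a ∈ T ∨ hm a a ∈ T')
    {u : V} (hu : u ∈ W) (u0 : u ≠ 0) (a : hm u u ∈ T) {N : Mx} (hN : N ∈ HJ F n) : N ∈ T := by
  have k : ∀ v ∈ W, hm v v ∈ T := fun v hv => by
    by_cases v0 : v = 0
    · rw [v0, hm_zerol]; exact zero_mem _
    obtain ⟨w, hw, k1, k2⟩ := ex_ind hu u0 hv v0
    have w0 : w ≠ 0 := fun e => k1 0 (by rw [e, zero_smul])
    refine five h0 h hw w0 hv (fun c e => ?_) (five h0 h hu u0 hw k1 a)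
    have c0 : c ≠ 0 := by rintro rfl; exact v0 (by rw [e, zero_smul])
    exact k2 c⁻¹ (by rw [e, smul_smul, inv_mul_cancel₀ c0, one_smul])
  obtain ⟨a, b, ha, hb, rfl⟩ := sumS hN
  refine sum_mem fun i _ => ?_
  have := k _ (add_mem (ha i) (hb i))
  rw [hm_sq] at this
  exact (add_mem_cancel_left (add_mem (k _ (ha i)) (k _ (hb i)))).1 this

theorem ln3' {D D' : Subgroup X} (h : D ⊓ D' ⊓ J = ⊥) (k : ∀ x ∈ J, rk x = 1 → x ∈ D ∨ x ∈ D') : J ≤ D ∨ J ≤ D' := by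
  have key : ∀ {D : Subgroup X}, (∀ M ∈ HJ F n, M ∈ DS D) → J ≤ D := fun h x hx => by
    obtain ⟨M, hM, e⟩ := mem_J.1 hx
    exact DS.mem (h M hM) e
  have c : ∀ a ∈ W, hm a a ∈ DS D ∨ hm a a ∈ DS D' := fun a ha => by
    by_cases a0 : a = 0
    · left; rw [a0, hm_zerol]; exact zero_mem _
    have hM : hm a a ∈ HJ F n := ⟨hm_Jm ha ha, ad_hm a a⟩
    have r1 : rk (eJ _ hM) = 1 := by
      refine le_antisymm ((rk_val rfl).trans_le (rank_vecMulVec_le _ _)) (Nat.pos_of_ne_zero fun e => hm_ne a0 ?_)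
      have e' : (1 : Mx) + hm a a = 1 := congrArg Subtype.val (LMS.rk_zero.1 e)
      simpa using e'
    exact (k _ (eJ_mem hM) r1).imp (fun h => ⟨hM, _, h, rfl⟩) fun h => ⟨hM, _, h, rfl⟩
  have hu : (ee 0 : V) ∈ W := ee_W (by have := k3 F (n := n); simp only [Fin.val_zero]; omega)
  exact (c _ hu).imp (fun a => key fun M hM => ln3a (fun _ => DS.zero h) c hu (ee_ne 0) a hM)
    fun a => key fun M hM => ln3a (fun _ a b => DS.zero h b a) (fun a ha => (c a ha).symm) hu (ee_ne 0) a hM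

/-- the matrices `S u v`, `u ∈ W ⊓ v^⊥` -/
def Rm (v : V) : AddSubgroup Mx where
  carrier := {M | ∃ u ∈ W, bt u v = 0 ∧ M = S u v}
  zero_mem' := ⟨0, zero_mem _, bt_zerol v, (S_zerol v).symm⟩
  add_mem' := by
    rintro _ _ ⟨w, hw, k, rfl⟩ ⟨w', hw', k', rfl⟩
    exact ⟨w + w', add_mem hw hw', by rw [bt_addl, k, k', add_zero], (S_addl w w' v).symm⟩
  neg_mem' := fun {A} h => by rwa [neg_eq_of_add_eq_zero_right (aa A)]

theorem Rm0 {v : V} (hv : bt v v = 0) : ∀ A ∈ Rm v, ∀ B ∈ Rm v, A * B = 0 := by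
  rintro _ ⟨u, hu, k, rfl⟩ _ ⟨u', hu', k', rfl⟩
  exact S_S k' hv (btW hu' hu) (bt0 k)

/-- the hyperplane `β(N v, v) = 0` is spanned by the lines -/
theorem hyp {T : AddSubgroup Mx} {v w0 : V} (hw : w0 ∈ W) (d : bt w0 v = 1)
    (h : ∀ u ∈ W, bt u v = 0 → ∀ w ∈ W, S u w ∈ T) {N : Mx} (hN : N ∈ HJ F n) (e : bt (N *ᵥ v) v = 0) : N ∈ T := by
  have d' : bt v w0 = 1 := by rw [← bt_sym, d, map_one]
  have two : ∀ a : V, a + a = 0 := fun a => by ext i; simp [CharTwo.add_self_eq_zero]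
  have p : ∀ a, bt (a + bt a v • w0) v = 0 := fun a => by
    rw [bt_addl, bt_smull, d, mul_one, CharTwo.add_self_eq_zero]
  have key : ∀ a ∈ W, ∀ b ∈ W, S a b + bt (S a b *ᵥ v) v • hm w0 w0 ∈ T := fun a ha b hb => by
    have ha' := add_mem ha (Submodule.smul_mem _ (bt a v) hw)
    have hb' := add_mem hb (Submodule.smul_mem _ (bt b v) hw)
    have := add_mem (h _ ha' (p a) b hb) (h _ hb' (p b) _ (Submodule.smul_mem _ (bt a v) hw))
    convert this using 1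
    rw [S_addl, S_addl, S_comm b, add_assoc, ← add_assoc (S (bt a v • w0) b), aa, zero_add, S_smul, smul_smul, S_self,
      S_mv, bt_addl, bt_smull, bt_smull, map_mul, σσ, bt_sym, bt_sym, mul_comm (bt b v)]
  obtain ⟨a, b, ha, hb, rfl⟩ := sumS hN
  have := sum_mem (t := Finset.univ) fun i _ => key _ (ha i) _ (hb i)
  rw [Finset.sum_add_distrib, ← Finset.sum_smul] at this
  have s : ∑ i, bt (S (a i) (b i) *ᵥ v) v = bt ((∑ i, S (a i) (b i)) *ᵥ v) v := by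
    induction (Finset.univ : Finset I) using Finset.induction_on with
    | empty => simp [bt_zerol]
    | insert i s hi ih => rw [Finset.sum_insert hi, Finset.sum_insert hi, add_mulVec, bt_addl, ih]
  rwa [s, e, zero_smul, add_zero] at this

theorem dual2 {u v : V} (hu : u ∈ W') (h : u ≠ 0) (hv : v ∈ W') (k : v ≠ 0) : ∃ η ∈ W, bt u η = 1 ∧ bt v η ≠ 0 := by
  obtain ⟨a, ha, d⟩ := dualW' hu h
  obtain ⟨b, hb, d'⟩ := dualW' hv k
  replace d : bt u a = 1 := by rw [← bt_sym, d, map_one]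
  replace d' : bt v b = 1 := by rw [← bt_sym, d', map_one]
  by_cases h1 : bt v a = 0
  · by_cases h2 : bt u b = 0
    · exact ⟨a + b, add_mem ha hb, by rw [bt_addr, d, h2, add_zero],
        by rw [bt_addr, d', h1, zero_add]; exact one_ne_zero⟩
    · exact ⟨σ (bt u b)⁻¹ • b, Submodule.smul_mem _ _ hb, by rw [bt_smulr, σσ, inv_mul_cancel₀ h2],
        by rw [bt_smulr, σσ, d', mul_one]; exact inv_ne_zero h2⟩
  · exact ⟨a, ha, d, h1⟩

theorem move {u v : V} (hu : u ∈ W') (h : u ≠ 0) (hv : v ∈ W') (k : v ≠ 0) {M : Mx} (hM : M ∈ HJ F n) :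
    ∃ M' ∈ HJ F n, M'.rank = M.rank ∧ bt (M' *ᵥ u) u = bt (M *ᵥ v) v := by
  obtain ⟨η, hη, d, d'⟩ := dual2 hu h hv k
  have two : ∀ a : V, a + a = 0 := fun a => by ext i; simp [CharTwo.add_self_eq_zero]
  have q : (1 + hm (v + u) η) * (1 + (bt v η)⁻¹ • hm (v + u) η) = (1 : Mx) := by
    rw [add_mul, mul_add, mul_add, one_mul, one_mul, mul_one, Matrix.mul_smul, hm_hm, bt_addl, d, smul_smul, mul_add,
      inv_mul_cancel₀ d', mul_one, add_smul, one_smul]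
    calc _ = 1 + (hm (v + u) η + hm (v + u) η) + ((bt v η)⁻¹ • hm (v + u) η + (bt v η)⁻¹ • hm (v + u) η) := by abel
      _ = 1 := by rw [aa, aa, add_zero, add_zero]
  have q' := congrArg ad q
  rw [ad_mul, ad_one] at q'
  have Au : (1 + hm (v + u) η) *ᵥ u = v := by
    rw [add_mulVec, one_mulVec, hm_mv, d, one_smul, add_comm v, ← add_assoc, two, zero_add]
  refine ⟨ad (1 + hm (v + u) η) * M * (1 + hm (v + u) η), ⟨?_, ?_⟩, le_antisymm ?_ ?_, ?_⟩
  · have m := LMS.LN.Jm_mv hM.1 (v + u)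
    rw [ad_add, ad_one, ad_hm, add_mul, one_mul, hm_mul, hM.2, add_mul, mul_add, mul_add, mul_one, mul_one, mul_hm,
      hm_hm]
    exact add_mem (add_mem hM.1 (hm_Jm m hη)) (add_mem (hm_Jm hη m) (Submodule.smul_mem _ _ (hm_Jm hη hη)))
  · rw [ad_mul, ad_mul, ad_ad, hM.2, mul_assoc]
  · exact (rank_mul_le_left _ _).trans (rank_mul_le_right _ _)
  · generalize (1 + hm (v + u) η : Mx) = A at q q'
    generalize (1 + (bt v η)⁻¹ • hm (v + u) η : Mx) = B at q q'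
    have : M = ad B * (ad A * M * A) * B := by
      rw [mul_assoc, mul_assoc, mul_assoc, q, mul_one, ← mul_assoc, q', one_mul]
    conv_lhs => rw [this]
    exact (rank_mul_le_left _ _).trans (rank_mul_le_right _ _)
  · rw [mul_assoc, ← mulVec_mulVec, bt_mv, ad_ad, ← mulVec_mulVec, Au]

theorem NN_HJ {r : ℕ} (h : r ≤ kk n) : LMS.B4.NN n F r ∈ HJ F n := by
  refine ⟨fun i j k => ?_, ?_⟩
  · by_contra e
    have := LMS.B4.NN_ne e
    exact k (by unfold kk at h ⊢; omega)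
  · ext i j
    rw [ad_apply, LMS.B4.NN_apply, LMS.B4.NN_apply, Fin.rev_rev]
    by_cases c : i = j.rev
    · subst c; simp only [true_and]; split_ifs <;> simp
    · rw [if_neg fun k => c k.1.symm, if_neg fun k => c k.1, map_zero]

theorem NN_bt {r : ℕ} (i j : I) :
    bt (LMS.B4.NN n F r *ᵥ ee i.rev) (ee j.rev) = if j = i ∧ j.1 < r then (1 : F) else 0 := by
  rw [bt_ee, Fin.rev_rev, ee, mulVec_single_one, col_apply, LMS.B4.NN_apply, Fin.rev_rev]

theorem ex_iso {r : ℕ} : ∃ v ∈ W', v ≠ 0 ∧ bt (LMS.B4.NN n F r *ᵥ v) v = 0 := by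
  have k := k3 F (n := n)
  have k1 : (1 : I).1 < kk n := by simp only [Fin.val_one]; omega
  by_cases h : 1 < r
  · refine ⟨ee (Fin.rev 0) + ee (Fin.rev 1), add_mem (ee_W' (by simp only [Fin.val_zero]; omega)) (ee_W' k1),
      fun e => ?_, ?_⟩
    · have := congrFun e (Fin.rev 0)
      rw [Pi.add_apply, ee, ee, Pi.single_eq_same, Pi.single_eq_of_ne (fun e => absurd (Fin.rev_injective e) (by simp)), add_zero] at this
      exact one_ne_zero this
    · rw [mulVec_add, bt_addl, bt_addr, bt_addr, NN_bt, NN_bt, NN_bt, NN_bt, if_pos ⟨rfl, by simp only [Fin.val_zero]; omega⟩,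
        if_neg (by simp), if_neg (by simp), if_pos ⟨rfl, by simpa using h⟩, add_zero, zero_add, CharTwo.add_self_eq_zero]
  · exact ⟨ee (Fin.rev 1), ee_W' k1, ee_ne _, by rw [NN_bt, if_neg (by simpa using h)]⟩

theorem cW' : Fintype.card {i : I // i.rev.1 < kk n} = kk n := by
  exact (Fintype.card_congr (Fin.revPerm.subtypeEquiv fun _ => Iff.rfl)).trans (LMS.LN.cW (n := n))

theorem ln2' {y : X} (hy : y ∈ J) {ρ : ℕ} (h1 : rk y < ρ) (h2 : ρ ≤ kk n) :
    ∃ P : Subgroup X, IsPGroup 2 P ∧ J ≤ P ∧ (∀ p ∈ P, p * y = y * p) ∧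
      ∀ D D' : Subgroup X, D ⊓ D' ⊓ J = ⊥ → (∀ r C, r ∈ P → Ln J r C → R1 C → C ≤ D ∨ C ≤ D') →
        ∃ a ∈ J, rk a = ρ ∧ ((y ∈ D ∧ a ∈ D) ∨ (y ∈ D' ∧ a ∈ D')) := by
  obtain ⟨N, hN, f⟩ := mem_J.1 hy
  rw [rk_val f] at h1
  obtain ⟨v, hv, v0, ev⟩ := LMS.LN.ker_Sp (fun i : I => i.rev.1 < kk n) (A := N) (by rw [cW']; omega)
  have vv := btW' hv hv
  obtain ⟨w0, hw, d⟩ := dualW' hv v0
  have comm : ∀ {x : X} {A : Mx}, x.1.1 = 1 + A → A * N = 0 → N * A = 0 → x * y = y * x := fun e a b =>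
    xext (by rw [mul_val, mul_val, e, f, LMS.LN.mul1 a, LMS.LN.mul1 b, add_comm N])
  refine ⟨J ⊔ GS _ (Rm0 vv), IsPGroup.to_sup_of_normal_left' (two_El el_J) (two_El (el_GS _)) ?_,
    le_sup_left, ?_, ?_⟩
  · rintro x ⟨T, hT, e⟩
    have h0 := Rm0 vv T hT T hT
    obtain ⟨u, hu, -, rfl⟩ := hT
    exact nJ_S hu h0 e
  · have : J ⊔ GS _ (Rm0 vv) ≤ centralizer {y} := by
      refine sup_le (fun x hx => ?_) ?_
      · obtain ⟨M, hM, e⟩ := mem_J.1 hx
        exact mem_centralizer_singleton_iff.2 (comm e (HJ0 hM hN) (HJ0 hN hM))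
      · rintro x ⟨_, ⟨u, hu, -, rfl⟩, e⟩
        have z : N * S u v = 0 := by
          rw [S, mul_add, mul_hm, mul_hm, LMS.LN.Jm_mv0 hN.1 hu, ev, hm_zerol, hm_zerol, add_zero]
        refine mem_centralizer_singleton_iff.2 (comm e ?_ z)
        rw [← hN.2, ← S_ad, ← ad_mul, z, ad_zero]
    exact fun p hp => mem_centralizer_singleton_iff.1 (this hp)
  · intro D D' hD hL
    have c : ∀ u ∈ W, bt u v = 0 → Cm u v ≤ DS D ∨ Cm u v ≤ DS D' := fun u hu huv => by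
      by_cases u0 : u = 0
      · left
        rintro _ ⟨w, -, -, rfl⟩
        rw [u0, S_zerol]; exact zero_mem _
      have m : S u v ∈ Rm v := ⟨u, hu, huv, rfl⟩
      have of : ∀ {D : Subgroup X}, CC hu v ≤ D → Cm u v ≤ DS D := fun k M hM =>
        ⟨Cm_le hu v hM, eJ M (Cm_le hu v hM), k ⟨M, hM, rfl⟩, rfl⟩
      exact (hL (el _ (Rm0 vv _ m _ m) (S_ad _ _)) _ (mem_sup_right ⟨_, m, rfl⟩)
        (ln_S hu u0 huv vv hw d rfl) (r1_C hu u0 huv)).imp of of
    obtain ⟨v', hv', v0', e'⟩ := ex_iso (F := F) (n := n) (r := ρ)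
    obtain ⟨M, hM, rM, eM⟩ := move hv v0 hv' v0' (NN_HJ h2)
    rw [LMS.B4.NN_rank h2] at rM
    obtain ⟨u1, hu1, u10, e1⟩ := LMS.LN.ker_Sp (fun i : I => i.1 < kk n) (A := hm (ee 0) v) (by
      rw [LMS.LN.cW]
      have := k3 F (n := n)
      have b : (hm (ee 0) v : Mx).rank ≤ 1 := rank_vecMulVec_le _ _
      omega)
    rw [hm_mv] at e1
    have b1 : bt u1 v = 0 := (smul_eq_zero.1 e1).resolve_right (ee_ne 0)
    have fin : ∀ {T T' : AddSubgroup Mx}, (∀ M ∈ T, M ∈ T' → M = 0) →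
        (∀ u ∈ W, bt u v = 0 → Cm u v ≤ T ∨ Cm u v ≤ T') → Cm u1 v ≤ T → N ∈ T ∧ M ∈ T := by
      intro T T' h0 c k
      have k1 : ∀ u ∈ W, bt u v = 0 → Cm u v ≤ T := fun u hu huv => by
        by_cases u0 : u = 0
        · rintro _ ⟨w, -, -, rfl⟩
          rw [u0, S_zerol]; exact zero_mem _
        refine (c u hu huv).elim id fun k' => ?_
        obtain ⟨s, hs, e⟩ := S_eq0 hu1 u10 hu (h0 _ (k ⟨u, hu, by rw [huv, map_zero], rfl⟩)
          (k' ⟨u1, hu1, by rw [b1, map_zero], S_comm _ _⟩))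
        rintro _ ⟨w, hw, kw, rfl⟩
        refine k ⟨s • w, Submodule.smul_mem _ _ hw, by rw [bt_smull, map_mul, hs, kw], ?_⟩
        rw [e, S_smul, hs]
      have k2 : ∀ u ∈ W, bt u v = 0 → ∀ w ∈ W, S u w ∈ T := fun u hu huv w hw' => by
        by_cases b : bt w v = 0
        · exact k1 u hu huv ⟨w, hw', by rw [b, map_zero], rfl⟩
        · have := k1 (σ (bt w v) • u) (Submodule.smul_mem _ _ hu) (by rw [bt_smull, huv, mul_zero])
            ⟨(bt w v)⁻¹ • w, Submodule.smul_mem _ _ hw', by rw [bt_smull, inv_mul_cancel₀ b, map_one], rfl⟩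
          rwa [S_smul, σσ, smul_smul, mul_inv_cancel₀ b, one_smul] at this
      exact ⟨hyp hw d k2 hN (by rw [ev, bt_zerol]), hyp hw d k2 hM (eM.trans e')⟩
    refine ⟨eJ M hM, eJ_mem hM, (rk_val rfl).trans rM, (c u1 hu1 b1).imp (fun k => ?_) fun k => ?_⟩
    · have := fin (fun _ => DS.zero hD) c k
      exact ⟨DS.mem this.1 f, DS.mem this.2 rfl⟩
    · have := fin (fun _ a b => DS.zero hD b a) (fun u hu huv => (c u hu huv).symm) k
      exact ⟨DS.mem this.1 f, DS.mem this.2 rfl⟩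

end L81

end UMS
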