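import Cfsg.Agent.Lib.UMS.HF13
import Cfsg.Agent.Lib.LMS.NFb

/-! Normal forms of the involutory outer automorphisms of `XU`. -/

set_option autoImplicit false
set_option linter.unusedSectionVars false

namespace UMS.H13

open Subgroup H69 Cfsg Matrix U4S UMS.H12
open LMS (XX GX iL kk MM au tw Sg)
open scoped MatrixGroups commutatorElement

universe u
variable {F : Type u} [Field F] [CharP F 2] [Fintype F] [Hs F] {n : ℕ} [Ok n F]
variable {α α' : XU n F →* XU n F} {s s' : VV n F → VV n F}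

local notation "X" => XU n F
local notation "V" => VV n F
local notation "I" => Fin (n + 3)
local notation "Mx" => Matrix (Fin (n + 3)) (Fin (n + 3)) F

theorem mv_sum (M : Mx) (u : V) : M *ᵥ u = ∑ j, u j • M *ᵥ (ee j : V) := by
  conv_lhs => rw [← Finset.univ_sum_single u]
  rw [mulVec_sum]
  refine Finset.sum_congr rfl fun j _ => ?_
  rw [← mulVec_smul]
  congr 1
  ext k
  simp [ee, Pi.single_apply]

theorem colfix (h : Sm α s) {M : Mx} (hM : ∀ j, s (M *ᵥ ee j) = M *ᵥ ee j) (u : V) :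
    s (M *ᵥ u) = M *ᵥ fun j => σ (u j) := by
  let S : V →+ V := AddMonoidHom.mk' s h.add
  rw [mv_sum, mv_sum M fun j => σ (u j)]
  change S _ = _
  rw [map_sum]
  exact Finset.sum_congr rfl fun j _ => (h.smul _ _).trans (by rw [hM])

theorem gram_ext {P Q : Mx} (h : ∀ i j, bt (P *ᵥ ee i) (P *ᵥ ee j) = bt (Q *ᵥ ee i) (Q *ᵥ (ee j : V))) :
    ad P * P = ad Q * Q := by
  ext i j
  have := h i.rev j
  rw [bt_ad, bt_ad, mulVec_mulVec, mulVec_mulVec, bt_ee_l, bt_ee_l, Fin.rev_rev] at this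
  simpa [ee] using this

/-- the rational form -/
theorem ex_form (h : Sm α s) : ∃ (C : GX n F) (B : LinearMap.BilinForm (K0 F) (I → K0 F)),
    (∀ j, s (C.1 *ᵥ ee j) = C.1 *ᵥ ee j) ∧
    (∀ x y, (B x y : F) = bt (C.1 *ᵥ fun j => (x j : F)) (C.1 *ᵥ fun j => (y j : F))) ∧
    (∀ x y, B x y = B y x) ∧ (∀ x, (∀ y, B x y = 0) → x = 0) ∧ ((∀ x, B x x = 0) ↔ ∀ v, bt v (s v) = 0) := by
  obtain ⟨C, hC⟩ := H67.exists_GL_cols (F := F) (ι := I) (s := {v | s v = v}) (eq_top_iff.2 fun v _ => by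
    obtain ⟨a, -, b, -, sa, sb, c, rfl⟩ := h.dec (W := ⊤) (fun _ _ => trivial) (v := v) trivial
    exact add_mem (Submodule.smul_mem _ _ (Submodule.subset_span sa)) (Submodule.subset_span sb))
  have h1 : ∀ j, s (C.1 *ᵥ ee j) = C.1 *ᵥ ee j := fun j => by
    have : C.1 *ᵥ (ee j : V) = fun i => C.1 i j := by ext i; simp [ee]
    rw [this]; exact hC j
  have fx : ∀ x : I → K0 F, s (C.1 *ᵥ fun j => (x j : F)) = C.1 *ᵥ fun j => (x j : F) := fun x => by
    rw [colfix h h1]; congr 1; ext j; exact mem_K0.1 (x j).2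
  have sy : ∀ x y : I → K0 F, bt (C.1 *ᵥ fun j => (x j : F)) (C.1 *ᵥ fun j => (y j : F)) =
      bt (C.1 *ᵥ fun j => (y j : F)) (C.1 *ᵥ fun j => (x j : F)) := fun x y => by rw [← h.hb, fx, fx]
  have ea : ∀ x y : I → K0 F, (fun j => ((x + y) j : F)) = (fun j => (x j : F)) + fun j => (y j : F) :=
    fun x y => rfl
  have es : ∀ (c : K0 F) (x : I → K0 F), (fun j => ((c • x) j : F)) = (c : F) • fun j => (x j : F) :=
    fun x y => rfl
  have e1 : ∀ i : I, (fun j => ((Pi.single i 1 : I → K0 F) j : F)) = (ee i : V) := fun i => by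
    ext j; simp only [ee, Pi.single_apply]; split_ifs <;> rfl
  let B : LinearMap.BilinForm (K0 F) (I → K0 F) := LinearMap.mk₂ (K0 F)
    (fun x y => ⟨bt (C.1 *ᵥ fun j => (x j : F)) (C.1 *ᵥ fun j => (y j : F)), by rw [mem_K0, ← bt_symm, sy]⟩)
    (fun x x' y => Subtype.ext (by simp only [ea, mulVec_add, bt_add_l]; rfl))
    (fun c x y => Subtype.ext (by simp only [es, mulVec_smul, bt_smul_l]; rfl))
    (fun x y y' => Subtype.ext (by simp only [ea, mulVec_add, bt_add_r]; rfl))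
    (fun c x y => Subtype.ext (by simp only [es, mulVec_smul, bt_smul_r, mem_K0.1 c.2]; rfl))
  have su : ∀ v : V, C.1 *ᵥ ((C⁻¹).1 *ᵥ v) = v := fun v => by rw [mulVec_mulVec, Units.mul_inv, one_mulVec]
  refine ⟨C, B, h1, fun _ _ => rfl, fun x y => Subtype.ext (sy x y), fun x hx => ?_, fun k v => ?_,
    fun k x => Subtype.ext ?_⟩
  · have : (C.1 *ᵥ fun j => (x j : F)) = 0 := H76.bt_nd fun v => by
      rw [← su v, mv_sum C.1 ((C⁻¹).1 *ᵥ v), bt_sum_r]
      refine Finset.sum_eq_zero fun j _ => ?_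
      rw [bt_smul_r, ← e1]
      exact mul_eq_zero_of_right _ (congrArg Subtype.val (hx (Pi.single j 1)))
    have e := congrArg (fun v => (C⁻¹).1 *ᵥ v) this
    simp only [mulVec_mulVec, Units.inv_mul, one_mulVec, mulVec_zero] at e
    exact funext fun j => Subtype.ext (congrFun e j)
  · obtain ⟨l, hl⟩ := h.ex_l
    have : ∀ j, l (C.1 *ᵥ ee j) = 0 := fun j => mul_self_eq_zero.1 (by
      rw [hl, h1, ← e1]; exact congrArg Subtype.val (k (Pi.single j 1)))
    rw [← hl, ← su v, mv_sum C.1 ((C⁻¹).1 *ᵥ v), map_sum]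
    simp only [map_smul, this, smul_zero, Finset.sum_const_zero, mul_zero]
  · have := k (C.1 *ᵥ fun j => (x j : F))
    rwa [fx] at this

theorem alt_odd (h : Sm α s) (k : ∀ v, bt v (s v) = 0) : Odd n := by
  obtain ⟨C, B, -, -, sy, nd, al⟩ := ex_form h
  have := H66.even_finrank_of_alt B ⟨nd, fun x hx => nd x fun y => by rw [sy, hx]⟩ (al.2 k)
  rw [Module.finrank_fin_fun] at this
  exact Nat.not_even_iff_odd.1 fun e => Nat.not_even_iff_odd.2 (e.add_odd (by decide : Odd 3)) this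

/-- semilinear involutions of the same type are conjugate -/
theorem conj (h : Sm α s) (h' : Sm α' s') (k : (∀ v, bt v (s v) = 0) ↔ ∀ v, bt v (s' v) = 0) :
    ∃ β : X →* X, Au β 1 ∧ ∀ x, α' (β x) = β (α x) := by
  obtain ⟨C, B, c1, c2, c3, c4, c5⟩ := ex_form h
  obtain ⟨C', B', d1, d2, d3, d4, d5⟩ := ex_form h'
  obtain ⟨c, hc⟩ := H66.exists_equiv_symm_char_two B B' c3 d3 c4 d4 rfl (by rw [c5, d5, k])
  have e1 : ∀ i : I, (fun j => ((Pi.single i 1 : I → K0 F) j : F)) = (ee i : V) := fun i => by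
    ext j; simp only [ee, Pi.single_apply]; split_ifs <;> rfl
  let P : Mx := C'.1 * Matrix.of fun i j => (c (Pi.single j 1) i : F)
  have hP : ∀ j, P *ᵥ (ee j : V) = C'.1 *ᵥ fun i => (c (Pi.single j 1) i : F) := fun j => by
    rw [← mulVec_mulVec]; congr 1; ext i; simp [ee]
  have p1 : ∀ j, s' (P *ᵥ ee j) = P *ᵥ ee j := fun j => by
    rw [hP, colfix h' d1]; congr 1; ext i; exact mem_K0.1 (c _ i).2
  have p2 : ad P * P = ad C.1 * C.1 := gram_ext fun i j => by rw [hP, hP, ← d2, hc, c2, e1, e1]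
  have p3 : ad (P * (C⁻¹).1) * (P * (C⁻¹).1) = 1 := by
    rw [ad_mul, mul_assoc, ← mul_assoc (ad P), p2, mul_assoc, Units.mul_inv, mul_one, ← ad_mul, Units.mul_inv, ad_one]
  have p4 : ∀ v, s' ((P * (C⁻¹).1) *ᵥ v) = (P * (C⁻¹).1) *ᵥ s v := fun v => by
    conv_rhs => rw [← one_mulVec v, ← Units.mul_inv C, ← mulVec_mulVec v, colfix h c1, mulVec_mulVec, mul_assoc,
      Units.inv_mul, mul_one]
    rw [← mulVec_mulVec, colfix h' p1]
  generalize P * (C⁻¹).1 = T at p3 p4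
  have p5 := mul_eq_one_comm.1 p3
  let g : GX n F := ⟨T, ad T, p5, p3⟩
  let β : X →* X := ((gc g).toMonoidHom.comp (XU n F).subtype).codRestrict _ fun x => mem_XU.2 (by
    change ad (T * x.1.1 * ad T) * (T * x.1.1 * ad T) = 1
    rw [ad_mul, ad_mul, ad_ad]
    calc _ = T * (ad x.1.1 * (ad T * T) * x.1.1) * ad T := by simp only [mul_assoc]
      _ = 1 := by rw [p3, mul_one, mem_XU.1 x.2, mul_one, p5])
  have hβ : ∀ x v, ac (β x) (T *ᵥ v) = T *ᵥ ac x v := fun x v => by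
    change (T * x.1.1 * ad T) *ᵥ _ = T *ᵥ (x.1.1 *ᵥ v)
    rw [mulVec_mulVec, mulVec_mulVec, mul_assoc, p3, mul_one]
  refine ⟨β, ⟨g, fun x => (H77.au1 g x.1).symm⟩, fun x => ac_ext fun v => ?_⟩
  obtain ⟨u, rfl⟩ : ∃ u, v = T *ᵥ s u := ⟨s (ad T *ᵥ v), by rw [h.ss, mulVec_mulVec, p5, one_mulVec]⟩
  rw [hβ, h.ha, ← p4, h'.ha, hβ, p4]

theorem sm_fr : Sm (H77.frU σ : X →* X) fun v j => σ (v j) where
  add u v := by ext j; simp
  smul a v := by ext j; simp
  hb u v := by rw [bt_symm u v]; simp [bt]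
  ha x v := (σmv _ _).symm
  ss v := by ext j; exact H12.ss _

theorem bt00 : bt (ee 0 : V) (ee 0) = 0 := by rw [H76.bt_ee, if_neg H77.i0]

theorem σee (i : I) : (fun j => σ ((ee i : V) j)) = ee i := by
  ext j; simp only [ee, Pi.single_apply]; split_ifs <;> simp

theorem sm_z : Sm ((cn (zz 1)).comp (H77.frU σ) : X →* X) fun v => ac (zz 1) fun j => σ (v j) := by
  have z2 : (zz 1 : X) * zz 1 = 1 := tc_sq bt00 1
  have f := sm_fr (F := F) (n := n)
  have fz : (H77.frU σ : X →* X) (zz 1) = zz 1 := (f.tcc bt00 1).trans (by rw [σee]; rfl)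
  refine ⟨fun u v => ?_, fun a v => ?_, fun u v => ?_, fun x v => ?_, fun v => ?_⟩
  · rw [← ac_add]; exact congrArg _ (f.add u v)
  · rw [← ac_smul]; exact congrArg _ (f.smul a v)
  · exact (bt_ac _ _ _).trans (f.hb u v)
  · rw [MonoidHom.comp_apply, cn_apply, ac_mul, ac_mul, ac_inv]
    exact congrArg _ (f.ha x v)
  · have := f.ha (zz 1) fun j => σ (v j)
    rw [fz] at this
    rw [← this, ← ac_mul, z2, ac_one]
    exact f.ss v

theorem nfO (o : Ou α) : ∃ β : X →* X, Au β 1 ∧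
    ((∀ x y : X, y.1 = fr σ x.1 → α (β x) = β y) ∨
      (Odd n ∧ ∀ x y : X, y.1 = fr σ x.1 → α (β x) = β (zz (1 : K0 F) * y * zz (1 : K0 F)))) := by
  obtain ⟨s, h⟩ := ex_s o
  by_cases k : (∀ v : V, bt v (fun j => σ (v j)) = 0) ↔ ∀ v, bt v (s v) = 0
  · obtain ⟨β, h1, h2⟩ := conj sm_fr h k
    exact ⟨β, h1, Or.inl fun x y e => by rw [h2]; exact congrArg β (Subtype.ext e.symm)⟩
  have k0 : ∀ v : V, bt v (fun j => σ (v j)) = 0 := by
    by_contra k0
    have k1 : ∀ v, bt v (s v) = 0 := by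
      by_contra k1
      exact k (iff_of_false k0 k1)
    obtain ⟨m, hm⟩ := alt_odd h k1
    refine k0 fun v => Finset.sum_involution (fun j _ => j.rev) (fun j _ => ?_) (fun j _ _ e => ?_)
      (fun _ _ => Finset.mem_univ _) fun j _ => Fin.rev_rev j
    · rw [H12.ss, H12.ss, Fin.rev_rev, mul_comm, CharTwo.add_self_eq_zero]
    · have := congrArg Fin.val e
      rw [Fin.val_rev] at this
      have := j.2
      omega
  obtain ⟨β, h1, h2⟩ := conj sm_z h (iff_of_false (fun k1 => by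
    have := k1 (ee (0 : I).rev)
    rw [σee, zz, ac_tc bt00, bt_add_r, bt_smul_r, H76.bt_ee, H76.bt_ee, Fin.rev_rev, if_neg H77.i0.symm,
      if_pos rfl] at this
    simp at this) fun k1 => k (iff_of_true k0 k1))
  refine ⟨β, h1, Or.inr ⟨alt_odd sm_fr k0, fun x y e => ?_⟩⟩
  rw [h2, MonoidHom.comp_apply, cn_apply, inv_eq_of_mul_eq_one_right (show (zz 1 : X) * zz 1 = 1 from tc_sq bt00 1),
    show H77.frU σ x = y from Subtype.ext e.symm]

end UMS.H13
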