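import Cfsg.Agent.Lib.UMS.B1
import Cfsg.Agent.Lib.LMS.RKS
import Cfsg.Agent.Lib.LMS.NFb

set_option autoImplicit false
set_option linter.unusedSectionVars false

namespace UMS

open Subgroup H69 Cfsg Matrix U4S
open LMS (XX GX iL kk MM au tw Sg)
open scoped MatrixGroups commutatorElement

universe u
variable {G : Type*} [Group G] [Finite G] {F : Type u} [Field F] [CharP F 2] [Fintype F] [Hs F] {n : ℕ} [Ok n F]
  {ι ψ χ : XU n F →* G} {t : G} {E : Subgroup G}

local notation "X" => XU n F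
local notation "V" => VV n F
local notation "𝐪" => Nat.card (K0 F)
local notation "I" => Fin (n + 3)
local notation "Mx" => Matrix (Fin (n + 3)) (Fin (n + 3)) F

namespace RKS2

/-- a basis of the vectors with coordinate sum zero -/
def PM (N : ℕ) (F : Type u) [Field F] : Matrix (Fin (N + 1)) (Fin N) F :=
  of fun i j => if i = j.castSucc ∨ i = Fin.last N then 1 else 0

/-- dropping the last coordinate -/
def RM (N : ℕ) (F : Type u) [Field F] : Matrix (Fin N) (Fin (N + 1)) F :=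
  of fun i j => if j = i.castSucc then 1 else 0

variable {N : ℕ}

theorem RM_mul {κ : Type*} (a : Matrix (Fin (N + 1)) κ F) (i : Fin N) (j : κ) : (RM N F * a) i j = a i.castSucc j := by
  simp [RM, Matrix.mul_apply]

theorem mul_PM {κ : Type*} (a : Matrix κ (Fin (N + 1)) F) (i : κ) (j : Fin N) :
    (a * PM N F) i j = a i j.castSucc + a i (Fin.last N) := by
  rw [Matrix.mul_apply, Fin.sum_univ_castSucc]
  simp [PM, Fin.castSucc_ne_last]

theorem PR {κ : Type*} (a : Matrix (Fin (N + 1)) κ F) (h : ∀ j, ∑ i, a i j = 0) : PM N F * (RM N F * a) = a := by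
  ext i j
  rw [Matrix.mul_apply]
  simp only [RM_mul]
  refine Fin.lastCases ?_ (fun i => ?_) i
  · have := h j
    rw [Fin.sum_univ_castSucc] at this
    rw [← CharTwo.add_eq_zero.1 this]
    simp [PM]
  · simp [PM, Fin.castSucc_ne_last]

theorem hh (e : Even N) : (PM N F)ᵀ * PM N F * ((PM N F)ᵀ * PM N F) = 1 := by
  have e1 : (PM N F)ᵀ * PM N F = 1 + of fun _ _ => (1 : F) := by
    ext i j
    rw [mul_PM]
    simp [PM, Fin.castSucc_ne_last, Matrix.one_apply, eq_comm]
  have e2 : (of fun _ _ => (1 : F) : Matrix (Fin N) (Fin N) F) * (of fun _ _ => (1 : F)) = 0 := by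
    ext i j
    simp [Matrix.mul_apply, CharTwo.natCast_eq_ite, e]
  rw [e1, add_mul, mul_add, mul_add, e2, one_mul, one_mul, mul_one, add_zero, add_assoc]
  ext i j
  simp [CharTwo.add_self_eq_zero]

theorem rs {κ : Type*} [Fintype κ] {a : Matrix κ κ F} (h1 : aᵀ = a) (h2 : a * a = 0) (j : κ) : ∑ i, a i j = 0 := by
  have := congrFun (congrFun h2 j) j
  rw [Matrix.mul_apply, Matrix.zero_apply] at this
  have e : (∑ i, a i j) ^ 2 = 0 := by
    rw [CharTwo.sum_sq, ← this]
    refine Finset.sum_congr rfl fun i _ => ?_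
    rw [sq, ← h1, transpose_apply, h1]
  exact pow_eq_zero_iff two_ne_zero |>.1 e

/-- restriction to the vectors with coordinate sum zero -/
def res (N : ℕ) (F : Type u) [Field F] : Matrix (Fin (N + 1)) (Fin (N + 1)) F →ₗ[F] Matrix (Fin N) (Fin N) F where
  toFun a := RM N F * (a * PM N F)
  map_add' a b := by rw [Matrix.add_mul, Matrix.mul_add]
  map_smul' c a := by rw [Matrix.smul_mul, Matrix.mul_smul]; rfl

theorem P_res {a : Matrix (Fin (N + 1)) (Fin (N + 1)) F} (h : ∀ j, ∑ i, a i j = 0) :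
    PM N F * res N F a = a * PM N F :=
  PR _ fun j => by simp only [mul_PM, Finset.sum_add_distrib, h, add_zero]

theorem res_mul (a : Matrix (Fin (N + 1)) (Fin (N + 1)) F) {b : Matrix (Fin (N + 1)) (Fin (N + 1)) F}
    (h : ∀ j, ∑ i, b i j = 0) : res N F a * res N F b = res N F (a * b) := by
  change RM N F * (a * PM N F) * res N F b = RM N F * (a * b * PM N F)
  rw [Matrix.mul_assoc, Matrix.mul_assoc, P_res h, Matrix.mul_assoc]

theorem sym {m : ℕ} (e : Odd m) (h2 : 2 ≤ m) (A : Submodule F (Matrix (Fin (m + 3 + 1)) (Fin (m + 3 + 1)) F))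
    (hm : ∀ a ∈ A, ∀ b ∈ A, a * b ∈ A) (hc : ∀ a ∈ A, ∀ b ∈ A, a * b = b * a)
    (hs : ∀ a ∈ A, a * a = 0) (ha : ∀ a ∈ A, aᵀ = a) : Module.finrank F A + 2 ≤ MM m := by
  have : LMS.Ok m F := ⟨fun k => absurd h2 (by omega)⟩
  have ev : Even (m + 3) := e.add_odd ⟨1, rfl⟩
  have cs : ∀ a ∈ A, ∀ j, ∑ i, a i j = 0 := fun a k => rs (ha a k) (hs a k)
  have q := hh (F := F) ev
  have key := (LMS.rkS (A.map (res (m + 3) F))
    (by
      rintro _ ⟨a, k, rfl⟩ _ ⟨b, k', rfl⟩
      exact ⟨a * b, hm a k b k', (res_mul a (cs b k')).symm⟩)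
    (by
      rintro _ ⟨a, k, rfl⟩ _ ⟨b, k', rfl⟩
      rw [res_mul a (cs b k'), res_mul b (cs a k), hc a k b k'])
    (by
      rintro _ ⟨a, k, rfl⟩
      rw [res_mul a (cs a k), hs a k, map_zero])
    (g := ⟨_, _, q, q⟩) (by rw [transpose_mul, transpose_transpose])
    (by
      rintro _ ⟨a, k, rfl⟩
      have e1 : (PM (m + 3) F)ᵀ * PM (m + 3) F * res _ F a = (PM (m + 3) F)ᵀ * (a * PM (m + 3) F) := by
        rw [Matrix.mul_assoc, P_res (cs a k)]
      have e2 : (res _ F a)ᵀ * ((PM (m + 3) F)ᵀ * PM (m + 3) F) = (PM (m + 3) F)ᵀ * PM (m + 3) F * res _ F a := by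
        have := congrArg transpose e1
        rw [transpose_mul, transpose_mul, transpose_mul, transpose_mul, transpose_transpose, ha a k] at this
        rw [this, e1, Matrix.mul_assoc]
      change (PM (m + 3) F)ᵀ * PM (m + 3) F * (res _ F a)ᵀ = res _ F a * ((PM (m + 3) F)ᵀ * PM (m + 3) F)
      generalize (PM (m + 3) F)ᵀ * PM (m + 3) F = h at q e2
      calc h * (res _ F a)ᵀ = h * ((res _ F a)ᵀ * h) * h := by rw [mul_assoc, mul_assoc, q, mul_one]
        _ = _ := by rw [e2, ← mul_assoc, q, one_mul])).2 h2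
  have inj : Function.Injective ((res (m + 3) F).domRestrict A) := by
    rw [injective_iff_map_eq_zero]
    rintro ⟨a, k⟩ z
    have z1 : a * PM (m + 3) F = 0 := by
      rw [← P_res (cs a k), show res (m + 3) F a = 0 from z, Matrix.mul_zero]
    have z2 : ∀ i j, a i j = a i (Fin.last _) := fun i j => by
      refine Fin.lastCases rfl (fun j => ?_) j
      have := congrFun (congrFun z1 i) j
      rw [mul_PM, Matrix.zero_apply] at this
      exact CharTwo.add_eq_zero.1 this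
    ext i j
    have := cs a k i
    rw [← ha a k] at this
    simp only [transpose_apply, z2 i, Finset.sum_const, Finset.card_univ, Fintype.card_fin, nsmul_eq_mul] at this
    rw [CharTwo.natCast_eq_ite, if_neg (Nat.not_even_iff_odd.2 ev.add_one), one_mul] at this
    exact (z2 i j).trans this
  rwa [← LinearMap.range_domRestrict, LinearMap.finrank_range_of_inj inj] at key

end RKS2

theorem rkS2 (A : Submodule F Mx) (hm : ∀ a ∈ A, ∀ b ∈ A, a * b ∈ A) (hc : ∀ a ∈ A, ∀ b ∈ A, a * b = b * a)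
    (hs : ∀ a ∈ A, a * a = 0) {g : GX n F} (hg : g.1ᵀ = g.1) (ha : ∀ a ∈ A, g.1 * aᵀ = a * g.1) :
    Module.finrank F A + 2 ≤ kk n ^ 2 := by
  have h3 := Ok.h3 (n := n) F
  rcases Nat.even_or_odd n with e | e
  swap
  · have := (LMS.rkS A hm hc hs hg ha).2 (by omega)
    obtain ⟨j, rfl⟩ := e
    have e1 : kk (2 * j + 1) = j + 2 := by unfold kk; omega
    rwa [MM, e1, show 2 * j + 1 + 3 - (j + 2) = j + 2 by omega, ← sq, ← e1] at this
  obtain ⟨C, hC⟩ := LMS.sym_one g hg (LMS.sym_odd (e.add_odd ⟨1, rfl⟩) g hg)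
  have mul : ∀ a b : Mx, LMS.RKA.cjL C a * LMS.RKA.cjL C b = LMS.RKA.cjL C (a * b) := by
    intro a b
    change (C⁻¹).1 * a * C.1 * ((C⁻¹).1 * b * C.1) = (C⁻¹).1 * (a * b) * C.1
    simp only [mul_assoc]
    rw [← mul_assoc C.1, Units.mul_inv, one_mul]
  obtain ⟨m, rfl⟩ : ∃ m, n = m + 1 := ⟨n - 1, by omega⟩
  have eo : Odd m := by
    obtain ⟨j, hj⟩ := e
    exact ⟨j - 1, by omega⟩
  have key := RKS2.sym eo (by omega) (A.map (LMS.RKA.cjL C).toLinearMap)
    (by
      rintro _ ⟨a, k, rfl⟩ _ ⟨b, k', rfl⟩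
      exact ⟨a * b, hm a k b k', (mul a b).symm⟩)
    (by
      rintro _ ⟨a, k, rfl⟩ _ ⟨b, k', rfl⟩
      exact (mul a b).trans ((congrArg _ (hc a k b k')).trans (mul b a).symm))
    (by
      rintro _ ⟨a, k, rfl⟩
      exact (mul a a).trans ((congrArg _ (hs a k)).trans (map_zero _)))
    (by
      rintro _ ⟨a, k, rfl⟩
      have e1 := ha a k
      rw [hC] at e1
      change ((C⁻¹).1 * a * C.1)ᵀ = (C⁻¹).1 * a * C.1
      have e2 : C.1ᵀ * (C⁻¹).1ᵀ = 1 := by rw [← transpose_mul, Units.inv_mul, transpose_one]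
      calc ((C⁻¹).1 * a * C.1)ᵀ = (C⁻¹).1 * (C.1 * C.1ᵀ * aᵀ) * (C⁻¹).1ᵀ := by
            rw [transpose_mul, transpose_mul, ← mul_assoc (C⁻¹).1, ← mul_assoc (C⁻¹).1, Units.inv_mul, one_mul,
              mul_assoc]
        _ = _ := by rw [e1, mul_assoc, mul_assoc, mul_assoc, e2, mul_one, mul_assoc])
  have e3 : Module.finrank F (A.map (LMS.RKA.cjL C).toLinearMap) = Module.finrank F A :=
    LinearEquiv.finrank_map_eq _ _
  obtain ⟨j, rfl⟩ := eo
  have e1 : kk (2 * j + 1) = j + 2 := by unfold kk; omega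
  have e2 : kk (2 * j + 1 + 1) = j + 2 := by unfold kk; omega
  rw [MM, e1, show 2 * j + 1 + 3 - (j + 2) = j + 2 by omega, ← sq] at key
  rw [e2, ← e3]
  exact key

end UMS
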