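import Cfsg.Agent.Lib.UMS.Defs

/-! Steinberg relations: from the short roots to all roots. -/

set_option autoImplicit false
set_option linter.unusedSectionVars false

namespace UMS
namespace H63

open Subgroup
open scoped commutatorElement

variable {G : Type*} [Group G] {n : ℕ} {F : Type*} [Field F] [CharP F 2]

/-- non-middle distinct indices -/
def R0 (i j : Fin (n + 3)) : Prop := i ≠ j ∧ i ≠ i.rev ∧ j ≠ j.rev

theorem eqns_SB : True := by
  have := @R0.eq_1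
  trivial

theorem ex_idx (h3 : 3 ≤ n) (a b c d : Fin (n + 3)) :
    ∃ p : Fin (n + 3), p ≠ p.rev ∧ p ≠ a ∧ p ≠ b ∧ p ≠ c ∧ p ≠ d := by
  by_contra k
  push Not at k
  have k0 := k ⟨0, by omega⟩
  have k1 := k ⟨1, by omega⟩
  have k2 := k ⟨2, by omega⟩
  have k3 := k ⟨n, by omega⟩
  have k4 := k ⟨n + 1, by omega⟩
  simp only [ne_eq, Fin.ext_iff, Fin.val_rev] at k0 k1 k2 k3 k4
  omega

theorem sh_of {i p : Fin (n + 3)} (hi : i ≠ i.rev) (hp : p ≠ p.rev) (h1 : p ≠ i) (h2 : p ≠ i.rev) :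
    Sh i p ∧ Sh p i.rev ∧ Sh p i ∧ Sh i.rev p := by
  simp only [Sh, ne_eq, Fin.ext_iff, Fin.val_rev] at *
  omega

section
variable {R : Fin (n + 3) → Fin (n + 3) → Prop} {y : Fin (n + 3) → Fin (n + 3) → F → G}

theorem sb_zero (h : Sb R y) {i j : Fin (n + 3)} (r : R i j) : y i j 0 = 1 := by
  have := h.add i j r 0 0
  rwa [add_zero, mul_eq_left] at this

theorem sb_inv (h : Sb R y) {i j : Fin (n + 3)} (r : R i j) (a : F) : (y i j a)⁻¹ = y i j a :=
  inv_eq_of_mul_eq_one_right (by rw [h.add i j r, CharTwo.add_self_eq_zero, sb_zero h r])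

end

theorem cm_br {s x v : G} (h1 : Commute s x) (h2 : Commute s v) : Commute s ⁅x, v⁆ := by
  rw [commutatorElement_def]
  exact ((h1.mul_right h2).mul_right h1.inv_right).mul_right h2.inv_right

theorem br3 {x u v : G} (h1 : Commute x v) (h2 : Commute ⁅u, v⁆ ⁅x, u⁆) (h3 : Commute ⁅u, v⁆ v) :
    ⁅x, ⁅u, v⁆⁆ = ⁅⁅x, u⁆, v⁆ := by
  have e : x * ⁅u, v⁆ * x⁻¹ = ⁅x, u⁆ * ⁅u, v⁆ * ⁅x, u⁆⁻¹ * ⁅⁅x, u⁆, v⁆ := by
    have a : x * v * x⁻¹ = v := by rw [h1.eq, mul_inv_cancel_right]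
    calc x * ⁅u, v⁆ * x⁻¹ = x * u * x⁻¹ * (x * v * x⁻¹) * (x * u * x⁻¹)⁻¹ * (x * v * x⁻¹)⁻¹ := by
          rw [commutatorElement_def]; group
      _ = _ := by rw [a]; simp only [commutatorElement_def]; group
  rw [commutatorElement_def x, e, ← h2.eq, mul_inv_cancel_right, (cm_br h2 h3).eq, mul_inv_cancel_right]

variable {y : Fin (n + 3) → Fin (n + 3) → F → G}

theorem cind (h : Sb Sh y) {i k l : Fin (n + 3)} (ik : Sh i k) (il : Sh i l) (kl : Sh k l) (a c : F) :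
    ⁅y i k a, y k i.rev c⁆ = ⁅y i l (a * c), y l i.rev 1⁆ := by
  have s1 := sh_of ik.2.2.1 ik.2.2.2 ik.1.symm ik.2.1
  have s2 := sh_of il.2.2.1 il.2.2.2 il.1.symm il.2.1
  have e := h.c1 k l i.rev kl s2.2.1 s1.2.1 c 1
  rw [mul_one] at e
  rw [← e, ← h.c1 i k l ik kl il a c]
  refine br3 (h.c0 _ _ _ _ ik s2.2.1 ik.2.2.1 kl.1 _ _) ?_ ?_
  · rw [e, h.c1 i k l ik kl il a c]
    exact h.c0 _ _ _ _ s1.2.1 il kl.1 ik.2.2.1.symm _ _
  · rw [e]
    exact h.c0 _ _ _ _ s1.2.1 s2.2.1 ik.2.1 il.2.1.symm _ _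

theorem cind' (h3 : 3 ≤ n) (h : Sb Sh y) {i k l : Fin (n + 3)} (ik : Sh i k) (il : Sh i l) (a c : F) :
    ⁅y i k a, y k i.rev c⁆ = ⁅y i l (a * c), y l i.rev 1⁆ := by
  by_cases kl : Sh k l
  · exact cind h ik il kl a c
  obtain ⟨p, p0, p1, p2, p3, p4⟩ := ex_idx h3 i i.rev k k.rev
  have ip := (sh_of ik.2.2.1 p0 p1 p2).1
  have kp := (sh_of ik.2.2.2 p0 p3 p4).1
  have lp : Sh l p := by
    have := ik.2.2.2
    have := il.2.2.2
    simp only [Sh, ne_eq, Fin.ext_iff, Fin.val_rev] at *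
    omega
  rw [cind h ik ip kp, cind h il ip lp, mul_one]

theorem ext (h3 : 3 ≤ n) (h : Sb Sh y) : ∃ y' : Fin (n + 3) → Fin (n + 3) → F → G, Sb R0 y' ∧
    (∀ i j, Sh i j → y' i j = y i j) ∧
    ∀ i k, Sh i k → ∀ a c, y' i i.rev (a * c) = ⁅y i k a, y k i.rev c⁆ := by
  classical
  choose κ κ0 κ1 κ2 _ _ using fun i : Fin (n + 3) => ex_idx h3 i i.rev i i
  let Y : Fin (n + 3) → F → G := fun i a => ⁅y i (κ i) a, y (κ i) i.rev 1⁆
  have hY : ∀ {i k}, Sh i k → ∀ a c, ⁅y i k a, y k i.rev c⁆ = Y i (a * c) := fun {i k} ik a c =>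
    cind' h3 h ik (sh_of ik.2.2.1 (κ0 i) (κ1 i) (κ2 i)).1 a c
  have hY1 : ∀ {i k}, Sh i k → ∀ a, Y i a = ⁅y i k a, y k i.rev 1⁆ := fun ik a => by rw [hY ik, mul_one]
  have ls : ∀ {i k l}, i ≠ i.rev → Sh k l → i ≠ l → i.rev ≠ k → ∀ a b, Commute (y k l b) (Y i a) :=
    fun {i k l} hi kl h1 h2 a b => by
      obtain ⟨p, p0, p1, p2, p3, p4⟩ := ex_idx h3 i i.rev k l
      have s := sh_of hi p0 p1 p2
      rw [hY1 s.1]
      exact cm_br (h.c0 _ _ _ _ kl s.1 p3.symm h1.symm _ _) (h.c0 _ _ _ _ kl s.2.1 h2.symm p4.symm _ _)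
  have sh : ∀ {i j : Fin (n + 3)}, R0 i j → j ≠ i.rev → Sh i j := fun r e => ⟨r.1, e, r.2.1, r.2.2⟩
  refine ⟨fun i j => if j = i.rev then Y i else y i j, ⟨fun i j r a b => ?_, fun i j k l r r' h1 h2 a b => ?_,
    fun i j l r r' r'' a b => ?_⟩, fun i j s => if_neg s.2.1, fun i k s a c => by simp only [if_pos, hY s]⟩
  · split_ifs with e
    · have s := sh_of r.2.1 (κ0 i) (κ1 i) (κ2 i)
      have c := ls r.2.1 s.1 (κ1 i).symm r.2.1.symm a b
      rw [add_comm, hY1 s.1 (b + a), ← h.add _ _ s.1]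
      calc Y i a * Y i b = y i (κ i) b * Y i a * (y i (κ i) b)⁻¹ * Y i b := by rw [c.eq, mul_inv_cancel_right]
        _ = _ := by simp only [Y, commutatorElement_def]; group
    · exact h.add i j (sh r e) a b
  · split_ifs with e e' e'
    · subst e e'
      obtain ⟨p, p0, p1, p2, p3, p4⟩ := ex_idx h3 i i.rev k k.rev
      have s := sh_of r'.2.1 p0 p3 p4
      rw [hY1 s.1 b]
      exact cm_br (ls r.2.1 s.1 p1.symm h2 _ _).symm (ls r.2.1 s.2.1 h1 p2.symm _ _).symm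
    · subst e
      exact (ls r.2.1 (sh r' e') h1 h2 a b).symm
    · subst e'
      exact ls r'.2.1 (sh r e) h2.symm h1.symm b a
    · exact h.c0 _ _ _ _ (sh r e) (sh r' e') h1 h2 a b
  · by_cases e1 : j = i.rev
    · subst e1
      have e2 : l ≠ i.rev.rev := by rw [Fin.rev_rev]; exact r''.1.symm
      rw [if_pos rfl, if_neg e2, if_neg r'.1.symm]
      obtain ⟨p, p0, p1, p2, p3, p4⟩ := ex_idx h3 i i.rev l l.rev
      have s := sh_of r.2.1 p0 p1 p2
      have il := sh r'' r'.1.symm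
      have jl := sh r' e2
      have pl := (sh_of r'.2.2 p0 p3 p4).2.2.1
      have a1 := h.c0 _ _ _ _ jl s.1 p2.symm r''.1.symm b a
      have a2 := h.c1 _ _ _ s.2.1 jl pl 1 b
      have a3 := h.c1 _ _ _ s.1 pl il a b
      have a4 := ls r.2.1 pl r''.1 p2.symm a b
      rw [one_mul] at a2
      have i1 := sb_inv h pl b
      rw [← sb_inv h il, ← a3]
      rw [hY1 s.1] at a4 ⊢
      generalize y i.rev l b = s at *
      generalize y i p a = x at *
      generalize y p i.rev 1 = v at *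
      generalize y p l b = w at *
      have b1 : s * x * s⁻¹ = x := by rw [a1, mul_inv_cancel_right]
      have b2 : s * v * s⁻¹ = w * v := by rw [← i1, ← a2, commutatorElement_def]; group
      have b3 : s * ⁅x, v⁆ * s⁻¹ = ⁅x, w⁆ * (w * ⁅x, v⁆ * w⁻¹) := by
        calc s * ⁅x, v⁆ * s⁻¹ = s * x * s⁻¹ * (s * v * s⁻¹) * (s * x * s⁻¹)⁻¹ * (s * v * s⁻¹)⁻¹ := by
              rw [commutatorElement_def]; group
          _ = _ := by rw [b1, b2]; simp only [commutatorElement_def]; group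
      rw [a4.eq, mul_inv_cancel_right] at b3
      calc ⁅⁅x, v⁆, s⁆ = ⁅x, v⁆ * (s * ⁅x, v⁆ * s⁻¹)⁻¹ := by rw [commutatorElement_def ⁅x, v⁆]; group
        _ = _ := by rw [b3]; group
    by_cases e2 : l = j.rev
    · subst e2
      have e3 : j.rev ≠ i.rev := fun k => r.1 (Fin.rev_injective k).symm
      rw [if_neg e1, if_pos rfl, if_neg e3]
      obtain ⟨p, p0, p1, p2, p3, p4⟩ := ex_idx h3 j j.rev i i.rev
      have s := sh_of r.2.2 p0 p1 p2
      have ij := sh r e1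
      have il := sh r'' e3
      have ip := (sh_of r.2.1 p0 p3 p4).1
      have a1 := h.c0 _ _ _ _ ij s.2.1 r''.1 p1.symm a 1
      have a2 := h.c1 _ _ _ ij s.1 ip a b
      have a3 := h.c1 _ _ _ ip s.2.1 il (a * b) 1
      have a4 := ls r.2.2 ip p1.symm r''.1.symm b (a * b)
      have a5 := ls r.2.2 il r.2.2 r''.1.symm b (a * b)
      rw [mul_one] at a3
      rw [← a3] at a5 ⊢
      rw [hY1 s.1] at a4 a5 ⊢
      generalize y i j a = s at *
      generalize y j p b = x at *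
      generalize y p j.rev 1 = v at *
      generalize y i p (a * b) = w at *
      have b1 : s * v * s⁻¹ = v := by rw [a1, mul_inv_cancel_right]
      have b2 : s * x * s⁻¹ = w * x := by rw [← a2, commutatorElement_def]; group
      have b3 : s * ⁅x, v⁆ * s⁻¹ = w * ⁅x, v⁆ * w⁻¹ * ⁅w, v⁆ := by
        calc s * ⁅x, v⁆ * s⁻¹ = s * x * s⁻¹ * (s * v * s⁻¹) * (s * x * s⁻¹)⁻¹ * (s * v * s⁻¹)⁻¹ := by
              rw [commutatorElement_def]; group
          _ = _ := by rw [b1, b2]; simp only [commutatorElement_def]; group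
      rw [a4.eq, mul_inv_cancel_right, ← a5.eq] at b3
      rw [commutatorElement_def s, b3, mul_inv_cancel_right]
    rw [if_neg e1, if_neg e2]
    split_ifs with e3
    · subst e3
      exact hY (sh r e1) a b
    · exact h.c1 _ _ _ (sh r e1) (sh r' e2) (sh r'' e3) a b

section
variable [Hs F] {ι : XU n F →* G} {t : G} {W : VV n F → G} {α : K0 F} {r : F}

theorem ys_zero (h : Stb ι t W α) {i j : Fin (n + 3)} (s : Sh i j) : YS ι W i j 0 0 = 1 := by
  have := h.yadd i j s 0 0 0 0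
  rwa [add_zero, mul_eq_left] at this

theorem ys_c1 (h : Stb ι t W α) (hr : r * r + r = α) {i j l : Fin (n + 3)} (s1 : Sh i j) (s2 : Sh j l) (s3 : Sh i l)
    (a b : F) : ⁅YS ι W i j (r * a) a, YS ι W j l (r * b) b⁆ = YS ι W i l (r * (a * b)) (a * b) := by
  have t2 : (2 : F) = 0 := CharTwo.two_eq_zero
  rw [h.c1 i j l s1 s2 s3, ← hr]
  congr 1
  · linear_combination (r * r * a * b) * t2
  · linear_combination (r * a * b) * t2

theorem ys_easy (h : Stb ι t W α) (hr : r * r + r = α) (hs : σ r = r + 1) {i j k l : Fin (n + 3)} (s1 : Sh i j)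
    (s2 : Sh k l) (h1 : i ≠ l) (h2 : j ≠ k) (h3 : k = i.rev → l ≠ j ∧ l ≠ j.rev) (h4 : l = j.rev → k ≠ i ∧ k ≠ i.rev)
    (a b : F) : Commute (YS ι W i j (r * a) a) (YS ι W k l (r * b) b) := by
  have t2 : (2 : F) = 0 := CharTwo.two_eq_zero
  by_cases e1 : k = i.rev
  · have k3 := h3 e1
    subst e1
    have q1 : Sh l.rev i := by
      simp only [Sh, ne_eq, Fin.ext_iff, Fin.val_rev] at *
      omega
    have q2 : Sh l.rev j := by
      simp only [Sh, ne_eq, Fin.ext_iff, Fin.val_rev] at *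
      omega
    rw [h.sym _ _ s2, Fin.rev_rev, map_mul, hs]
    refine (commutatorElement_eq_one_iff_commute.1 ?_).symm
    rw [h.c1 _ _ _ q1 s1 q2, ← hr, ← ys_zero h q2]
    congr 1
    · linear_combination ((r * r + r) * a * σ b) * t2
    · linear_combination ((r + 1) * a * σ b) * t2
  by_cases e2 : l = j.rev
  · have k4 := h4 e2
    subst e2
    have q1 : Sh j k.rev := by
      simp only [Sh, ne_eq, Fin.ext_iff, Fin.val_rev] at *
      omega
    have q2 : Sh i k.rev := by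
      simp only [Sh, ne_eq, Fin.ext_iff, Fin.val_rev] at *
      omega
    rw [h.sym _ _ s2, Fin.rev_rev, map_mul, hs]
    refine commutatorElement_eq_one_iff_commute.1 ?_
    rw [h.c1 _ _ _ s1 q1 q2, ← hr, ← ys_zero h q2]
    congr 1
    · linear_combination ((r * r + r) * a * σ b) * t2
    · linear_combination ((r + 1) * a * σ b) * t2
  exact h.c0 _ _ _ _ s1 s2 h1 h2 e1 e2 _ _ _ _

theorem sb (h3 : 3 ≤ n) (h : Stb ι t W α) (hr : r * r + r = α) (hs : σ r = r + 1) :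
    Sb Sh fun i j a => YS ι W i j (r * a) a := by
  refine ⟨fun i j s a b => by rw [h.yadd i j s, mul_add], fun i j k l s1 s2 h1 h2 a b => ?_,
    fun i j l s1 s2 s3 a b => ys_c1 h hr s1 s2 s3 a b⟩
  by_cases e : (k = i.rev → l ≠ j ∧ l ≠ j.rev) ∧ (l = j.rev → k ≠ i ∧ k ≠ i.rev)
  · exact ys_easy h hr hs s1 s2 h1 h2 e.1 e.2 a b
  obtain ⟨p, p0, p1, p2, p3, p4⟩ := ex_idx h3 i i.rev j j.rev
  have ip := (sh_of s1.2.2.1 p0 p1 p2).1
  have pj := (sh_of s1.2.2.2 p0 p3 p4).2.2.1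
  have := ys_c1 h hr ip pj s1 a 1
  rw [mul_one a] at this
  rw [← this]
  refine (cm_br (ys_easy h hr hs ip s2 h1 ?_ ?_ ?_ a b).symm (ys_easy h hr hs pj s2 ?_ h2 ?_ ?_ 1 b).symm).symm <;>
  · simp only [Sh, ne_eq, Fin.ext_iff, Fin.val_rev] at *
    omega

end

end H63
end UMS
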