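import Cfsg.Agent.Lib.UMS.B1b

set_option autoImplicit false
set_option linter.unusedSectionVars false

namespace UMS

open Subgroup H69 Cfsg Matrix U4S
open LMS (XX GX iL kk MM au tw Sg)
open scoped MatrixGroups commutatorElement

universe u
variable {G : Type*} [Group G] [Finite G] {F : Type u} [Field F] [CharP F 2] [Fintype F] [Hs F] {n : ℕ} [Ok n F]
  {ι ψ χ : XU n F →* G} {t : G} {E : Subgroup G}

local notation "X" => XU n F
local notation "V" => VV n F
local notation "𝐪" => Nat.card (K0 F)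
local notation "I" => Fin (n + 3)
local notation "Mx" => Matrix (Fin (n + 3)) (Fin (n + 3)) F

namespace SWP

theorem n1 (h4 : Nat.card F = 4) {b : F} (hb : b ≠ 0) : b * σ b = 1 := by
  have q : 𝐪 = 2 := by
    have := card_F (F := F)
    rw [h4] at this
    exact (Nat.pow_left_injective two_ne_zero (this.symm.trans (by norm_num : 4 = 2 ^ 2)))
  have := FiniteField.pow_card_sub_one_eq_one b hb
  rw [← Nat.card_eq_fintype_card, h4] at this
  rw [sg_pow, q, ← this]
  ring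

theorem mi_add {u v : V} (hu : Mi u) (hv : Mi v) : Mi (u + v) :=
  ⟨by rw [Pi.add_apply, hu.1, hv.1, add_zero], by rw [Pi.add_apply, hu.2, hv.2, add_zero]⟩

theorem mi_smul {v : V} (h : Mi v) (a : F) : Mi (a • v) :=
  ⟨by rw [Pi.smul_apply, h.1, smul_zero], by rw [Pi.smul_apply, h.2, smul_zero]⟩

theorem sw {u v : V} (h : bt u v = 0) : bt v u = 0 := by rw [bt_symm, h, map_zero]
theorem sw1 {u v : V} (h : bt u v = 1) : bt v u = 1 := by rw [bt_symm, h, map_one]

theorem ne_l {u v : V} (h : bt u v = 1) : u ≠ 0 := fun k => by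
  rw [k, ← zero_smul F (0 : V), bt_smul_left, zero_mul] at h
  exact zero_ne_one h

variable {a : VV n F → F}

theorem ad (h2 : ∀ u v, Is u → Mi u → Is v → Mi v → a (v + bt v u • u) = a v + bt v u * a u) {x y : V}
    (hx : bt x x = 0) (hy : bt y y = 0) (mx : Mi x) (my : Mi y) (h : bt x y = 1) : a (x + y) = a x + a y := by
  have := h2 y x ⟨hy, ne_l (sw1 h)⟩ my ⟨hx, ne_l h⟩ mx
  rwa [h, one_smul, one_mul] at this

theorem step (h2 : ∀ u v, Is u → Mi u → Is v → Mi v → a (v + bt v u • u) = a v + bt v u * a u) {u w v : V}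
    (hu : bt u u = 0) (hw : bt w w = 0) (hv : bt v v = 0) (mu : Mi u) (mw : Mi w) (mv : Mi v) (h : bt u w = 1)
    (k1 : bt u v = 0) (k2 : bt w v = 0) : a (u + v) + a u = a (w + v) + a w := by
  have e : u + v = (u + w) + (w + v) := by
    funext i
    simp only [Pi.add_apply]
    linear_combination -(w i) * (CharTwo.two_eq_zero : (2 : F) = 0)
  rw [e, ad h2 _ _ (mi_add mu mw) (mi_add mw mv), ad h2 hu hw mu mw h]
  · linear_combination (a u) * (CharTwo.two_eq_zero : (2 : F) = 0)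
  · simp only [bt_add_left, bt_add_right, h, k1, k2, hw, add_zero]
  · simp only [bt_add_left, bt_add_right, h, sw1 h, hu, hw, add_zero, zero_add, CharTwo.add_self_eq_zero]
  · simp only [bt_add_left, bt_add_right, k2, sw k2, hv, hw, add_zero]

theorem rot (h2 : ∀ u v, Is u → Mi u → Is v → Mi v → a (v + bt v u • u) = a v + bt v u * a u) {ω : F}
    (o1 : ω + σ ω = 1) (o2 : ω * σ ω = 1) {u w v y : V}
    (hu : bt u u = 0) (hw : bt w w = 0) (hv : bt v v = 0) (hy : bt y y = 1) (mu : Mi u) (mw : Mi w) (mv : Mi v)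
    (my : Mi y) (h : bt u w = 1) (k1 : bt u v = 0) (k2 : bt w v = 0) (k3 : bt u y = 0) (k4 : bt w y = 0)
    (k5 : bt y v = 0) : a (ω • u + v) + a (ω • u) = a (u + v) + a u := by
  have m1 := mi_add (mi_add (mi_smul mu ω) mw) my
  have i1 : bt (ω • u + w + y) (ω • u + w + y) = 0 := by
    simp only [bt_add_left, bt_add_right, bt_smul_left, bt_smul_right, hu, hw, hy, h, sw1 h, k3, k4, sw k3, sw k4]
    linear_combination o1 + (CharTwo.two_eq_zero : (2 : F) = 0)
  have i2 : bt (ω • w) (ω • w) = 0 := by simp only [bt_smul_left, bt_smul_right, hw, mul_zero]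
  have i3 : bt (ω • u) (ω • u) = 0 := by simp only [bt_smul_left, bt_smul_right, hu, mul_zero]
  have p1 : bt (ω • u + w + y) v = 0 := by simp only [bt_add_left, bt_smul_left, k1, k2, k5, mul_zero, add_zero]
  have p2 : bt (ω • w) v = 0 := by simp only [bt_smul_left, k2, mul_zero]
  have p3 : bt (ω • u) v = 0 := by simp only [bt_smul_left, k1, mul_zero]
  rw [step h2 hu i1 hv mu m1 mv _ k1 p1, step h2 i1 i2 hv m1 (mi_smul mw ω) mv _ p1 p2,
    step h2 i2 i3 hv (mi_smul mw ω) (mi_smul mu ω) mv _ p2 p3]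
  · simp only [bt_smul_left, bt_smul_right, sw1 h, mul_one]
    first | exact o2 | rw [mul_comm, o2]
  · simp only [bt_add_left, bt_smul_left, bt_smul_right, h, hw, sw k4, mul_zero, add_zero, mul_one]
    rw [mul_comm] at o2
    first | exact o2 | rw [mul_comm, o2]
  · simp only [bt_add_right, bt_smul_right, hu, h, k3, mul_zero, add_zero, zero_add]

theorem ex_y (hn : 4 ≤ n) : ∃ y : V, bt y y = 1 ∧ ∀ i : I, (i.1 ≤ 2 ∨ n ≤ i.1) → y i = 0 := by
  obtain ⟨ω, hω⟩ := ex_om (F := F)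
  let k : I := ⟨3, by omega⟩
  have z : ∀ i : I, (i.1 ≤ 2 ∨ n ≤ i.1) → (ee k : V) i = 0 ∧ (ee k.rev : V) i = 0 := fun i hi =>
    ⟨Pi.single_eq_of_ne (by simp only [k, ne_eq, Fin.ext_iff]; omega) _,
      Pi.single_eq_of_ne (by simp only [k, ne_eq, Fin.ext_iff, Fin.val_rev]; omega) _⟩
  by_cases e : k = k.rev
  · refine ⟨ee k, ?_, fun i hi => (z i hi).1⟩
    rw [bt_ee, ← e, ee, Pi.single_eq_same]
  · refine ⟨ee k + ω • ee k.rev, ?_, fun i hi => ?_⟩
    · simp only [bt_add_left, bt_add_right, bt_smul_left, bt_smul_right, bt_ee, Fin.rev_rev]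
      simp only [ee, Pi.add_apply, Pi.smul_apply, smul_eq_mul, Pi.single_eq_same, Pi.single_eq_of_ne e, Pi.single_eq_of_ne (Ne.symm e)]
      linear_combination hω
    · rw [Pi.add_apply, Pi.smul_apply, (z i hi).1, (z i hi).2, smul_zero, add_zero]

end SWP

open SWP in
theorem swp (h4 : Nat.card F = 4) (a : V → F) (h1 : ∀ (b : F) v, Is v → Mi v → b ≠ 0 → a (b • v) = b * a v)
    (h2 : ∀ u v, Is u → Mi u → Is v → Mi v → a (v + bt v u • u) = a v + bt v u * a u) :
    ∃ u v, Mi u ∧ Mi v ∧ Ot u v ∧ ∀ b : F, a (u + b • v) = a u + b * a v := by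
  have hn : 4 ≤ n := by
    have h3 := Ok.h3 (n := n) (F := F)
    have := Ok.h (n := n) (F := F)
    omega
  obtain ⟨ω, o1⟩ := ex_om (F := F)
  have w0 : ω ≠ 0 := fun k => by simp [k] at o1
  have w1 : ω ≠ 1 := fun k => by
    rw [k, map_one, CharTwo.add_self_eq_zero] at o1
    exact zero_ne_one o1
  have o2 := n1 h4 w0
  obtain ⟨y, hy, y0⟩ := ex_y (F := F) hn
  let i : I := ⟨1, by omega⟩
  let j : I := ⟨2, by omega⟩
  have b0 : ∀ k l : I, l.1 + k.1 ≠ n + 2 → bt (ee k : V) (ee l) = 0 := fun k l h => by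
    rw [bt_ee]
    exact Pi.single_eq_of_ne (by simp only [ne_eq, Fin.ext_iff, Fin.val_rev]; omega) _
  have b1 : ∀ k : I, bt (ee k : V) (ee k.rev) = 1 := fun k => by rw [bt_ee, Fin.rev_rev, ee, Pi.single_eq_same]
  have mi : ∀ k : I, k.1 ≠ 0 → k.1 ≠ n + 2 → Mi (ee k : V) := fun k k0 kL =>
    ⟨Pi.single_eq_of_ne (by simp only [ne_eq, Fin.ext_iff, Fin.val_zero]; omega) _,
      Pi.single_eq_of_ne (by simp only [ne_eq, Fin.ext_iff, Fin.val_last]; omega) _⟩
  have my : Mi y := ⟨y0 _ (by simp), y0 _ (by simp)⟩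
  have ye : ∀ k : I, (k.1 ≤ 2 ∨ n ≤ k.1) → bt y (ee k) = 0 := fun k hk => by
    rw [bt_ee]
    exact y0 _ (by rw [Fin.val_rev]; omega)
  have vi : i.1 = 1 := rfl
  have vj : j.1 = 2 := rfl
  have vi' : i.rev.1 = n + 1 := by rw [Fin.val_rev]; omega
  have vj' : j.rev.1 = n := by rw [Fin.val_rev]; omega
  have mI := mi i (by omega) (by omega)
  have mJ := mi j (by omega) (by omega)
  have mI' := mi i.rev (by omega) (by omega)
  have mJ' := mi j.rev (by omega) (by omega)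
  have o : Ot (ee i : V) (ee j) := by
    have := ot_ee (F := F) (i := i) (j := j.rev) (by
      refine ⟨?_, ?_, ?_, ?_⟩ <;> simp only [ne_eq, Fin.ext_iff, Fin.rev_rev] <;> omega)
    rwa [Fin.rev_rev] at this
  refine ⟨ee i, ee j, mI, mJ, o, fun b => ?_⟩
  by_cases hb : b = 0
  · rw [hb, zero_smul, add_zero, zero_mul, add_zero]
  have iI : Is (ee i : V) := by simpa using o.is (a := 1) (b := 0) (Or.inl one_ne_zero)
  have iJ : Is (ee j : V) := by simpa using o.is (a := 0) (b := 1) (Or.inr one_ne_zero)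
  have iB := iJ.smul hb
  have iS : Is (ee i + b • ee j : V) := by simpa using o.is (a := 1) (b := b) (Or.inl one_ne_zero)
  have s0 : ∀ (c : F) (x z : V), bt x z = 0 → bt x (c • z) = 0 := fun c x z h => by rw [bt_smul_right, h, mul_zero]
  have s1 : ∀ (c : F) (x z : V), bt x z = 0 → bt (c • x) z = 0 := fun c x z h => by rw [bt_smul_left, h, mul_zero]
  have r1 := rot h2 o1 o2 (u := ee i) (w := ee i.rev) (v := ω • b • ee j) iI.1 (b0 _ _ (by omega)) (iB.smul w0).1 hy
    mI mI' (mi_smul (mi_smul mJ b) ω) my (b1 i) (s0 _ _ _ (s0 _ _ _ (b0 _ _ (by omega))))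
    (s0 _ _ _ (s0 _ _ _ (b0 _ _ (by omega)))) (sw (ye _ (by omega))) (sw (ye _ (by omega)))
    (s0 _ _ _ (s0 _ _ _ (ye _ (by omega))))
  have r2 := rot h2 o1 o2 (u := b • ee j) (w := b • ee j.rev) (v := ee i) iB.1
    (s0 _ _ _ (s1 _ _ _ (b0 _ _ (by omega)))) iI.1 hy (mi_smul mJ b) (mi_smul mJ' b) mI my
    (by rw [bt_smul_left, bt_smul_right, b1, mul_one, n1 h4 hb]) (s1 _ _ _ (b0 _ _ (by omega)))
    (s1 _ _ _ (b0 _ _ (by omega))) (s1 _ _ _ (sw (ye _ (by omega)))) (s1 _ _ _ (sw (ye _ (by omega))))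
    (ye _ (by omega))
  rw [← smul_add, h1 ω _ iS (mi_add mI (mi_smul mJ b)) w0, h1 ω _ iI mI w0] at r1
  rw [add_comm (ω • b • ee j), add_comm (b • ee j), h1 ω _ iB (mi_smul mJ b) w0, h1 b _ iJ mJ hb] at r2
  have two : (2 : F) = 0 := CharTwo.two_eq_zero
  refine mul_left_cancel₀ (sub_ne_zero.2 w1) ?_
  linear_combination r1 + r2 + (a (ee i) - ω * a (ee i) - ω * b * a (ee j) + b * a (ee j)) * two

end UMS
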