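import Cfsg.Agent.Lib.UMS.HY

/-! An equivariant section of the doubled root groups. -/

set_option autoImplicit false
set_option linter.unusedSectionVars false

namespace UMS
namespace H87

open Subgroup H69 Cfsg Matrix U4S
open LMS (XX GX iL kk MM au tw Sg)
open scoped MatrixGroups commutatorElement

theorem maschke {A K T : Type*} [AddCommGroup A] [AddCommGroup K] [Group T] [Fintype T]
    (hT : Odd (Fintype.card T)) (hA : ∀ a : A, a + a = 0) (π : A →+ K) (hπ : Function.Surjective π)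
    (ρ : T → A →+ A) (μ : T → K →+ K) (hρ : ∀ a b x, ρ (a * b) x = ρ a (ρ b x))
    (hμ : ∀ a b x, μ (a * b) x = μ a (μ b x)) (μ1 : ∀ x, μ 1 x = x)
    (e : ∀ a x, π (ρ a x) = μ a (π x)) :
    ∃ s : K →+ A, (∀ c, π (s c) = c) ∧ ∀ a c, ρ a (s c) = s (μ a c) := by
  have hK : ∀ c : K, c + c = 0 := fun c => by
    obtain ⟨a, rfl⟩ := hπ c
    rw [← map_add, hA, map_zero]
  letI : Module (ZMod 2) A := AddCommGroup.zmodModule fun x => by rw [two_nsmul, hA]
  letI : Module (ZMod 2) K := AddCommGroup.zmodModule fun x => by rw [two_nsmul, hK]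
  obtain ⟨s0, hs⟩ := (π.toZModLinearMap 2).exists_rightInverse_of_surjective (LinearMap.range_eq_top.2 hπ)
  have hs' : ∀ c, π (s0 c) = c := fun c => LinearMap.congr_fun hs c
  refine ⟨∑ a : T, (ρ a).comp (s0.toAddMonoidHom.comp (μ a⁻¹)), fun c => ?_, fun b c => ?_⟩
  · rw [AddMonoidHom.finset_sum_apply, map_sum]
    have : ∀ a : T, π (((ρ a).comp (s0.toAddMonoidHom.comp (μ a⁻¹))) c) = c := fun a => by
      change π (ρ a (s0 (μ a⁻¹ c))) = c
      rw [e, hs', ← hμ, mul_inv_cancel, μ1]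
    simp only [this, Finset.sum_const, Finset.card_univ]
    obtain ⟨k, hk⟩ := hT
    rw [hk, add_nsmul, mul_nsmul, two_nsmul, hK, nsmul_zero, zero_add, one_nsmul]
  · rw [AddMonoidHom.finset_sum_apply, AddMonoidHom.finset_sum_apply, map_sum]
    refine Fintype.sum_equiv (Equiv.mulLeft b) _ _ fun a => ?_
    change ρ b (ρ a (s0 (μ a⁻¹ c))) = ρ (b * a) (s0 (μ (b * a)⁻¹ (μ b c)))
    rw [hρ, ← hμ, _root_.mul_inv_rev, inv_mul_cancel_right]

variable {G : Type*} [Group G] {n : ℕ} {F : Type*} [Field F] [CharP F 2] [Fintype F] [Hs F]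
variable {ι : XU n F →* G} {t : G}

theorem mem_St1 {v : VV n F} {x : XU n F} : x ∈ St {v} ↔ ac x v = v :=
  ⟨fun h => h v rfl, fun h _ hu => by rw [Set.mem_singleton_iff.1 hu]; exact h⟩

theorem D0_cen {v : VV n F} {c : K0 F} {w : G} (h : D0 ι t v c w) {x : XU n F} (hx : ac x v = v) :
    ι x * w * (ι x)⁻¹ = w := by
  rw [← h.1 x (mem_St1.2 hx), mul_inv_cancel_right]

theorem D0_ac (h1 : C1 ι t) {v : VV n F} (hv : bt v v = 0) {c : K0 F} {w : G} (h : D0 ι t v c w) (x : XU n F) :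
    D0 ι t (ac x v) c (ι x * w * (ι x)⁻¹) := by
  refine ⟨fun y hy => ?_, ?_⟩
  · have k : ac (x⁻¹ * y * x) v = v := by rw [H12.ac_mul, H12.ac_mul, mem_St1.1 hy, H12.ac_inv]
    have := h.1 _ (mem_St1.2 k)
    rw [map_mul, map_mul, map_inv] at this
    calc ι x * w * (ι x)⁻¹ * ι y = ι x * (w * ((ι x)⁻¹ * ι y * ι x)) * (ι x)⁻¹ := by group
      _ = ι y * (ι x * w * (ι x)⁻¹) := by rw [this]; group
  · have a : (ι x)⁻¹ * t * ι x = t := by rw [mul_assoc, h1.tc, inv_mul_cancel_left]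
    calc ι x * w * (ι x)⁻¹ * t * (ι x * w * (ι x)⁻¹)⁻¹
        = ι x * (w * ((ι x)⁻¹ * t * ι x) * w⁻¹) * (ι x)⁻¹ := by group
      _ = t * ι (tc (UMS.ac x v) c) := by
        rw [a, h.2, ← H12.cj_tc x hv, map_mul, map_mul, map_inv, ← mul_assoc, ← h1.tc]; group

theorem CO_ac {w : G} (h : CO ι t w) (x : XU n F) : CO ι t (ι x * w * (ι x)⁻¹) := by
  intro o ho
  have a : ι x * o = o * ι x := (mem_centralizer_iff.1 ho.1 _ ⟨x, rfl⟩)
  have b : (ι x)⁻¹ * o = o * (ι x)⁻¹ := by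
    rw [← map_inv]; exact (mem_centralizer_iff.1 ho.1 _ ⟨x⁻¹, rfl⟩)
  rw [mul_assoc, b, ← mul_assoc, mul_assoc (ι x), h o ho, ← mul_assoc, a]; group

theorem Xs_ac (h1 : C1 ι t) {v : VV n F} (hv : bt v v = 0) {c : K0 F} {w : G} (h : Xs ι t v c w) (x : XU n F) :
    Xs ι t (ac x v) c (ι x * w * (ι x)⁻¹) := by
  refine ⟨D0_ac h1 hv h.1 x, CO_ac h.2.1 x, ?_, fun a e => h.2.2.2 a ?_⟩
  · calc ι x * w * (ι x)⁻¹ * (ι x * w * (ι x)⁻¹) = ι x * (w * w) * (ι x)⁻¹ := by group
      _ = 1 := by rw [h.2.2.1]; group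
  · rw [← H12.cj_tc x hv, map_mul, map_mul, map_inv, ← mul_assoc, ← mul_assoc, h1.tc, mul_assoc (ι x) t] at e
    exact mul_left_cancel (mul_right_cancel e)

theorem nm_ne {a : F} (ha : a ≠ 0) : (nm a : K0 F) ≠ 0 := fun e => by
  have : a * σ a = 0 := congrArg Subtype.val e
  rcases mul_eq_zero.1 this with k | k
  · exact ha k
  · exact ha ((map_eq_zero_iff _ (σ : RingAut F).injective).1 k)

theorem nm_mul (a b : F) : (nm (a * b) : K0 F) = nm a * nm b :=
  Subtype.ext (by change a * b * σ (a * b) = a * σ a * (b * σ b); rw [map_mul]; ring)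

theorem nm_one : (nm (1 : F) : K0 F) = 1 := Subtype.ext (by change (1 : F) * σ 1 = 1; simp)

theorem nm_zero : (nm (0 : F) : K0 F) = 0 := Subtype.ext (by change (0 : F) * σ 0 = 0; simp)

theorem St_smul {v : VV n F} {a : F} (ha : a ≠ 0) : St {a • v} = St {v} := by
  ext x
  rw [mem_St1, mem_St1, H12.ac_smul]
  exact ⟨fun h => smul_right_injective _ ha h, fun h => by rw [h]⟩

theorem D0_smul {v : VV n F} (hv : bt v v = 0) {a : F} (ha : a ≠ 0) {c : K0 F} {w : G} :
    D0 ι t (a • v) c w ↔ D0 ι t v (c * nm a) w := by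
  unfold D0; rw [St_smul ha, H12.tc_smul hv]

theorem Xs_smul {v : VV n F} (hv : bt v v = 0) {a : F} (ha : a ≠ 0) {c : K0 F} {w : G} :
    Xs ι t (a • v) c w ↔ Xs ι t v (c * nm a) w := by
  unfold Xs
  rw [D0_smul hv ha]
  refine and_congr_right fun _ => and_congr_right fun _ => and_congr_right fun _ => ⟨fun h b e => ?_, fun h b e => ?_⟩
  · refine h (b / nm a) ?_
    rw [H12.tc_smul hv, div_mul_cancel₀ _ (nm_ne ha)]; exact e
  · rw [H12.tc_smul hv] at e; exact h _ e

theorem Is_smul {v : VV n F} (hv : Is v) {a : F} (ha : a ≠ 0) : Is (a • v) :=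
  ⟨by rw [H12.bt_smul_l, H12.bt_smul_r, hv.1, mul_zero, mul_zero], smul_ne_zero ha hv.2⟩

theorem cc (c : K0 F) : c + c = 0 := Subtype.ext (CharTwo.add_self_eq_zero (c : F))

theorem odd_units [DecidableEq F] : Odd (Fintype.card Fˣ) := by
  have h : ringChar F = 2 := ringChar.eq F 2
  have := FiniteField.even_card_of_char_two h
  have p : 0 < Fintype.card F := Fintype.card_pos
  rw [Fintype.card_units, Nat.odd_iff]
  omega

theorem sec (h : C4 ι t) {v : VV n F} (hv : Is v) : ∃ s : K0 F → G, (∀ c, Xs ι t v c (s c)) ∧ s 0 = 1 ∧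
    (∀ c d, s (c + d) = s c * s d) ∧
    ∀ x (a : F), a ≠ 0 → ac x v = a • v → ∀ c, ι x * s c * (ι x)⁻¹ = s (c * nm a) := by
  classical
  have h1 : C1 ι t := h.toC1
  let Z : Subgroup (Multiplicative (K0 F) × G) :=
    { carrier := {p | Xs ι t v p.1.toAdd p.2}
      mul_mem' := fun ha hb => h.mul v hv _ _ _ _ ha hb
      one_mem' := by
        obtain ⟨w, hw⟩ := h.xe v hv 0
        have := h.mul v hv _ _ _ _ hw hw
        rw [hw.2.2.1, add_zero] at this
        exact this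
      inv_mem' := fun {p} hp => by
        have e1 : p.2⁻¹ = p.2 := inv_eq_of_mul_eq_one_right hp.2.2.1
        have e2 : (p.1⁻¹).toAdd = p.1.toAdd := neg_eq_of_add_eq_zero_right (cc _)
        change Xs ι t v (p.1⁻¹).toAdd p.2⁻¹
        rw [e1, e2]; exact hp }
  letI : CommGroup Z := { (inferInstance : Group Z) with
    mul_comm := fun a b => Subtype.ext (Prod.ext (mul_comm _ _) (h.cm v v hv hv hv.1 _ _ _ _ a.2 b.2)) }
  choose g hg using fun a : Fˣ => H76.tr_Is hv (Is_smul hv a.ne_zero)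
  have key : ∀ (p : Z) x (a : Fˣ), ac x v = (a : F) • v → ι x * p.1.2 * (ι x)⁻¹ = ι (g a) * p.1.2 * (ι (g a))⁻¹ := by
    intro p x a hx
    have k : ac ((g a)⁻¹ * x) v = v := by rw [H12.ac_mul, hx, ← hg, H12.ac_inv]
    have := D0_cen p.2.1 k
    rw [map_mul, map_inv] at this
    conv_rhs => rw [← this]
    group
  let μ : Fˣ → K0 F →+ K0 F := fun a => AddMonoidHom.mulRight (nm (a : F))
  let ρ0 : Fˣ → Z →* Z := fun a =>
    { toFun := fun p => ⟨(Multiplicative.ofAdd (p.1.1.toAdd * nm (a : F)), ι (g a) * p.1.2 * (ι (g a))⁻¹), by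
        have := Xs_ac h1 hv.1 p.2 (g a)
        rw [hg, Xs_smul hv.1 a.ne_zero] at this
        exact this⟩
      map_one' := Subtype.ext (Prod.ext (by simp) (by simp))
      map_mul' := fun p q => Subtype.ext (Prod.ext (by simp [add_mul]) (by simp)) }
  let π : Additive Z →+ K0 F :=
    { toFun := fun p => p.toMul.1.1.toAdd
      map_zero' := rfl
      map_add' := fun _ _ => rfl }
  obtain ⟨s, hs, hs'⟩ := maschke (A := Additive Z) (odd_units (F := F))
    (fun a => by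
      refine Additive.toMul.injective (Subtype.ext (Prod.ext ?_ a.toMul.2.2.2.1))
      exact Multiplicative.toAdd.injective (cc _))
    π (fun c => by
      obtain ⟨w, hw⟩ := h.xe v hv c
      exact ⟨Additive.ofMul ⟨(Multiplicative.ofAdd c, w), hw⟩, rfl⟩)
    (fun a => MonoidHom.toAdditive (ρ0 a)) μ
    (fun a b x => by
      refine Additive.toMul.injective (Subtype.ext (Prod.ext ?_ ?_))
      · change Multiplicative.ofAdd (_ * nm ((a * b : Fˣ) : F)) = Multiplicative.ofAdd (_ * nm (b : F) * nm (a : F))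
        rw [Units.val_mul, nm_mul, mul_comm (nm (a : F)), mul_assoc]
      · change ι (g (a * b)) * x.toMul.1.2 * (ι (g (a * b)))⁻¹ =
          ι (g a) * (ι (g b) * x.toMul.1.2 * (ι (g b))⁻¹) * (ι (g a))⁻¹
        rw [← key x.toMul (g a * g b) (a * b) (by
          rw [H12.ac_mul, hg, H12.ac_smul, hg, smul_smul, Units.val_mul, mul_comm]), map_mul]
        group)
    (fun a b x => by
      change x * nm ((a * b : Fˣ) : F) = x * nm (b : F) * nm (a : F)
      rw [Units.val_mul, nm_mul]; ring)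
    (fun x => by change x * nm ((1 : Fˣ) : F) = x; rw [Units.val_one, nm_one, mul_one])
    (fun _ _ => rfl)
  refine ⟨fun c => (s c).toMul.1.2, fun c => ?_, by simp, fun c d => by simp only [map_add]; rfl, fun x a ha hx c => ?_⟩
  · have := (s c).toMul.2
    have e : (s c).toMul.1.1.toAdd = c := hs c
    change Xs ι t v (s c).toMul.1.1.toAdd _ at this
    rwa [e] at this
  · have := congrArg (fun p : Additive Z => p.toMul.1.2) (hs' (Units.mk0 a ha) c)
    rw [key _ x (Units.mk0 a ha) hx]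
    exact this

theorem exWt (h : C4 ι t) : ∃ W, Wt ι t W := by
  classical
  have h1 : C1 ι t := h.toC1
  have h0 : Is (ee 0 : VV n F) := H76.is_ee (by intro e; have := congrArg Fin.val e; simp [Fin.rev] at this)
  obtain ⟨s, s1, s0, s2, s3⟩ := sec h h0
  choose g hg using fun (v : VV n F) (hv : Is v) => H76.tr_Is h0 hv
  let W : VV n F → G := fun v => if hv : Is v then ι (g v hv) * s 1 * (ι (g v hv))⁻¹ else 1
  have W0 : W 0 = 1 := dif_neg fun k => k.2 rfl
  have key : ∀ x, W (ac x (ee 0)) = ι x * s 1 * (ι x)⁻¹ := fun x => by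
    have hv := H76.Is.ac h0 x
    have k : ac ((g _ hv)⁻¹ * x) (ee 0) = ee 0 := by
      have k2 := H12.ac_inv (g _ hv) (ee 0)
      rw [hg] at k2
      rw [H12.ac_mul, k2]
    have := D0_cen (s1 1).1 k
    rw [map_mul, map_inv] at this
    have e : W (ac x (ee 0)) = ι (g _ hv) * s 1 * (ι (g _ hv))⁻¹ := dif_pos hv
    rw [e]
    conv_lhs => rw [← this]
    group
  have sm : ∀ x (a : F), W (a • ac x (ee 0)) = ι x * s (nm a) * (ι x)⁻¹ := fun x a => by
    by_cases ha : a = 0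
    · rw [ha, zero_smul, W0, nm_zero, s0]; group
    · obtain ⟨y, hy⟩ := H76.tr_Is h0 (Is_smul h0 ha)
      rw [← H12.ac_smul, ← hy, ← H12.ac_mul, key, map_mul, ← one_mul (nm a), ← s3 y a ha hy]
      group
  refine ⟨W, fun v hv => ?_, W0, fun x v hv => ?_, fun v hv a b c e => ?_⟩
  · obtain ⟨x, rfl⟩ := H76.tr_Is h0 hv
    rw [key]; exact Xs_ac h1 h0.1 (s1 1) x
  · by_cases k : v = 0
    · rw [k, H12.ac_zero, W0]; group
    · obtain ⟨y, rfl⟩ := H76.tr_Is h0 ⟨hv, k⟩
      rw [← H12.ac_mul, key, key, map_mul]; group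
  · by_cases k : v = 0
    · simp [k, W0]
    · obtain ⟨y, rfl⟩ := H76.tr_Is h0 ⟨hv, k⟩
      rw [sm, sm, sm, ← e, s2]; group

end H87
end UMS
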